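import Mathlib
import Cfsg.Agent.Helper5.GlSolv
import Cfsg.Agent.Helper5.Isom
import Cfsg.Agent.Helper5.DegRatio
import Cfsg.Agent.Helper5.DetChar
import Cfsg.Agent.Helper5.LinChar
import Cfsg.Agent.Helper5.PRes
import Cfsg.Agent.Helper24.CharGagola3
import Cfsg.Agent.Helper24.CharDecomp
import Cfsg.Agent.Helper24.CharCliff2
import Cfsg.Agent.Helper24.CharIto
import Cfsg.Agent.Helper22.GalIrr
import Cfsg.Agent.Helper22.Ito
import Cfsg.Agent.S0867
import Cfsg.Agent.S0001

/-!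
helper5: characters of degree coprime to `|H|` in `X = K ⋊ H` (coprime orders, `H` solvable):
their number is `|Irr(C_K(H))| · |Lin(H)|`.
-/

set_option autoImplicit false

namespace Cfsg.Agent.Helper5

open Cfsg Cfsg.Agent.Helper24

universe u

section Semi

theorem isIrrCharacter_of_linear {G : Type u} [Group G] [Finite G] {χ : G → ℂ}
    (h : IsCharacter G χ) (h1 : χ 1 = 1) : IsIrrCharacter G χ := by
  obtain ⟨φ, hφ⟩ := linChar_exists_hom h h1
  have h2 := isIrrCharacter_unitHom_mul φ (Cfsg.Agent.Helper24.isIrrCharacter_one (G := G))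
  have e : (fun g => ((φ g : ℂˣ) : ℂ) * (fun _ : G => (1 : ℂ)) g) = χ :=
    funext fun g => (mul_one _).trans (hφ g)
  exact Eq.subst (motive := fun f => IsIrrCharacter G f) e h2

theorem card_irr_congr {A B : Type u} [Group A] [Group B] (e : A ≃* B) :
    Nat.card (IrrCharacter A) = Nat.card (IrrCharacter B) :=
  Nat.card_congr
    { toFun := fun θ => ⟨fun b => (θ : A → ℂ) (e.symm b), isIrrCharacter_comp_mulEquiv e.symm θ.2⟩
      invFun := fun θ => ⟨fun a => (θ : B → ℂ) (e a), isIrrCharacter_comp_mulEquiv e θ.2⟩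
      left_inv := fun θ => Subtype.ext (funext fun a => by simp)
      right_inv := fun θ => Subtype.ext (funext fun b => by simp) }

theorem index_eq_card_of_compl {X : Type u} [Group X] [Finite X] (K H : Subgroup X) [K.Normal]
    (hKH : K ⊔ H = ⊤) (hcop : (Nat.card K).Coprime (Nat.card H)) : K.index = Nat.card H := by
  have hbot : K ⊓ H = ⊥ := disjoint_iff.mp (Subgroup.disjoint_of_coprime_natCard hcop)
  rw [← Subgroup.relIndex_top_right, ← hKH, Subgroup.relIndex_sup_left,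
    ← Subgroup.inf_relIndex_right, hbot, Subgroup.relIndex_bot_left]

/-- invariance under the whole group. -/
abbrev XInv {X : Type u} [Group X] (K : Subgroup X) [hK : K.Normal] (θ : IrrCharacter K) : Prop :=
  ∀ (g : X) (n : K), (θ : K → ℂ) ⟨g * n * g⁻¹, hK.conj_mem (n : X) n.2 g⟩ = (θ : K → ℂ) n

/-- linear characters trivial on `K`. -/
abbrev LinK {X : Type u} [Group X] (K : Subgroup X) (β : IrrCharacter X) : Prop :=
  (β : X → ℂ) 1 = 1 ∧ ∀ k : K, (β : X → ℂ) k = 1

theorem xinv_iff {X : Type u} [Group X] (K H : Subgroup X) [hK : K.Normal] (hKH : K ⊔ H = ⊤)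
    (θ : IrrCharacter K) : XInv K θ ↔ InvS H K θ := by
  constructor
  · intro h s hs g g' hgg'
    have e : g' = ⟨s * g * s⁻¹, hK.conj_mem (g : X) g.2 s⟩ := Subtype.ext hgg'
    rw [e]; exact h s g
  · intro h x n
    have hx : x ∈ H ⊔ K := by rw [sup_comm, hKH]; exact Subgroup.mem_top x
    obtain ⟨h₁, hh₁, k, hk, rfl⟩ := (Cfsg.Agent.S0001.mem_sup_normal H K x).mp hx
    have hcl := irr_isClassFunction θ n ⟨k, hk⟩
    rw [← hcl]
    exact h h₁ hh₁ (⟨k, hk⟩ * n * ⟨k, hk⟩⁻¹)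
      ⟨h₁ * k * n * (h₁ * k)⁻¹, hK.conj_mem (n : X) n.2 (h₁ * k)⟩ (by
        show h₁ * k * (n : X) * (h₁ * k)⁻¹ = h₁ * (k * (n : X) * k⁻¹) * h₁⁻¹
        group)

set_option maxHeartbeats 1600000 in
theorem semidirect_count {X : Type u} [Group X] [Finite X] (K : Subgroup X) [hK : K.Normal]
    (m : ℕ) (hidx : K.index = m) (hcop : (Nat.card K).Coprime m) :
    Nat.card {χ : IrrCharacter X // (charDegree (χ : X → ℂ)).Coprime m} =
      Nat.card {θ : IrrCharacter K // XInv K θ} * Nat.card {β : IrrCharacter X // LinK K β} := by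
  classical
  have instX : Fintype X := Fintype.ofFinite X
  have instK : Fintype K := Fintype.ofFinite K
  have hone : IsIrrCharacter K (fun _ : K => (1 : ℂ)) := Cfsg.Agent.Helper24.isIrrCharacter_one
  have hdeg : ∀ θ : IrrCharacter K, ∃ d : ℕ, (θ : K → ℂ) 1 = d ∧ d ∣ Nat.card K :=
    fun θ => irr_degree_dvd_card θ
  have hext : ∀ θ : {θ : IrrCharacter K // XInv K θ}, ∃ χ : X → ℂ, IsIrrCharacter X χ ∧
      ∀ n : K, χ n = ((θ : IrrCharacter K) : K → ℂ) n := by
    intro θ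
    obtain ⟨d, hd, hdK⟩ := hdeg θ.1
    have hc : Nat.Coprime K.index (detOrder ((θ : IrrCharacter K) : K → ℂ) * d) := by
      rw [hidx]
      exact Nat.Coprime.mul_right
        (Nat.Coprime.coprime_dvd_right (detOrder_dvd_card _) hcop.symm)
        (Nat.Coprime.coprime_dvd_right hdK hcop.symm)
    obtain ⟨χ, ⟨hχ, hχK, -⟩, -⟩ :=
      Cfsg.Agent.S0867.result K ((θ : IrrCharacter K) : K → ℂ) θ.1.2 θ.2 d hd hc
    exact ⟨χ, hχ, hχK⟩
  choose ext hextirr hextK using hext
  have hΛ : ∀ β : IrrCharacter X, LinK K β →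
      classInner (indFun K (fun _ : K => (1 : ℂ))) (β : X → ℂ) ≠ 0 := by
    intro β hβ
    rw [classInner_indFun K _ (β : X → ℂ) (irr_isClassFunction β)]
    have e : (fun h : K => (β : X → ℂ) h) = fun _ => 1 := funext hβ.2
    rw [e]
    have h1 := irr_inner_self (⟨fun _ => 1, hone⟩ : IrrCharacter K)
    rw [h1]; exact one_ne_zero
  have hmul1 : ∀ θ : K → ℂ, (fun _ : K => (1 : ℂ)) * θ = θ :=
    fun θ => funext fun n => one_mul _
  have hgal := fun θ : {θ : IrrCharacter K // XInv K θ} =>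
    gallagher_bij K (fun _ : K => (1 : ℂ)) ((θ : IrrCharacter K) : K → ℂ) hone (fun _ _ => rfl)
      θ.2 (by rw [hmul1]; exact θ.1.2) (ext θ) (hextirr θ) (hextK θ)
  rw [← Nat.card_prod]
  symm
  refine Nat.card_eq_of_bijective (fun x => ⟨⟨((x.2 : IrrCharacter X) : X → ℂ) * ext x.1,
    ((hgal x.1).1 x.2.1 (hΛ x.2.1 x.2.2)).1⟩, ?_⟩) ⟨?_, ?_⟩
  · obtain ⟨d, hd, hdK⟩ := hdeg x.1.1
    have h1 : (((x.2 : IrrCharacter X) : X → ℂ) * ext x.1) 1 = d := by
      rw [Pi.mul_apply, x.2.2.1, one_mul, ← hd]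
      exact hextK x.1 1
    show (charDegree (((x.2 : IrrCharacter X) : X → ℂ) * ext x.1)).Coprime m
    rw [charDegree_of_eq h1]
    exact Nat.Coprime.coprime_dvd_left hdK hcop
  · rintro ⟨θ, β⟩ ⟨θ', β'⟩ heq
    have hfun : ((β : IrrCharacter X) : X → ℂ) * ext θ =
        ((β' : IrrCharacter X) : X → ℂ) * ext θ' :=
      congrArg (fun a : {χ : IrrCharacter X // (charDegree (χ : X → ℂ)).Coprime m} =>
        ((a : IrrCharacter X) : X → ℂ)) heq
    have hθ : θ = θ' := by
      apply Subtype.ext; apply Subtype.ext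
      funext n
      have h := congrFun hfun (n : X)
      rw [Pi.mul_apply, Pi.mul_apply, β.2.2 n, β'.2.2 n, one_mul, one_mul, hextK θ n,
        hextK θ' n] at h
      exact h
    subst hθ
    have hβ : β.1 = β'.1 := (hgal θ).2.1 β.1 β'.1 (hΛ β.1 β.2) (hΛ β'.1 β'.2) hfun
    have hβ' : β = β' := Subtype.ext hβ
    rw [hβ']
  · rintro ⟨χ, hχcop⟩
    have hresK : IsCharacter K (fun n : K => (χ : X → ℂ) n) :=
      isCharacter_restrict K (isCharacter_of_isIrrCharacter χ.2)
    have hres1 : (fun n : K => (χ : X → ℂ) n) 1 ≠ 0 := Cfsg.Agent.Helper24.irr_one_ne_zero χ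
    obtain ⟨θ, hθ⟩ := Cfsg.Agent.Helper22.exists_irr_constituent hresK hres1
    obtain ⟨e, he⟩ := isCharacter_inner_irr hresK θ
    obtain ⟨d, hd, hdK⟩ := hdeg θ
    have hcl := clifford_degree_inner K (χ : X → ℂ) χ.2 (θ : K → ℂ) θ.2 hθ
    rw [he, hd] at hcl
    obtain ⟨t, ht⟩ : ∃ t : ℕ,
      t = Set.ncard {φ : K → ℂ | ∃ g : X, φ = twist K (θ : K → ℂ) g} := ⟨_, rfl⟩
    rw [← ht] at hcl
    have hχ1 : (χ : X → ℂ) 1 = ((e * t * d : ℕ) : ℂ) := by rw [hcl]; push_cast; ring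
    have hcd : charDegree (χ : X → ℂ) = e * t * d := charDegree_of_eq hχ1
    have htdvd : t ∣ m := by
      rw [ht, ← hidx]
      exact Cfsg.Agent.Helper22.ncard_twist_orbit_dvd K (θ : K → ℂ) (irr_isClassFunction θ)
    have ht1 : t = 1 := by
      have h1 : t ∣ Nat.gcd (e * t * d) m := Nat.dvd_gcd ⟨e * d, by ring⟩ htdvd
      rw [← hcd, Nat.Coprime.gcd_eq_one hχcop] at h1
      exact Nat.dvd_one.mp h1
    have hθinv : XInv K θ := by
      rw [ht1] at ht
      obtain ⟨a, ha⟩ := Set.ncard_eq_one.mp ht.symm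
      have h1 : (θ : K → ℂ) ∈ {φ : K → ℂ | ∃ g : X, φ = twist K (θ : K → ℂ) g} :=
        ⟨1, funext fun n => congrArg (θ : K → ℂ) (Subtype.ext (by simp))⟩
      intro g n
      have h2 : twist K (θ : K → ℂ) g ∈ {φ : K → ℂ | ∃ g : X, φ = twist K (θ : K → ℂ) g} :=
        ⟨g, rfl⟩
      rw [ha] at h1 h2
      have h3 : twist K (θ : K → ℂ) g = (θ : K → ℂ) :=
        (Set.mem_singleton_iff.mp h2).trans (Set.mem_singleton_iff.mp h1).symm
      exact congrFun h3 n
    obtain ⟨n, ρ, hρ, hρθ⟩ := θ.2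
    have hinv' : ∀ (g : X) (k : K),
        ρ.character ⟨g * k * g⁻¹, hK.conj_mem k k.2 g⟩ = ρ.character k := by
      rw [hρθ]; exact hθinv
    have hcon' : classInner (fun n : K => (χ : X → ℂ) n) ρ.character ≠ 0 := by
      rw [hρθ]; exact hθ
    obtain ⟨b, hb1, hb2⟩ := degree_dvd_of_invariant K ρ hρ hinv' (χ : X → ℂ) χ.2 hcon'
    have hcd2 : charDegree (χ : X → ℂ) = b * n := charDegree_of_eq hb1
    have hb : b = 1 := by
      have h1 : b ∣ Nat.gcd (b * n) m := Nat.dvd_gcd ⟨n, rfl⟩ (hidx ▸ hb2)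
      rw [← hcd2, Nat.Coprime.gcd_eq_one hχcop] at h1
      exact Nat.dvd_one.mp h1
    have hθ1 : (θ : K → ℂ) 1 = n := by
      rw [← hρθ, Representation.char_one]; simp
    rw [hb, one_mul] at hb1
    have hInd : classInner (indFun K ((fun _ : K => (1 : ℂ)) * (θ : K → ℂ))) (χ : X → ℂ) ≠ 0 := by
      rw [hmul1, classInner_indFun K _ _ (irr_isClassFunction χ), classInner_conj_symm]
      intro h0
      apply hθ
      exact (map_eq_zero _).mp h0
    obtain ⟨β, hβInd, hβχ⟩ := (hgal ⟨θ, hθinv⟩).2.2 (χ : X → ℂ) χ.2 hInd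
    have hn0 : (n : ℂ) ≠ 0 := by rw [← hθ1]; exact Cfsg.Agent.Helper24.irr_one_ne_zero θ
    have hβ1 : (β : X → ℂ) 1 = 1 := by
      have h := congrFun hβχ 1
      rw [Pi.mul_apply, hb1] at h
      have h2 : ext ⟨θ, hθinv⟩ 1 = n := (hextK ⟨θ, hθinv⟩ 1).trans hθ1
      rw [h2] at h
      exact mul_right_cancel₀ hn0 (h.trans (one_mul _).symm)
    have hβK : ∀ k : K, (β : X → ℂ) k = 1 := by
      have hβres : IsCharacter K (fun k : K => (β : X → ℂ) k) :=
        isCharacter_restrict K (isCharacter_of_isIrrCharacter β.2)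
      have hβirr : IsIrrCharacter K (fun k : K => (β : X → ℂ) k) :=
        isIrrCharacter_of_linear hβres hβ1
      by_contra hne
      apply hβInd
      rw [classInner_indFun K _ (β : X → ℂ) (irr_isClassFunction β)]
      have hne' : (⟨fun _ => 1, hone⟩ : IrrCharacter K) ≠
          ⟨fun k : K => (β : X → ℂ) k, hβirr⟩ := by
        intro heq
        apply hne
        intro k
        exact (congrFun (congrArg Subtype.val heq) k).symm
      exact irr_inner_ne hne'
    refine ⟨(⟨θ, hθinv⟩, ⟨β, hβ1, hβK⟩), ?_⟩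
    exact Subtype.ext (Subtype.ext hβχ)

theorem semidirect_count' {X : Type u} [Group X] [Finite X] (K H : Subgroup X) [hK : K.Normal]
    (hKH : K ⊔ H = ⊤) (hcop : (Nat.card K).Coprime (Nat.card H)) (hsolv : Group.IsSolvable H) :
    Nat.card {χ : IrrCharacter X // (charDegree (χ : X → ℂ)).Coprime (Nat.card H)} =
      Nat.card (IrrCharacter ↥(K ⊓ Subgroup.centralizer (H : Set X))) *
        Nat.card {β : IrrCharacter X // LinK K β} := by
  classical
  have instX : Fintype X := Fintype.ofFinite X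
  have hidx := index_eq_card_of_compl K H hKH hcop
  rw [semidirect_count K (Nat.card H) hidx hcop]
  congr 1
  have h1 : Nat.card {θ : IrrCharacter K // XInv K θ} =
      Nat.card {θ : IrrCharacter K // InvS H K θ} :=
    Nat.card_congr (Equiv.subtypeEquivRight (fun θ => xinv_iff K H hKH θ))
  rw [h1]
  exact (solv_count (Nat.card K) K H rfl (fun s _ g hg => hK.conj_mem g hg s) hcop hsolv _ rfl).1

set_option maxHeartbeats 1600000 in
theorem lin_count {G : Type u} [Group G] [Finite G] (K H N : Subgroup G) [hK : K.Normal]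
    (hKH : K ⊔ H = ⊤) (hHN : H ≤ N) :
    Nat.card {β : IrrCharacter G // LinK K β} =
      Nat.card {β : IrrCharacter N // LinK (K.subgroupOf N) β} := by
  classical
  have hdecomp : ∀ g : G, ∃ h ∈ H, ∃ k ∈ K, g = h * k := by
    intro g
    have hg : g ∈ H ⊔ K := by rw [sup_comm, hKH]; exact Subgroup.mem_top g
    exact (Cfsg.Agent.S0001.mem_sup_normal H K g).mp hg
  have hres : ∀ β : {β : IrrCharacter G // LinK K β},
      IsIrrCharacter N (fun n : N => ((β : IrrCharacter G) : G → ℂ) n) := by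
    intro β
    exact isIrrCharacter_of_linear
      (isCharacter_restrict N (isCharacter_of_isIrrCharacter β.1.2)) β.2.1
  refine Nat.card_eq_of_bijective
    (fun β => ⟨⟨fun n : N => ((β : IrrCharacter G) : G → ℂ) n, hres β⟩, β.2.1,
      fun k => β.2.2 ⟨((k : ↥N) : G), k.2⟩⟩) ⟨?_, ?_⟩
  · intro β β' heq
    have hfun : (fun n : N => ((β : IrrCharacter G) : G → ℂ) n) =
        fun n : N => ((β' : IrrCharacter G) : G → ℂ) n :=
      congrArg (fun a : {β : IrrCharacter N // LinK (K.subgroupOf N) β} =>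
        ((a : IrrCharacter N) : N → ℂ)) heq
    apply Subtype.ext; apply Subtype.ext
    funext g
    obtain ⟨h, hh, k, hk, rfl⟩ := hdecomp g
    rw [linChar_mul (isCharacter_of_isIrrCharacter β.1.2) β.2.1,
      linChar_mul (isCharacter_of_isIrrCharacter β'.1.2) β'.2.1, β.2.2 ⟨k, hk⟩, β'.2.2 ⟨k, hk⟩,
      mul_one, mul_one]
    exact congrFun hfun ⟨h, hHN hh⟩
  · rintro ⟨lam, hlam1, hlamK⟩
    have hlamc : IsCharacter N (lam : N → ℂ) := isCharacter_of_isIrrCharacter lam.2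
    obtain ⟨φ, hφ⟩ := linChar_exists_hom hlamc hlam1
    obtain ⟨ι, hι⟩ : ∃ ι : ↥N →* G ⧸ K, ι = (QuotientGroup.mk' K).comp N.subtype := ⟨_, rfl⟩
    have hιv : ∀ n : N, ι n = ((n : G) : G ⧸ K) := by
      intro n; rw [hι]; rfl
    have hsurj : Function.Surjective ι := by
      intro q
      obtain ⟨g, rfl⟩ := QuotientGroup.mk_surjective q
      obtain ⟨h, hh, k, hk, rfl⟩ := hdecomp g
      refine ⟨⟨h, hHN hh⟩, ?_⟩
      rw [hιv]
      exact QuotientGroup.eq.mpr (by rw [inv_mul_cancel_left]; exact hk)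
    have hker : ι.ker ≤ φ.ker := by
      intro n hn
      rw [MonoidHom.mem_ker, hιv] at hn
      have hnK : (n : G) ∈ K := (QuotientGroup.eq_one_iff (n : G)).mp hn
      rw [MonoidHom.mem_ker]
      apply Units.ext
      rw [hφ]
      exact hlamK ⟨n, Subgroup.mem_subgroupOf.mpr hnK⟩
    obtain ⟨ψ, hψ⟩ : ∃ ψ : G ⧸ K →* ℂˣ, ∀ n : N, ψ (ι n) = φ n :=
      ⟨ι.liftOfRightInverse (Function.surjInv hsurj) (Function.rightInverse_surjInv hsurj)
        ⟨φ, hker⟩,
        fun n => ι.liftOfRightInverse_comp_apply _ (Function.rightInverse_surjInv hsurj)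
          ⟨φ, hker⟩ n⟩
    obtain ⟨Φ, hΦ⟩ : ∃ Φ : G →* ℂˣ, Φ = ψ.comp (QuotientGroup.mk' K) := ⟨_, rfl⟩
    have hΦN : ∀ n : N, Φ (n : G) = φ n := by
      intro n
      rw [hΦ, ← hψ n, hιv]; rfl
    have hΦK : ∀ k : K, Φ (k : G) = 1 := by
      intro k
      rw [hΦ]
      show ψ ((k : G) : G ⧸ K) = 1
      rw [(QuotientGroup.eq_one_iff (k : G)).mpr k.2, map_one]
    have hβc : IsCharacter G (fun g => ((Φ g : ℂˣ) : ℂ)) := isCharacter_unitHom Φ
    have hβ1 : (fun g => ((Φ g : ℂˣ) : ℂ)) 1 = 1 := by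
      show ((Φ 1 : ℂˣ) : ℂ) = 1
      rw [map_one]; rfl
    have hβirr : IsIrrCharacter G (fun g => ((Φ g : ℂˣ) : ℂ)) :=
      isIrrCharacter_of_linear hβc hβ1
    refine ⟨⟨⟨fun g => ((Φ g : ℂˣ) : ℂ), hβirr⟩, hβ1, fun k => ?_⟩, ?_⟩
    · show ((Φ (k : G) : ℂˣ) : ℂ) = 1
      rw [hΦK]; rfl
    · apply Subtype.ext; apply Subtype.ext
      funext n
      show ((Φ (n : G) : ℂˣ) : ℂ) = (lam : N → ℂ) n
      rw [hΦN, hφ]

set_option maxHeartbeats 1600000 in
/-- `|Irr_{H'}(G)| = |Irr_{H'}(N)|` for any `N` containing `H C_K(H)`. -/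
theorem coprime_degree_count {G : Type u} [Group G] [Finite G] (K H N : Subgroup G)
    [hK : K.Normal] (hKH : K ⊔ H = ⊤) (hcop : (Nat.card K).Coprime (Nat.card H))
    (hsolv : Group.IsSolvable H) (hHN : H ≤ N)
    (hCN : K ⊓ Subgroup.centralizer (H : Set G) ≤ N) :
    Nat.card {χ : IrrCharacter G // (charDegree (χ : G → ℂ)).Coprime (Nat.card H)} =
      Nat.card {η : IrrCharacter N // (charDegree (η : N → ℂ)).Coprime (Nat.card H)} := by
  classical
  have hcardH : Nat.card (H.subgroupOf N) = Nat.card H :=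
    Nat.card_congr (Subgroup.subgroupOfEquivOfLe hHN).toEquiv
  have hcardK : Nat.card (K.subgroupOf N) ∣ Nat.card K := by
    refine Subgroup.card_dvd_of_injective
      (MonoidHom.codRestrict (N.subtype.comp (K.subgroupOf N).subtype) K (fun x => x.2)) ?_
    intro a b hab
    have h1 : ((a : N) : G) = ((b : N) : G) := by
      have h0 := congrArg Subtype.val hab
      exact h0
    exact Subtype.ext (Subtype.ext h1)
  have hsolv' : Group.IsSolvable (H.subgroupOf N) :=
    Group.isSolvable_of_isSolvable_injective (f := (Subgroup.subgroupOfEquivOfLe hHN).toMonoidHom)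
      (Subgroup.subgroupOfEquivOfLe hHN).injective
  have htop' : K.subgroupOf N ⊔ H.subgroupOf N = ⊤ := by
    rw [eq_top_iff]
    intro n _
    have hn : (n : G) ∈ H ⊔ K := by rw [sup_comm, hKH]; exact Subgroup.mem_top _
    obtain ⟨h, hh, k, hk, e⟩ := (Cfsg.Agent.S0001.mem_sup_normal H K (n : G)).mp hn
    have hkN : k ∈ N := by
      have e2 : k = h⁻¹ * n := by rw [e]; group
      rw [e2]; exact N.mul_mem (N.inv_mem (hHN hh)) n.2
    have e' : n = (⟨h, hHN hh⟩ : N) * ⟨k, hkN⟩ := Subtype.ext e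
    rw [e', sup_comm]
    exact Subgroup.mul_mem_sup (Subgroup.mem_subgroupOf.mpr hh) (Subgroup.mem_subgroupOf.mpr hk)
  have hcop' : (Nat.card (K.subgroupOf N)).Coprime (Nat.card (H.subgroupOf N)) := by
    rw [hcardH]; exact Nat.Coprime.coprime_dvd_left hcardK hcop
  have hT1 := semidirect_count' K H hKH hcop hsolv
  have hT2 := semidirect_count' (K.subgroupOf N) (H.subgroupOf N) htop' hcop' hsolv'
  rw [hcardH] at hT2
  rw [hT1, hT2, lin_count K H N hKH hHN]
  congr 1
  have hsub : K.subgroupOf N ⊓ Subgroup.centralizer ((H.subgroupOf N : Subgroup N) : Set N) =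
      (K ⊓ Subgroup.centralizer (H : Set G)).subgroupOf N := by
    ext n
    constructor
    · intro hn
      refine Subgroup.mem_subgroupOf.mpr (Subgroup.mem_inf.mpr
        ⟨Subgroup.mem_subgroupOf.mp hn.1, Subgroup.mem_centralizer_iff.mpr fun h hh => ?_⟩)
      exact congrArg Subtype.val
        ((Subgroup.mem_centralizer_iff.mp hn.2) ⟨h, hHN hh⟩ (Subgroup.mem_subgroupOf.mpr hh))
    · intro hn
      have hn' := Subgroup.mem_inf.mp (Subgroup.mem_subgroupOf.mp hn)
      refine Subgroup.mem_inf.mpr ⟨Subgroup.mem_subgroupOf.mpr hn'.1,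
        Subgroup.mem_centralizer_iff.mpr fun h hh => ?_⟩
      exact Subtype.ext ((Subgroup.mem_centralizer_iff.mp hn'.2) h (Subgroup.mem_subgroupOf.mp hh))
  rw [hsub]
  exact (card_irr_congr (Subgroup.subgroupOfEquivOfLe hCN)).symm

end Semi

end Cfsg.Agent.Helper5
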