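import Mathlib
import Cfsg.Agent.Helper5.GlSemi
import Cfsg.Agent.Helper24.CharIntegral
import Cfsg.Agent.Helper24.CharEigen

/-!
helper5: the Glauberman correspondence for a cyclic group of operators, via the values of the
canonical extension on the generating cosets (Isaacs 13.6).
-/

set_option autoImplicit false

namespace Cfsg.Agent.Helper5

open Cfsg Cfsg.Agent.Helper24

universe u

/-- Lifting units along `ℤ/M → ℤ/m`. -/
theorem exists_coprime_lift (m M j : ℕ) (hM : 0 < M) (hmM : m ∣ M) (hj : j.Coprime m) :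
    ∃ k : ℕ, k ≡ j [MOD m] ∧ k.Coprime M := by
  have : NeZero M := ⟨hM.ne'⟩
  obtain ⟨v, hv⟩ := ZMod.unitsMap_surjective hmM (ZMod.unitOfCoprime j hj)
  refine ⟨(v : ZMod M).val, ?_, ZMod.val_coe_unit_coprime v⟩
  rw [← ZMod.natCast_eq_natCast_iff]
  have h1 : ((ZMod.unitsMap hmM v : (ZMod m)ˣ) : ZMod m) = (j : ZMod m) := by
    rw [hv]; exact ZMod.coe_unitOfCoprime j hj
  rw [← h1, ZMod.natCast_val]
  rfl

/-- Two generators of the same cyclic subgroup are related by a power map which is trivial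
modulo `n` and coprime to `M`. -/
theorem exists_pow_gen {Γ : Type u} [Group Γ] [Finite Γ] (y y' : Γ)
    (h : Subgroup.zpowers y = Subgroup.zpowers y') (n M : ℕ) (hM : 0 < M)
    (hyM : orderOf y ∣ M) (hnM : n.Coprime M) :
    ∃ k : ℕ, k ≡ 1 [MOD n] ∧ k.Coprime M ∧ y ^ k = y' := by
  have hy' : y' ∈ Subgroup.zpowers y := by rw [h]; exact Subgroup.mem_zpowers y'
  have hy'' : y' ∈ Submonoid.powers y := mem_powers_iff_mem_zpowers.mpr hy'
  obtain ⟨j, hj⟩ := (Submonoid.mem_powers_iff y' y).mp hy''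
  have hord : orderOf y' = orderOf y := by
    rw [← Nat.card_zpowers, ← Nat.card_zpowers, h]
  have hpos : 0 < orderOf y := orderOf_pos y
  have hjc : j.Coprime (orderOf y) := by
    have h1 := orderOf_pow (n := j) y
    rw [hj, hord] at h1
    have h2 := (Nat.div_eq_self.mp h1.symm).resolve_left hpos.ne'
    rw [Nat.coprime_comm]; exact h2
  obtain ⟨k₁, hk₁, hk₁M⟩ := exists_coprime_lift (orderOf y) M j hM hyM hjc
  obtain ⟨k, hkn, hkM⟩ := Nat.chineseRemainder hnM 1 k₁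
  refine ⟨k, hkn, ?_, ?_⟩
  · have h1 := hkM.gcd_eq
    unfold Nat.Coprime
    rw [h1]; exact hk₁M
  · rw [← hj, pow_eq_pow_iff_modEq]
    exact (Nat.ModEq.of_dvd hyM hkM).trans hk₁

/-- A character which is constant on the generators of each cyclic subgroup is rational
valued. -/
theorem cyc_rat {A : Type u} [Group A] [Finite A] (F : A → ℂ) (hF : IsCharacter A F)
    (hgen : ∀ y y' : A, Subgroup.zpowers y = Subgroup.zpowers y' → F y = F y') :
    ∀ a : A, ∃ q : ℚ, F a = (q : ℂ) := by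
  classical
  suffices h : ∀ n : ℕ, ∀ a : A, orderOf a = n → ∃ q : ℚ, F a = (q : ℂ) from fun a => h _ a rfl
  intro n
  induction n using Nat.strong_induction_on with
  | _ n ih =>
    intro a ha
    have hfin : Fintype ↥(Subgroup.zpowers a) := Fintype.ofFinite _
    have hB0 : (Nat.card ↥(Subgroup.zpowers a) : ℂ) ≠ 0 := Nat.cast_ne_zero.mpr Nat.card_pos.ne'
    have hres : IsCharacter ↥(Subgroup.zpowers a) (fun b => F b) := isCharacter_restrict _ hF
    obtain ⟨m, hm⟩ := classInner_isCharacter_natCast hres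
      (isCharacter_of_isIrrCharacter
        (Cfsg.Agent.Helper24.isIrrCharacter_one (G := ↥(Subgroup.zpowers a))))
    have hsum : ∑ b : ↥(Subgroup.zpowers a), F b =
        (Nat.card ↥(Subgroup.zpowers a) : ℂ) * m := by
      rw [← hm, classInner_def', ← mul_assoc, mul_inv_cancel₀ hB0, one_mul]
      refine Finset.sum_congr rfl fun b _ => ?_
      simp
    have hq : ∀ b : ↥(Subgroup.zpowers a), ∃ q : ℚ,
        Subgroup.zpowers (b : A) ≠ Subgroup.zpowers a → F b = (q : ℂ) := by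
      intro b
      by_cases hb : Subgroup.zpowers (b : A) = Subgroup.zpowers a
      · exact ⟨0, fun h => absurd hb h⟩
      · have hlt : orderOf (b : A) < n := by
          rw [← ha]
          have hle : Subgroup.zpowers (b : A) ≤ Subgroup.zpowers a := Subgroup.zpowers_le.mpr b.2
          have hdvd : orderOf (b : A) ∣ orderOf a := orderOf_dvd_of_mem_zpowers b.2
          refine lt_of_le_of_ne (Nat.le_of_dvd (orderOf_pos a) hdvd) fun heq => hb ?_
          exact Subgroup.eq_of_le_of_card_ge hle (by rw [Nat.card_zpowers, Nat.card_zpowers, heq])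
        obtain ⟨q, hq⟩ := ih _ hlt (b : A) rfl
        exact ⟨q, fun _ => hq⟩
    choose q hq using hq
    obtain ⟨c, hc⟩ : ∃ c : ℕ, c = (Finset.univ.filter fun b : ↥(Subgroup.zpowers a) =>
        Subgroup.zpowers (b : A) = Subgroup.zpowers a).card := ⟨_, rfl⟩
    obtain ⟨T, hT⟩ : ∃ T : ℚ, T = ∑ b ∈ Finset.univ.filter fun b : ↥(Subgroup.zpowers a) =>
        ¬ Subgroup.zpowers (b : A) = Subgroup.zpowers a, q b := ⟨_, rfl⟩
    have hsplit : ∑ b : ↥(Subgroup.zpowers a), F b = (c : ℂ) * F a + (T : ℂ) := by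
      rw [← Finset.sum_filter_add_sum_filter_not Finset.univ
        (fun b : ↥(Subgroup.zpowers a) => Subgroup.zpowers (b : A) = Subgroup.zpowers a)]
      congr 1
      · have h1 : ∑ b ∈ Finset.univ.filter (fun b : ↥(Subgroup.zpowers a) =>
            Subgroup.zpowers (b : A) = Subgroup.zpowers a), F b =
            ∑ b ∈ Finset.univ.filter (fun b : ↥(Subgroup.zpowers a) =>
            Subgroup.zpowers (b : A) = Subgroup.zpowers a), F a :=
          Finset.sum_congr rfl (fun b hb => hgen (b : A) a (Finset.mem_filter.mp hb).2)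
        rw [h1, Finset.sum_const, nsmul_eq_mul, hc]
      · rw [hT, Rat.cast_sum]
        exact Finset.sum_congr rfl fun b hb => hq b (Finset.mem_filter.mp hb).2
    have hc0 : c ≠ 0 := by
      have hmem : (⟨a, Subgroup.mem_zpowers a⟩ : ↥(Subgroup.zpowers a)) ∈
          Finset.univ.filter fun b : ↥(Subgroup.zpowers a) =>
            Subgroup.zpowers (b : A) = Subgroup.zpowers a :=
        Finset.mem_filter.mpr ⟨Finset.mem_univ _, rfl⟩
      rw [hc]
      exact Finset.card_ne_zero_of_mem hmem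
    have hc0' : (c : ℂ) ≠ 0 := Nat.cast_ne_zero.mpr hc0
    refine ⟨((Nat.card ↥(Subgroup.zpowers a) : ℚ) * m - T) / c, ?_⟩
    push_cast
    rw [eq_div_iff hc0']
    rw [hsum] at hsplit
    linear_combination -hsplit

/-- `detChar` and power maps on an abelian group. -/
theorem detChar_pow_comm {A : Type u} [Group A] [Finite A] (hcomm : ∀ a b : A, a * b = b * a)
    {ξ : A → ℂ} (hξ : IsCharacter A ξ) (k : ℕ) (a : A) :
    detChar (fun y : A => ξ (y ^ k)) a = detChar ξ (a ^ k) := by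
  obtain ⟨n, ρ, rfl⟩ := hξ
  obtain ⟨pk, hpk⟩ : ∃ pk : A →* A, ∀ y, pk y = y ^ k :=
    ⟨{ toFun := fun y => y ^ k
       map_one' := one_pow k
       map_mul' := fun x y => Commute.mul_pow (hcomm x y) k }, fun y => rfl⟩
  have e : (fun y : A => ρ.character (y ^ k)) =
      Representation.character (MonoidHom.comp ρ pk) := by
    funext y
    show _ = LinearMap.trace ℂ _ (ρ (pk y))
    rw [hpk]; rfl
  rw [e, detChar_eq_of_rep, detChar_eq_of_rep ρ]
  show LinearMap.det (ρ (pk a)) = _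
  rw [hpk]

theorem gen_decomp {Γ : Type u} [Group Γ] (G : Subgroup Γ) [hG : G.Normal] (t : Γ)
    (htop : G ⊔ Subgroup.zpowers t = ⊤) : ∀ γ : Γ, ∃ g ∈ G, ∃ k : ℤ, γ = g * t ^ k := by
  intro γ
  have hγ : γ ∈ Subgroup.zpowers t ⊔ G := by rw [sup_comm, htop]; exact Subgroup.mem_top γ
  obtain ⟨z, hz, g, hg, rfl⟩ := (Cfsg.Agent.S0001.mem_sup_normal _ _ _).1 hγ
  obtain ⟨k, rfl⟩ := Subgroup.mem_zpowers_iff.mp hz
  exact ⟨t ^ k * g * (t ^ k)⁻¹, hG.conj_mem g hg _, k, by group⟩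

theorem hab_of_gen {Γ : Type u} [Group Γ] (G : Subgroup Γ) [hG : G.Normal] (t : Γ)
    (htop : G ⊔ Subgroup.zpowers t = ⊤) : ∀ x y : Γ, x * y * x⁻¹ * y⁻¹ ∈ G := by
  intro x y
  obtain ⟨g, hg, i, rfl⟩ := gen_decomp G t htop x
  obtain ⟨h, hh, j, rfl⟩ := gen_decomp G t htop y
  rw [← QuotientGroup.eq_one_iff]
  have e1 : ((g : Γ) : Γ ⧸ G) = 1 := (QuotientGroup.eq_one_iff g).mpr hg
  have e2 : ((h : Γ) : Γ ⧸ G) = 1 := (QuotientGroup.eq_one_iff h).mpr hh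
  simp only [QuotientGroup.mk_mul, QuotientGroup.mk_inv, QuotientGroup.mk_zpow, e1, e2, one_mul]
  have hc : Commute ((t : Γ ⧸ G) ^ i) ((t : Γ ⧸ G) ^ j) := (Commute.refl _).zpow_zpow i j
  rw [hc.eq]
  group

theorem comm_of_zpowers {Γ : Type u} [Group Γ] (S : Subgroup Γ) (s₀ : Γ)
    (hs₀ : Subgroup.zpowers s₀ = S) : ∀ a b : S, a * b = b * a := by
  rintro ⟨a, ha⟩ ⟨b, hb⟩
  have ha' : a ∈ Subgroup.zpowers s₀ := by rw [hs₀]; exact ha
  have hb' : b ∈ Subgroup.zpowers s₀ := by rw [hs₀]; exact hb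
  obtain ⟨i, hi⟩ := Subgroup.mem_zpowers_iff.mp ha'
  obtain ⟨j, hj⟩ := Subgroup.mem_zpowers_iff.mp hb'
  apply Subtype.ext
  show a * b = b * a
  rw [← hi, ← hj, ← zpow_add, ← zpow_add, add_comm]

theorem pow_eq_self_of_modEq {Γ : Type u} [Group Γ] (G : Subgroup Γ) [Finite G] (g : Γ)
    (hg : g ∈ G) (k : ℕ) (hk1 : k ≡ 1 [MOD Nat.card G]) : g ^ k = g := by
  have h1 : orderOf g ∣ Nat.card G := by
    have h := orderOf_dvd_natCard (⟨g, hg⟩ : G)
    rwa [Subgroup.orderOf_mk] at h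
  have h2 : g ^ k = g ^ 1 := pow_eq_pow_iff_modEq.mpr (Nat.ModEq.of_dvd h1 hk1)
  rw [h2, pow_one]

set_option maxHeartbeats 1600000 in
/-- The canonical extension is invariant under the power maps `x ↦ x ^ k` with
`k ≡ 1 mod |G|`, `k` coprime to `|S|`. -/
theorem canon_pow {Γ : Type u} [Group Γ] [Fintype Γ] (G S : Subgroup Γ) [hG : G.Normal]
    [Fintype G] (hcop : (Nat.card G).Coprime (Nat.card S)) (htop : G ⊔ S = ⊤)
    (hScomm : ∀ a b : S, a * b = b * a) (χh : IrrCharacter Γ)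
    (hirr : IsIrrCharacter G (fun g : G => (χh : Γ → ℂ) g))
    (hdet : (detOrder (χh : Γ → ℂ)).Coprime (Nat.card S))
    (k : ℕ) (hk1 : k ≡ 1 [MOD Nat.card G]) (hkS : k.Coprime (Nat.card S)) (x : Γ) :
    (χh : Γ → ℂ) (x ^ k) = (χh : Γ → ℂ) x := by
  classical
  have hidx : G.index = Nat.card S := index_eq_card_of_compl G S htop hcop
  have hcard : Nat.card Γ = Nat.card G * Nat.card S := by
    rw [← hidx]; exact (Subgroup.card_mul_index G).symm
  have hkG : k.Coprime (Nat.card G) := by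
    have h := hk1.gcd_eq
    unfold Nat.Coprime
    rw [h]; exact Nat.gcd_one_left _
  have hkΓ : k.Coprime (Nat.card Γ) := by
    rw [hcard]; exact Nat.Coprime.mul_right hkG hkS
  have hψ' : IsIrrCharacter Γ (fun g => (χh : Γ → ℂ) (g ^ k)) :=
    Cfsg.Agent.Helper22.isIrrCharacter_pow_coprime χh k hkΓ
  obtain ⟨d, hd, hdG⟩ := irr_degree_dvd_card (⟨_, hirr⟩ : IrrCharacter G)
  have hcopd : Nat.Coprime G.index (detOrder (fun g : G => (χh : Γ → ℂ) g) * d) := by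
    rw [hidx]
    exact (Nat.Coprime.mul_left (Nat.Coprime.coprime_dvd_left (detOrder_dvd_card _) hcop)
      (Nat.Coprime.coprime_dvd_left hdG hcop)).symm
  obtain ⟨χc, -, huniq⟩ := Cfsg.Agent.S0867.result G (fun g : G => (χh : Γ → ℂ) g) hirr
    (fun g n => irr_conj χh (n : Γ) g) d hd hcopd
  have e1 : (χh : Γ → ℂ) = χc :=
    huniq _ χh.2 (fun n => rfl) (by rw [hidx]; exact hdet.symm)
  have hψ'c : IsCharacter Γ (fun g => (χh : Γ → ℂ) (g ^ k)) := isCharacter_of_isIrrCharacter hψ'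
  have hχc : IsCharacter Γ (χh : Γ → ℂ) := isCharacter_of_isIrrCharacter χh.2
  obtain ⟨δ, hδ⟩ := detChar_exists_hom (χh : Γ → ℂ)
  obtain ⟨δ', hδ'⟩ := detChar_exists_hom (fun g => (χh : Γ → ℂ) (g ^ k))
  have hδS : ∀ s ∈ S, detChar (χh : Γ → ℂ) s = 1 := by
    intro s hs
    have h1 : detChar (χh : Γ → ℂ) s ^ detOrder (χh : Γ → ℂ) = 1 := by
      have h := pow_orderOf_eq_one (detChar (χh : Γ → ℂ))
      have h2 := congrFun h s
      exact h2
    have h3 : detChar (χh : Γ → ℂ) s ^ Nat.card S = 1 := by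
      rw [← hδ s, ← Units.val_pow_eq_pow_val, ← map_pow]
      have h4 : s ^ Nat.card S = 1 := by
        have h : (⟨s, hs⟩ : S) ^ Nat.card S = 1 := pow_card_eq_one'
        exact congrArg Subtype.val h
      rw [h4, map_one, Units.val_one]
    have h5 := pow_gcd_eq_one.mpr ⟨h1, h3⟩
    rw [Nat.Coprime.gcd_eq_one hdet, pow_one] at h5
    exact h5
  have hδ'S : ∀ s ∈ S, detChar (fun g => (χh : Γ → ℂ) (g ^ k)) s = 1 := by
    intro s hs
    have h1 : detChar (fun y : S => (fun h : S => (χh : Γ → ℂ) h) (y ^ k)) ⟨s, hs⟩ =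
        detChar (fun g => (χh : Γ → ℂ) (g ^ k)) s := detChar_res S hψ'c ⟨s, hs⟩
    have h2 : detChar (fun y : S => (fun h : S => (χh : Γ → ℂ) h) (y ^ k)) ⟨s, hs⟩ =
        detChar (fun h : S => (χh : Γ → ℂ) h) (⟨s, hs⟩ ^ k) :=
      detChar_pow_comm hScomm (isCharacter_restrict S hχc) k ⟨s, hs⟩
    have h3 : detChar (fun h : S => (χh : Γ → ℂ) h) (⟨s, hs⟩ ^ k) =
        detChar (χh : Γ → ℂ) (s ^ k) := detChar_res S hχc (⟨s, hs⟩ ^ k)
    exact (h1.symm.trans (h2.trans h3)).trans (hδS _ (S.pow_mem hs k))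
  have e2 : (fun g => (χh : Γ → ℂ) (g ^ k)) = χc := by
    refine huniq _ hψ' (fun n => ?_) ?_
    · show (χh : Γ → ℂ) ((n : Γ) ^ k) = (χh : Γ → ℂ) n
      rw [pow_eq_self_of_modEq G (n : Γ) n.2 k hk1]
    · rw [hidx]
      refine Nat.Coprime.coprime_dvd_right ?_ hcop.symm
      unfold detOrder
      apply orderOf_dvd_of_pow_eq_one
      funext x
      rw [Pi.pow_apply, Pi.one_apply]
      have hx : x ∈ S ⊔ G := by rw [sup_comm, htop]; exact Subgroup.mem_top x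
      obtain ⟨s, hs, g, hg, rfl⟩ := (Cfsg.Agent.S0001.mem_sup_normal S G x).mp hx
      rw [← hδ' (s * g), map_mul, Units.val_mul, mul_pow, hδ' s, hδ'S s hs, one_pow, one_mul,
        ← Units.val_pow_eq_pow_val, ← map_pow]
      have h4 : g ^ Nat.card G = 1 := by
        have h : (⟨g, hg⟩ : G) ^ Nat.card G = 1 := pow_card_eq_one'
        exact congrArg Subtype.val h
      rw [h4, map_one, Units.val_one]
  exact (congrFun e2 x).trans (congrFun e1 x).symm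


set_option maxHeartbeats 1600000 in
/-- The values of the canonical extension on the generating cosets. -/
theorem cyc_main {Γ : Type u} [Group Γ] [Fintype Γ] (G S : Subgroup Γ) [hG : G.Normal]
    [Fintype G] (hcop : (Nat.card G).Coprime (Nat.card S)) (htop : G ⊔ S = ⊤) (s₀ : Γ)
    (hs₀ : Subgroup.zpowers s₀ = S) (C : Subgroup Γ) [Fintype C]
    (hC : C = G ⊓ Subgroup.centralizer (S : Set Γ)) (hCG : C ≤ G)
    (χh : IrrCharacter Γ) (hirr : IsIrrCharacter G (fun g : G => (χh : Γ → ℂ) g))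
    (hdet : (detOrder (χh : Γ → ℂ)).Coprime (Nat.card S)) :
    (∃ (β₀ : IrrCharacter C) (ε : ℤ), (ε = 1 ∨ ε = -1) ∧
      ∀ c : C, ∀ s : Γ, Subgroup.zpowers s = S →
        (χh : Γ → ℂ) ((c : Γ) * s) = (ε : ℂ) * (β₀ : C → ℂ) c) ∧
    (∀ β : IrrCharacter C,
      classInner (fun c : C => (χh : Γ → ℂ) ((c : Γ) * s₀)) (β : C → ℂ) ≠ 0 →
      classInner (fun c : C => (χh : Γ → ℂ) c) (β : C → ℂ) ≠ 0) := by
  classical
  have hC0 : (Nat.card C : ℂ) ≠ 0 := Nat.cast_ne_zero.mpr Nat.card_pos.ne'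
  have hG0 : (Nat.card G : ℂ) ≠ 0 := Nat.cast_ne_zero.mpr Nat.card_pos.ne'
  have hSfin : Fintype ↥S := Fintype.ofFinite _
  have hs₀S : s₀ ∈ S := by rw [← hs₀]; exact Subgroup.mem_zpowers s₀
  have hScomm : ∀ a b : S, a * b = b * a := comm_of_zpowers S s₀ hs₀
  have hab := hab_of_gen G s₀ (by rw [hs₀]; exact htop)
  have hDX : ∀ c ∈ C, ∀ x ∈ S, c * x = x * c := by
    intro c hc x hx
    rw [hC] at hc
    exact ((Subgroup.mem_centralizer_iff.mp hc.2) x hx).symm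
  have hC' : C = G ⊓ Subgroup.centralizer (Subgroup.zpowers s₀ : Set Γ) := by
    rw [hs₀]; exact hC
  have hcops₀ : (orderOf s₀).Coprime (Nat.card G) := by
    rw [← Nat.card_zpowers, hs₀]; exact hcop.symm
  have hK1 := canon_pow G S hcop htop hScomm χh hirr hdet
  have hinvgen : ∀ (y y' : Γ), y ∈ S → Subgroup.zpowers y = Subgroup.zpowers y' → ∀ c : C,
      (χh : Γ → ℂ) ((c : Γ) * y') = (χh : Γ → ℂ) ((c : Γ) * y) := by
    intro y y' hy hyy' c
    have hyS : orderOf y ∣ Nat.card S := by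
      have h := orderOf_dvd_natCard (⟨y, hy⟩ : S)
      rwa [Subgroup.orderOf_mk] at h
    obtain ⟨k, hk1, hkS, hky⟩ :=
      exists_pow_gen y y' hyy' (Nat.card G) (Nat.card S) Nat.card_pos hyS hcop
    have hck : (c : Γ) ^ k = c := pow_eq_self_of_modEq G (c : Γ) (hCG c.2) k hk1
    have hcomm : Commute (c : Γ) y := hDX c c.2 y hy
    have h1 := hK1 k hk1 hkS ((c : Γ) * y)
    rw [hcomm.mul_pow, hck, hky] at h1
    exact h1
  obtain ⟨Ff, hFf⟩ : ∃ Ff : IrrCharacter C → ↥S → ℂ, Ff = fun (β : IrrCharacter C) (x : ↥S) =>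
      classInner (fun c : C => (χh : Γ → ℂ) ((c : Γ) * (x : Γ))) (β : C → ℂ) := ⟨_, rfl⟩
  have hFf_apply : ∀ β x, Ff β x =
      classInner (fun c : C => (χh : Γ → ℂ) ((c : Γ) * (x : Γ))) (β : C → ℂ) := by
    intro β x; rw [hFf]
  have hΞ : IsCharacter (↥C × ↥S) (fun y => (χh : Γ → ℂ) (muHom C S hDX y)) :=
    isCharacter_comp_hom _ (isCharacter_of_isIrrCharacter χh.2)
  have hnat : ∀ (β : IrrCharacter C) (l : IrrCharacter ↥S),
      ∃ k : ℕ, classInner (Ff β) (l : ↥S → ℂ) = k := by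
    intro β l
    have hβl : IsCharacter (↥C × ↥S)
        ((fun y => (β : C → ℂ) y.1) * (fun y => (l : ↥S → ℂ) y.2)) :=
      isCharacter_mul
        (isCharacter_comp_hom (MonoidHom.fst ↥C ↥S)
          (isCharacter_of_isIrrCharacter β.2))
        (isCharacter_comp_hom (MonoidHom.snd ↥C ↥S)
          (isCharacter_of_isIrrCharacter l.2))
    obtain ⟨k, hk⟩ := classInner_isCharacter_natCast hΞ hβl
    refine ⟨k, ?_⟩
    rw [← hk]
    have hx : ∀ x : ↥S,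
        Ff β x * starRingEnd ℂ ((l : ↥S → ℂ) x) =
        (Nat.card C : ℂ)⁻¹ * ∑ c : C, (χh : Γ → ℂ) ((c : Γ) * (x : Γ)) *
          starRingEnd ℂ ((β : C → ℂ) c * (l : ↥S → ℂ) x) := by
      intro x
      rw [hFf_apply, classInner_def', mul_assoc, Finset.sum_mul]
      congr 1
      refine Finset.sum_congr rfl fun c _ => ?_
      rw [map_mul]; ring
    rw [classInner_def', classInner_def', Nat.card_prod, Fintype.sum_prod_type, Finset.sum_comm]
    simp only [hx]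
    rw [← Finset.mul_sum, Nat.cast_mul, mul_inv]
    have hS : ∑ i : ↥S, ∑ c : C, (χh : Γ → ℂ) ((c : Γ) * (i : Γ)) *
          starRingEnd ℂ ((β : C → ℂ) c * (l : ↥S → ℂ) i) =
        ∑ y : ↥S, ∑ x : C,
          (χh : Γ → ℂ) (muHom C S hDX (x, y)) *
            starRingEnd ℂ (((fun y : ↥C × ↥S => (β : C → ℂ) y.1) *
              fun y : ↥C × ↥S =>
                (l : ↥S → ℂ) y.2) (x, y)) := rfl
    rw [hS]
    ring
  have hFchar : ∀ β : IrrCharacter C, IsCharacter ↥S (Ff β) := by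
    intro β
    refine isCharacter_of_classFunction_of_inner_nat (fun g h => ?_) (hnat β)
    rw [hScomm h g, mul_inv_cancel_right]
  have hFgen : ∀ (β : IrrCharacter C) (y y' : ↥S),
      Subgroup.zpowers y = Subgroup.zpowers y' → Ff β y = Ff β y' := by
    intro β y y' h
    have h1 : Subgroup.zpowers (y : Γ) = Subgroup.zpowers (y' : Γ) := by
      have h2 := congrArg (Subgroup.map S.subtype) h
      rw [MonoidHom.map_zpowers, MonoidHom.map_zpowers] at h2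
      exact h2
    rw [hFf_apply, hFf_apply]
    congr 1
    funext c
    exact (hinvgen (y : Γ) (y' : Γ) y.2 h1 c).symm
  have hint : ∀ (β : IrrCharacter C) (x : ↥S), ∃ z : ℤ, Ff β x = (z : ℂ) := by
    intro β x
    obtain ⟨q, hq⟩ := cyc_rat (Ff β) (hFchar β) (hFgen β) x
    obtain ⟨n, ρ, hρ⟩ := hFchar β
    have hi : IsIntegral ℤ ((q : ℚ) : ℂ) := by
      rw [← hq, ← hρ]; exact char_isIntegral ρ x
    obtain ⟨z, hz⟩ := exists_int_of_isIntegral_ratCast hi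
    refine ⟨z, ?_⟩
    rw [hq, ← hz, Rat.cast_intCast]
  obtain ⟨s₀S, hs₀Sdef⟩ : ∃ s₀S : ↥S, s₀S = ⟨s₀, hs₀S⟩ := ⟨_, rfl⟩
  choose z hz using fun β : IrrCharacter C => hint β s₀S
  have hFs : ∀ β : IrrCharacter C, Ff β s₀S =
      classInner (fun c : C => (χh : Γ → ℂ) ((c : Γ) * s₀)) (β : C → ℂ) := by
    intro β; rw [hFf_apply, hs₀Sdef]
  have hcf : IsClassFunction C (fun c : C => (χh : Γ → ℂ) ((c : Γ) * s₀)) :=
    res_shift_classFunction C s₀ (fun c hc => hDX c hc s₀ hs₀S) _ (irr_isClassFunction χh)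
  have hconj := coset_conj_D G s₀ s₀ (Subgroup.mem_zpowers s₀) hcops₀ C hC'
  have hfib : (Nat.card C : ℂ) * ∑ g : G, (χh : Γ → ℂ) ((g : Γ) * s₀) *
        starRingEnd ℂ ((χh : Γ → ℂ) ((g : Γ) * s₀)) =
      (Nat.card G : ℂ) * ∑ c : C, (χh : Γ → ℂ) ((c : Γ) * s₀) *
        starRingEnd ℂ ((χh : Γ → ℂ) ((c : Γ) * s₀)) :=
    coset_fibration G C s₀ hCG (fun c hc => hDX c hc s₀ hs₀S) hconj
      (fun γ => (χh : Γ → ℂ) γ * starRingEnd ℂ ((χh : Γ → ℂ) γ)) (fun g h => by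
        show (χh : Γ → ℂ) (h * g * h⁻¹) * starRingEnd ℂ ((χh : Γ → ℂ) (h * g * h⁻¹)) = _
        rw [irr_conj])
  rw [coset_norm G hab χh hirr s₀] at hfib
  have hnorm1 : classInner (fun c : C => (χh : Γ → ℂ) ((c : Γ) * s₀))
      (fun c : C => (χh : Γ → ℂ) ((c : Γ) * s₀)) = 1 := by
    rw [classInner_def']
    have h3 : ∑ c : C, (χh : Γ → ℂ) ((c : Γ) * s₀) *
        starRingEnd ℂ ((χh : Γ → ℂ) ((c : Γ) * s₀)) = (Nat.card C : ℂ) := by
      have h4 : (Nat.card G : ℂ) * ∑ c : C, (χh : Γ → ℂ) ((c : Γ) * s₀) *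
          starRingEnd ℂ ((χh : Γ → ℂ) ((c : Γ) * s₀)) =
          (Nat.card G : ℂ) * (Nat.card C : ℂ) := by
        rw [← hfib]; ring
      exact mul_left_cancel₀ hG0 h4
    rw [h3, inv_mul_cancel₀ hC0]
  have hpars : ∑ β : IrrCharacter C, (z β : ℂ) * (z β : ℂ) = 1 := by
    have h := classInner_eq_sum_irr hcf (fun c : C => (χh : Γ → ℂ) ((c : Γ) * s₀))
    rw [hnorm1] at h
    refine Eq.trans ?_ h.symm
    refine Finset.sum_congr rfl fun β _ => ?_
    rw [classInner_conj_symm (β : C → ℂ), ← hFs, hz β, map_intCast]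
  have hzsum : ∑ β : IrrCharacter C, z β * z β = 1 := by
    have h : ((∑ β : IrrCharacter C, z β * z β : ℤ) : ℂ) = ((1 : ℤ) : ℂ) := by
      push_cast; exact hpars
    exact_mod_cast h
  obtain ⟨β₀, hβ₀⟩ : ∃ β₀ : IrrCharacter C, z β₀ ≠ 0 := by
    by_contra hno
    push Not at hno
    rw [Finset.sum_eq_zero (fun β _ => by rw [hno β, mul_zero])] at hzsum
    exact zero_ne_one hzsum
  have hsplit := Finset.add_sum_erase Finset.univ (fun β : IrrCharacter C => z β * z β)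
    (Finset.mem_univ β₀)
  have hsplit' : z β₀ * z β₀ + ∑ β ∈ Finset.univ.erase β₀, z β * z β = 1 := hsplit.trans hzsum
  have hnn : 0 ≤ ∑ β ∈ Finset.univ.erase β₀, z β * z β :=
    Finset.sum_nonneg fun β _ => mul_self_nonneg _
  have hge : 1 ≤ z β₀ * z β₀ := by
    rcases lt_trichotomy (z β₀) 0 with h | h | h
    · nlinarith
    · exact absurd h hβ₀
    · nlinarith
  have hrest : ∑ β ∈ Finset.univ.erase β₀, z β * z β = 0 := by linarith
  have hz0 : ∀ β : IrrCharacter C, β ≠ β₀ → z β = 0 := by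
    intro β hβ
    have h := (Finset.sum_eq_zero_iff_of_nonneg (fun β _ => mul_self_nonneg (z β))).mp hrest β
      (Finset.mem_erase.mpr ⟨hβ, Finset.mem_univ β⟩)
    exact mul_self_eq_zero.mp h
  have hz1 : z β₀ * z β₀ = 1 := by linarith
  have hpm : z β₀ = 1 ∨ z β₀ = -1 := by
    have h : (z β₀ - 1) * (z β₀ + 1) = 0 := by linear_combination hz1
    rcases mul_eq_zero.mp h with h | h
    · left; linarith
    · right; linarith
  have hval₀ : ∀ c : C, (χh : Γ → ℂ) ((c : Γ) * s₀) = (z β₀ : ℂ) * (β₀ : C → ℂ) c := by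
    intro c
    have hdec := classFunction_eq_sum_irr _ hcf
    have h := congrFun hdec c
    rw [Finset.sum_apply, Finset.sum_eq_single β₀] at h
    · rw [← hz β₀, hFs]; exact h
    · intro β _ hβ
      rw [← hFs, hz β, hz0 β hβ]; simp
    · intro h; exact absurd (Finset.mem_univ _) h
  refine ⟨⟨β₀, z β₀, hpm, fun c s hs => ?_⟩, fun β hβ => ?_⟩
  · rw [hinvgen s₀ s hs₀S (hs₀.trans hs.symm) c]; exact hval₀ c
  · rw [← hFs] at hβ
    have h1 : Ff β 1 = classInner (fun c : C => (χh : Γ → ℂ) c) (β : C → ℂ) := by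
      rw [hFf_apply]
      have e : (fun c : C => (χh : Γ → ℂ) ((c : Γ) * ((1 : ↥S) : Γ))) =
          fun c : C => (χh : Γ → ℂ) c := by
        funext c; rw [Subgroup.coe_one, mul_one]
      rw [e]
    rw [← h1]
    obtain ⟨n, ρ, hρ⟩ := hFchar β
    rw [← hρ] at hβ ⊢
    rw [char_one_fin]
    intro hn
    have hn0 : n = 0 := by exact_mod_cast hn
    subst hn0
    apply hβ
    have h0 : ρ s₀S = 0 := LinearMap.ext fun v => Subsingleton.elim _ _
    show LinearMap.trace ℂ _ (ρ s₀S) = 0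
    rw [h0, map_zero]

set_option maxHeartbeats 1600000 in
/-- **Glauberman correspondence, cyclic case, via the canonical extension** (Isaacs 13.6). -/
theorem cyc_glauberman {Γ : Type u} [Group Γ] [Fintype Γ] (G S : Subgroup Γ) [Fintype G] (hnorm : ∀ s ∈ S, ∀ g ∈ G, s * g * s⁻¹ ∈ G) (hcop : (Nat.card G).Coprime (Nat.card S)) (htop : G ⊔ S = ⊤) (hcyc : IsCyclic S) (C : Subgroup Γ) [Fintype C] (hC : C = G ⊓ Subgroup.centralizer (S : Set Γ)) (hCG : C ≤ G) : (∀ (χ : Cfsg.IrrCharacter G) (χh : Cfsg.IrrCharacter Γ), (∀ s ∈ S, ∀ g g' : G, (g' : Γ) = s * g * s⁻¹ → (χ : G → ℂ) g' = (χ : G → ℂ) g) → (∀ g : G, (χh : Γ → ℂ) g = (χ : G → ℂ) g) → (Cfsg.detOrder (χh : Γ → ℂ)).Coprime (Nat.card S) → (∃! βε : Cfsg.IrrCharacter C × ℤ, (βε.2 = 1 ∨ βε.2 = -1) ∧ ∀ c : C, ∀ s : Γ, Subgroup.zpowers s = S → (χh : Γ → ℂ) ((c : Γ) * s) = (βε.2 : ℂ) * (βε.1 : C → ℂ) c) ∧ ∀ β : Cfsg.IrrCharacter C, ∀ ε : ℤ, (ε = 1 ∨ ε = -1) →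 (∀ c : C, ∀ s : Γ, Subgroup.zpowers s = S → (χh : Γ → ℂ) ((c : Γ) * s) = (ε : ℂ) * (β : C → ℂ) c) → Cfsg.classInner (fun c : C => (χ : G → ℂ) ⟨c, hCG c.2⟩) (β : C → ℂ) ≠ 0) ∧ (∀ (χ χ' : Cfsg.IrrCharacter G) (χh χh' : Cfsg.IrrCharacter Γ), (∀ s ∈ S, ∀ g g' : G, (g' : Γ) = s * g * s⁻¹ → (χ : G → ℂ) g' = (χ : G → ℂ) g) → (∀ s ∈ S, ∀ g g' : G, (g' : Γ) = s * g * s⁻¹ → (χ' : G → ℂ) g' = (χ' : G → ℂ) g) → (∀ g : G, (χh : Γ → ℂ) g = (χ : G → ℂ) g) → (∀ g : G, (χh' : Γ → ℂ) g = (χ' : G → ℂ) g) → (Cfsg.detOrder (χh : Γ → ℂ)).Coprime (Nat.card S) → (Cfsg.detOrder (χh' : Γ → ℂ)).Coprime (Nat.card S) → ∀ β : Cfsg.IrrCharacter C, ∀ ε ε' : ℤ, (ε = 1 ∨ ε = -1) → (ε' = 1 ∨ ε' = -1) → (∀ c : C, ∀ s : Γ, Subgroup.zpowers s = S → (χh : Γ → ℂ) ((c : Γ) * s) = (ε : ℂ) * (β : C → ℂ) c) → (∀ c : C, ∀ s : Γ, Subgroup.zpowers s = S → (χh' : Γ → ℂ) ((c : Γ) * s) = (ε' : ℂ) * (β : C → ℂ) c) → χ = χ') ∧ (∀ β : Cfsg.IrrCharacter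 C, ∃ (χ : Cfsg.IrrCharacter G) (χh : Cfsg.IrrCharacter Γ) (ε : ℤ), (∀ s ∈ S, ∀ g g' : G, (g' : Γ) = s * g * s⁻¹ → (χ : G → ℂ) g' = (χ : G → ℂ) g) ∧ (∀ g : G, (χh : Γ → ℂ) g = (χ : G → ℂ) g) ∧ (Cfsg.detOrder (χh : Γ → ℂ)).Coprime (Nat.card S) ∧ (ε = 1 ∨ ε = -1) ∧ ∀ c : C, ∀ s : Γ, Subgroup.zpowers s = S → (χh : Γ → ℂ) ((c : Γ) * s) = (ε : ℂ) * (β : C → ℂ) c) := by
  classical
  have hG : G.Normal := by
    refine Subgroup.normalizer_eq_top_iff.mp (top_le_iff.mp ?_)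
    rw [← htop]
    refine sup_le Subgroup.le_normalizer fun s hs => ?_
    refine Subgroup.mem_normalizer_iff.mpr fun h => ⟨fun hh => hnorm s hs h hh, fun hh => ?_⟩
    have h1 := hnorm s⁻¹ (S.inv_mem hs) _ hh
    have e : s⁻¹ * (s * h * s⁻¹) * s⁻¹⁻¹ = h := by group
    rwa [e] at h1
  obtain ⟨s₀, hs₀⟩ : ∃ s₀ : Γ, Subgroup.zpowers s₀ = S := by
    obtain ⟨g, hg⟩ := IsCyclic.exists_generator (α := ↥S)
    refine ⟨(g : Γ), le_antisymm ?_ ?_⟩
    · rw [Subgroup.zpowers_le]; exact g.2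
    · intro x hx
      obtain ⟨k, hk⟩ := Subgroup.mem_zpowers_iff.mp (hg ⟨x, hx⟩)
      have h1 : (g : Γ) ^ k = x := congrArg Subtype.val hk
      rw [← h1]
      exact Subgroup.zpow_mem_zpowers (g : Γ) k
  have hs₀S : s₀ ∈ S := by rw [← hs₀]; exact Subgroup.mem_zpowers s₀
  have hC0 : (Nat.card C : ℂ) ≠ 0 := Nat.cast_ne_zero.mpr Nat.card_pos.ne'
  have hG0 : (Nat.card G : ℂ) ≠ 0 := Nat.cast_ne_zero.mpr Nat.card_pos.ne'
  have hScomm : ∀ a b : S, a * b = b * a := comm_of_zpowers S s₀ hs₀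
  have hab := hab_of_gen G s₀ (by rw [hs₀]; exact htop)
  have hDX : ∀ c ∈ C, ∀ x ∈ S, c * x = x * c := by
    intro c hc x hx
    rw [hC] at hc
    exact ((Subgroup.mem_centralizer_iff.mp hc.2) x hx).symm
  have hC' : C = G ⊓ Subgroup.centralizer (Subgroup.zpowers s₀ : Set Γ) := by
    rw [hs₀]; exact hC
  have hcops₀ : (orderOf s₀).Coprime (Nat.card G) := by
    rw [← Nat.card_zpowers, hs₀]; exact hcop.symm
  have hirr_of : ∀ (χ : IrrCharacter G) (χh : IrrCharacter Γ),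
      (∀ g : G, (χh : Γ → ℂ) g = (χ : G → ℂ) g) →
      IsIrrCharacter G (fun g : G => (χh : Γ → ℂ) g) := by
    intro χ χh hext
    have e : (fun g : G => (χh : Γ → ℂ) g) = (χ : G → ℂ) := funext hext
    rw [e]; exact χ.2
  have hsmul : ∀ (ε : ℤ) (β β' : IrrCharacter C),
      classInner (fun c : C => (ε : ℂ) * (β : C → ℂ) c) (β' : C → ℂ) =
        (ε : ℂ) * classInner (β : C → ℂ) (β' : C → ℂ) := by
    intro ε β β'
    simp only [classInner_def', Finset.mul_sum]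
    refine Finset.sum_congr rfl fun c _ => ?_
    ring
  have hε0 : ∀ ε : ℤ, (ε = 1 ∨ ε = -1) → (ε : ℂ) ≠ 0 := by
    rintro ε (h | h) <;> rw [h] <;> simp
  have part1 : ∀ (χ : IrrCharacter G) (χh : IrrCharacter Γ),
      (∀ s ∈ S, ∀ g g' : G, (g' : Γ) = s * g * s⁻¹ → (χ : G → ℂ) g' = (χ : G → ℂ) g) →
      (∀ g : G, (χh : Γ → ℂ) g = (χ : G → ℂ) g) →
      (detOrder (χh : Γ → ℂ)).Coprime (Nat.card S) →
      (∃! βε : IrrCharacter C × ℤ, (βε.2 = 1 ∨ βε.2 = -1) ∧ ∀ c : C, ∀ s : Γ,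
        Subgroup.zpowers s = S → (χh : Γ → ℂ) ((c : Γ) * s) = (βε.2 : ℂ) * (βε.1 : C → ℂ) c) ∧
      ∀ β : IrrCharacter C, ∀ ε : ℤ, (ε = 1 ∨ ε = -1) →
        (∀ c : C, ∀ s : Γ, Subgroup.zpowers s = S →
          (χh : Γ → ℂ) ((c : Γ) * s) = (ε : ℂ) * (β : C → ℂ) c) →
        classInner (fun c : C => (χ : G → ℂ) ⟨c, hCG c.2⟩) (β : C → ℂ) ≠ 0 := by
    intro χ χh hinv hext hdet
    obtain ⟨⟨β₀, ε, hpm, hval⟩, hconst⟩ :=
      cyc_main G S hcop htop s₀ hs₀ C hC hCG χh (hirr_of χ χh hext) hdet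
    refine ⟨⟨(β₀, ε), ⟨hpm, hval⟩, ?_⟩, ?_⟩
    · rintro ⟨β', ε'⟩ ⟨hpm', hval'⟩
      have hpm'' : ε' = 1 ∨ ε' = -1 := hpm'
      have hfun : (fun c : C => (ε' : ℂ) * (β' : C → ℂ) c) =
          fun c : C => (ε : ℂ) * (β₀ : C → ℂ) c :=
        funext fun c => (hval' c s₀ hs₀).symm.trans (hval c s₀ hs₀)
      have hβ : β' = β₀ := by
        by_contra hne
        have h1 : classInner (fun c : C => (ε' : ℂ) * (β' : C → ℂ) c) (β' : C → ℂ) =
            classInner (fun c : C => (ε : ℂ) * (β₀ : C → ℂ) c) (β' : C → ℂ) := by rw [hfun]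
        rw [hsmul, hsmul, irr_inner_self, irr_inner_ne (Ne.symm hne), mul_one, mul_zero] at h1
        exact hε0 ε' hpm'' h1
      subst hβ
      have hε : ε' = ε := by
        have h1 := congrFun hfun 1
        have h2 : ((ε' : ℂ) - (ε : ℂ)) * (β' : C → ℂ) 1 = 0 := by
          rw [sub_mul]; exact sub_eq_zero.mpr h1
        have h3 := (mul_eq_zero.mp h2).resolve_right (Cfsg.Agent.Helper24.irr_one_ne_zero β')
        exact_mod_cast sub_eq_zero.mp h3
      rw [hε]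
    · intro β ε₁ hpm₁ hval₁
      have h1 : classInner (fun c : C => (χh : Γ → ℂ) ((c : Γ) * s₀)) (β : C → ℂ) ≠ 0 := by
        have e : (fun c : C => (χh : Γ → ℂ) ((c : Γ) * s₀)) =
            fun c : C => (ε₁ : ℂ) * (β : C → ℂ) c :=
          funext fun c => hval₁ c s₀ hs₀
        rw [e, hsmul, irr_inner_self, mul_one]
        exact hε0 ε₁ hpm₁
      have h2 := hconst β h1
      have e2 : (fun c : C => (χ : G → ℂ) ⟨c, hCG c.2⟩) = fun c : C => (χh : Γ → ℂ) c :=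
        funext fun c => (hext ⟨c, hCG c.2⟩).symm
      rw [e2]; exact h2
  have part2 : ∀ (χ χ' : IrrCharacter G) (χh χh' : IrrCharacter Γ),
      (∀ g : G, (χh : Γ → ℂ) g = (χ : G → ℂ) g) →
      (∀ g : G, (χh' : Γ → ℂ) g = (χ' : G → ℂ) g) →
      ∀ β : IrrCharacter C, ∀ ε ε' : ℤ, (ε = 1 ∨ ε = -1) → (ε' = 1 ∨ ε' = -1) →
      (∀ c : C, (χh : Γ → ℂ) ((c : Γ) * s₀) = (ε : ℂ) * (β : C → ℂ) c) →
      (∀ c : C, (χh' : Γ → ℂ) ((c : Γ) * s₀) = (ε' : ℂ) * (β : C → ℂ) c) → χ = χ' := by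
    intro χ χ' χh χh' hext hext' β ε ε' hpm hpm' hval hval'
    by_contra hne
    have hresne : (fun g : G => (χh : Γ → ℂ) g) ≠ (fun g : G => (χh' : Γ → ℂ) g) := by
      intro h
      apply hne
      apply Subtype.ext
      funext g
      rw [← hext g, ← hext' g]
      exact congrFun h g
    have horth := coset_orth G hab χh χh' hresne s₀
    have hconj := coset_conj_D G s₀ s₀ (Subgroup.mem_zpowers s₀) hcops₀ C hC'
    have hfib : (Nat.card C : ℂ) * ∑ g : G, (χh : Γ → ℂ) ((g : Γ) * s₀) *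
          starRingEnd ℂ ((χh' : Γ → ℂ) ((g : Γ) * s₀)) =
        (Nat.card G : ℂ) * ∑ c : C, (χh : Γ → ℂ) ((c : Γ) * s₀) *
          starRingEnd ℂ ((χh' : Γ → ℂ) ((c : Γ) * s₀)) :=
      coset_fibration G C s₀ hCG (fun c hc => hDX c hc s₀ hs₀S) hconj
        (fun γ => (χh : Γ → ℂ) γ * starRingEnd ℂ ((χh' : Γ → ℂ) γ)) (fun g h => by
          show (χh : Γ → ℂ) (h * g * h⁻¹) * starRingEnd ℂ ((χh' : Γ → ℂ) (h * g * h⁻¹)) = _
          rw [irr_conj, irr_conj])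
    rw [horth, mul_zero] at hfib
    have hsum0 : ∑ c : C, (χh : Γ → ℂ) ((c : Γ) * s₀) *
        starRingEnd ℂ ((χh' : Γ → ℂ) ((c : Γ) * s₀)) = 0 :=
      (mul_eq_zero.mp hfib.symm).resolve_left hG0
    have hsum1 : ∑ c : C, (χh : Γ → ℂ) ((c : Γ) * s₀) *
        starRingEnd ℂ ((χh' : Γ → ℂ) ((c : Γ) * s₀)) =
        (ε : ℂ) * (ε' : ℂ) * (Nat.card C : ℂ) := by
      have h1 := irr_inner_self β
      rw [classInner_def'] at h1
      have h2 : ∑ c : C, (β : C → ℂ) c * starRingEnd ℂ ((β : C → ℂ) c) = (Nat.card C : ℂ) := by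
        have h3 : (Nat.card C : ℂ) * ((Nat.card C : ℂ)⁻¹ *
            ∑ c : C, (β : C → ℂ) c * starRingEnd ℂ ((β : C → ℂ) c)) = (Nat.card C : ℂ) * 1 := by
          rw [h1]
        rw [← mul_assoc, mul_inv_cancel₀ hC0, one_mul, mul_one] at h3
        exact h3
      have h4 : (ε : ℂ) * (ε' : ℂ) * (Nat.card C : ℂ) = (ε : ℂ) * (ε' : ℂ) *
          ∑ c : C, (β : C → ℂ) c * starRingEnd ℂ ((β : C → ℂ) c) := by rw [h2]
      rw [h4, Finset.mul_sum]
      refine Finset.sum_congr rfl fun c _ => ?_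
      rw [hval c, hval' c, map_mul, map_intCast]
      ring
    rw [hsum1] at hsum0
    exact (mul_ne_zero (mul_ne_zero (hε0 ε hpm) (hε0 ε' hpm')) hC0) hsum0
  have hsolv : Group.IsSolvable S := Group.isSolvable_of_comm hScomm
  have hcount := (solv_count (Nat.card G) G S rfl hnorm hcop hsolv C hC).1
  have hcan : ∀ χ : IrrCharacter G, InvS S G χ → ∃ χh : IrrCharacter Γ,
      (∀ g : G, (χh : Γ → ℂ) g = (χ : G → ℂ) g) ∧
      (detOrder (χh : Γ → ℂ)).Coprime (Nat.card S) := by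
    intro χ hχ
    have hidx : G.index = Nat.card S := index_eq_card_of_compl G S htop hcop
    obtain ⟨d, hd, hdG⟩ := irr_degree_dvd_card χ
    have hcopd : Nat.Coprime G.index (detOrder (χ : G → ℂ) * d) := by
      rw [hidx]
      exact (Nat.Coprime.mul_left (Nat.Coprime.coprime_dvd_left (detOrder_dvd_card _) hcop)
        (Nat.Coprime.coprime_dvd_left hdG hcop)).symm
    obtain ⟨χc, ⟨hirrc, hextc, hdetc⟩, -⟩ := Cfsg.Agent.S0867.result G (χ : G → ℂ) χ.2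
      ((xinv_iff G S htop χ).mpr hχ) d hd hcopd
    refine ⟨⟨χc, hirrc⟩, hextc, ?_⟩
    show (detOrder χc).Coprime (Nat.card S)
    rw [hdetc]
    exact Nat.Coprime.coprime_dvd_left (detOrder_dvd_card _) hcop
  have hmap : ∀ χ : {χ : IrrCharacter G // InvS S G χ}, ∃ β : IrrCharacter C,
      ∃ (χh : IrrCharacter Γ) (ε : ℤ),
      (∀ g : G, (χh : Γ → ℂ) g = ((χ : IrrCharacter G) : G → ℂ) g) ∧
      (detOrder (χh : Γ → ℂ)).Coprime (Nat.card S) ∧ (ε = 1 ∨ ε = -1) ∧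
      ∀ c : C, ∀ s : Γ, Subgroup.zpowers s = S →
        (χh : Γ → ℂ) ((c : Γ) * s) = (ε : ℂ) * (β : C → ℂ) c := by
    rintro ⟨χ, hχ⟩
    obtain ⟨χh, hext, hdet⟩ := hcan χ hχ
    obtain ⟨⟨β₀, ε, hpm, hval⟩, -⟩ :=
      cyc_main G S hcop htop s₀ hs₀ C hC hCG χh (hirr_of χ χh hext) hdet
    exact ⟨β₀, χh, ε, hext, hdet, hpm, hval⟩
  choose Φ hΦ using hmap
  have hΦinj : Function.Injective Φ := by
    intro a b hab'
    obtain ⟨χh, ε, hext, hdet, hpm, hval⟩ := hΦ a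
    obtain ⟨χh', ε', hext', hdet', hpm', hval'⟩ := hΦ b
    apply Subtype.ext
    refine part2 a.1 b.1 χh χh' hext hext' (Φ a) ε ε' hpm hpm' (fun c => hval c s₀ hs₀)
      (fun c => ?_)
    rw [hab']; exact hval' c s₀ hs₀
  have hΦbij : Function.Bijective Φ :=
    Function.Injective.bijective_of_nat_card_le hΦinj (le_of_eq hcount.symm)
  refine ⟨part1, ?_, ?_⟩
  · intro χ χ' χh χh' _ _ hext hext' _ _ β ε ε' hpm hpm' hval hval'
    exact part2 χ χ' χh χh' hext hext' β ε ε' hpm hpm' (fun c => hval c s₀ hs₀)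
      (fun c => hval' c s₀ hs₀)
  · intro β
    obtain ⟨⟨χ, hχ⟩, rfl⟩ := hΦbij.2 β
    obtain ⟨χh, ε, hext, hdet, hpm, hval⟩ := hΦ ⟨χ, hχ⟩
    exact ⟨χ, χh, ε, hχ, hext, hdet, hpm, hval⟩

end Cfsg.Agent.Helper5
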