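import Mathlib
import Cfsg.Prelude.Def_BlockLocal
import Cfsg.Prelude.Def_BrauerPairs
import Cfsg.Agent.Helper5.BlkStab
import Cfsg.Agent.Helper5.BlkDom2
import Cfsg.Agent.Helper5.BlkMinMax

/-!
helper5: Fong's theorem on blocks of maximal defect covering an invariant block (S0970).
-/

set_option autoImplicit false

namespace Cfsg.Agent.Helper5

open Cfsg Cfsg.Agent.Helper24 Cfsg.Agent.Helper22

universe u

section Grp

variable {G : Type u} [Group G]

/-- the `p`-part of `|C_G(s)|` when `[G : N C_G(s)]` is prime to `p`. -/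
theorem centralizer_factorization [Finite G] {p : ℕ} (N : Subgroup G) [N.Normal]
    (s : G) (hsN : s ∈ N)
    (hidx : ¬ p ∣ (N ⊔ Subgroup.centralizer ({s} : Set G)).index) :
    (Nat.card (Subgroup.centralizer ({s} : Set G))).factorization p
      = (Nat.card (Subgroup.centralizer ({(⟨s, hsN⟩ : N)} : Set N))).factorization p
        + N.index.factorization p := by
  have e2 : (Subgroup.centralizer ({(⟨s, hsN⟩ : N)} : Set N)).map N.subtype
      = N ⊓ Subgroup.centralizer ({s} : Set G) := by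
    ext m
    constructor
    · rintro ⟨n, hn, rfl⟩
      have hn' : n * (⟨s, hsN⟩ : N) = (⟨s, hsN⟩ : N) * n :=
        Subgroup.mem_centralizer_singleton_iff.mp hn
      exact ⟨n.2, Subgroup.mem_centralizer_singleton_iff.mpr (congrArg Subtype.val hn')⟩
    · rintro ⟨hmN, hmC⟩
      have hmC' : m * s = s * m := Subgroup.mem_centralizer_singleton_iff.mp hmC
      exact ⟨⟨m, hmN⟩, Subgroup.mem_centralizer_singleton_iff.mpr (Subtype.ext hmC'), rfl⟩
  obtain ⟨C, hC⟩ : ∃ C : Subgroup G, C = Subgroup.centralizer ({s} : Set G) := ⟨_, rfl⟩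
  rw [← hC] at hidx e2 ⊢
  have hcardN : Nat.card (Subgroup.centralizer ({(⟨s, hsN⟩ : N)} : Set N))
      = Nat.card (N ⊓ C : Subgroup G) := by
    rw [← e2, Subgroup.card_map_of_injective (Subgroup.subtype_injective _)]
  have h1 : Nat.card (N ⊓ C : Subgroup G) * N.relIndex C = Nat.card C := by
    have h := Subgroup.relIndex_mul_relIndex ⊥ (N ⊓ C) C bot_le inf_le_right
    rwa [Subgroup.relIndex_bot_left, Subgroup.relIndex_bot_left,
      Subgroup.inf_relIndex_right] at h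
  have h2 : N.relIndex C * (N ⊔ C).index = N.index := by
    rw [← Subgroup.relIndex_sup_left C N]
    exact Subgroup.relIndex_mul_index le_sup_left
  have hne1 : N.relIndex C ≠ 0 :=
    (Subgroup.index_ne_zero_of_finite : (N.subgroupOf C).index ≠ 0)
  have hne2 : (N ⊔ C).index ≠ 0 := Subgroup.index_ne_zero_of_finite
  have hne3 : Nat.card (N ⊓ C : Subgroup G) ≠ 0 := Nat.card_pos.ne'
  rw [hcardN, ← h1, ← h2, Nat.factorization_mul hne3 hne1, Nat.factorization_mul hne1 hne2]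
  simp only [Finsupp.coe_add, Pi.add_apply]
  rw [Nat.factorization_eq_zero_of_not_dvd hidx, add_zero]

end Grp

section Blocks

variable {G : Type u} [Group G] [Fintype G] (N : Subgroup G) [hN : N.Normal] [Fintype N]

/-- closure under `twIrr` in one direction gives the equivalence. -/
theorem twIrr_mem_iff_of_forall (c : Set (IrrCharacter N))
    (hkey : ∀ (y : G) (ψ : IrrCharacter N), ψ ∈ c → twIrr N y ψ ∈ c) (x : G)
    (ψ : IrrCharacter N) : twIrr N x ψ ∈ c ↔ ψ ∈ c := by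
  constructor
  · intro h
    have h' := hkey x⁻¹ _ h
    rwa [← twIrr_mul, mul_inv_cancel, twIrr_one] at h'
  · exact hkey x ψ

/-- the indicator of the characters of `G` lying over a `G`-stable block of `N`. -/
theorem cover_ind_spec {M : Ideal AlgInt} [hMp : M.IsPrime] (θ₀ : IrrCharacter N)
    (hst : ∀ (x : G) (ψ : IrrCharacter N),
      twIrr N x ψ ∈ blockOf M (θ₀ : N → ℂ) ↔ ψ ∈ blockOf M (θ₀ : N → ℂ)) :
    ∃ cB : IrrCharacter G → ℂ,
      (∀ (χ : IrrCharacter G) (θ : IrrCharacter N),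
        classInner (fun n : N => (χ : G → ℂ) n) (θ : N → ℂ) ≠ 0 →
          (θ ∈ blockOf M (θ₀ : N → ℂ) → cB χ = 1) ∧ (θ ∉ blockOf M (θ₀ : N → ℂ) → cB χ = 0)) ∧
      (∀ g : G, specFun cB g = subgroupBlockCoeff N (blockOf M (θ₀ : N → ℂ)) g) ∧
      (∀ χ χ' : IrrCharacter G, SameBlock M (χ : G → ℂ) (χ' : G → ℂ) → cB χ = cB χ') := by
  classical
  obtain ⟨c, hcdef⟩ : ∃ c : Set (IrrCharacter N), c = blockOf M (θ₀ : N → ℂ) := ⟨_, rfl⟩
  rw [← hcdef] at hst ⊢
  obtain ⟨d, hd0⟩ : ∃ d : IrrCharacter N → ℂ,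
      d = fun θ : IrrCharacter N => if θ ∈ c then (1 : ℂ) else 0 := ⟨_, rfl⟩
  have hda : ∀ θ : IrrCharacter N, d θ = if θ ∈ c then (1 : ℂ) else 0 := fun θ => by rw [hd0]
  have hd : ∀ (x : G) (ψ : IrrCharacter N), d (twIrr N x ψ) = d ψ := by
    intro x ψ
    rw [hda, hda, if_congr (hst x ψ) rfl rfl]
  have hFcl := isClassFunction_ext_of_inv N d hd
  have hspec : ∀ n : N, specFun d n = blockCoeff c n := fun n =>
    (blockCoeff_eq_specFun c d (fun ψ hψ => by rw [hda, if_pos hψ])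
      (fun ψ hψ => by rw [hda, if_neg hψ]) n).symm
  have hF : ∀ g : G, extendByZero N (specFun d) g = subgroupBlockCoeff N c g := by
    intro g
    unfold subgroupBlockCoeff
    by_cases hg : g ∈ N
    · rw [extendByZero_apply_mem N _ hg, dif_pos hg, hspec]
    · rw [extendByZero_apply_not_mem N _ hg, dif_neg hg]
  obtain ⟨cB, hcB0⟩ : ∃ cB : IrrCharacter G → ℂ, cB = fun χ : IrrCharacter G =>
      ((χ : G → ℂ) 1)⁻¹ * ∑ h : G, extendByZero N (specFun d) h * (χ : G → ℂ) h := ⟨_, rfl⟩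
  have hcBa : ∀ χ : IrrCharacter G, cB χ
      = ((χ : G → ℂ) 1)⁻¹ * ∑ h : G, extendByZero N (specFun d) h * (χ : G → ℂ) h :=
    fun χ => by rw [hcB0]
  have hcBθ : ∀ (χ : IrrCharacter G) (θ : IrrCharacter N),
      classInner (fun n : N => (χ : G → ℂ) n) (θ : N → ℂ) ≠ 0 → cB χ = d θ := by
    intro χ θ hθ
    rw [hcBa]
    exact sum_ext_of_inv N d hd χ θ hθ
  have hspecB : specFun cB = extendByZero N (specFun d) := by
    rw [hcB0]
    exact specFun_cvec _ hFcl
  have hcB01 : ∀ χ : IrrCharacter G, cB χ = 1 ∨ cB χ = 0 := by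
    intro χ
    obtain ⟨θ, hθ⟩ := exists_constituent_res N χ
    rw [hcBθ χ θ hθ, hda]
    by_cases h : θ ∈ c
    · left; rw [if_pos h]
    · right; rw [if_neg h]
  have hS : ∀ g : G, MemLocalRing M (extendByZero N (specFun d) g) := by
    intro g
    by_cases hg : g ∈ N
    · rw [extendByZero_apply_mem N _ hg, hspec, hcdef]
      exact blockCoeff_memLocalRing θ₀ _
    · rw [extendByZero_apply_not_mem N _ hg]
      exact mem_locRing.mp (locRing M).zero_mem
  refine ⟨cB, ?_, ?_, ?_⟩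
  · intro χ θ hθ
    rw [hcBθ χ θ hθ, hda]
    exact ⟨fun h => if_pos h, fun h => if_neg h⟩
  · intro g
    rw [hspecB, hF]
  · intro χ χ' hs
    have h1 := classFun_congr hFcl hS hs
    rw [← hcBa, ← hcBa] at h1
    rcases hcB01 χ with h | h <;> rcases hcB01 χ' with h' | h'
    · rw [h, h']
    · rw [h, h', sub_zero] at h1
      exact absurd h1 not_memLocalIdeal_one
    · rw [h, h', zero_sub] at h1
      have h2 := memLocalIdeal_neg h1
      rw [neg_neg] at h2
      exact absurd h2 not_memLocalIdeal_one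
    · rw [h, h']

/-- central characters over a `G`-stable block of `N` at an element of `N`. -/
theorem central_char_over {p : ℕ} [Fact p.Prime] {M : Ideal AlgInt} (hM : IsPModular p M)
    [hMp : M.IsPrime] (θ₀ : IrrCharacter N)
    (hst : ∀ (x : G) (ψ : IrrCharacter N),
      twIrr N x ψ ∈ blockOf M (θ₀ : N → ℂ) ↔ ψ ∈ blockOf M (θ₀ : N → ℂ))
    (χ₁ : IrrCharacter G) (θ' : IrrCharacter N)
    (hθ' : classInner (fun n : N => (χ₁ : G → ℂ) n) (θ' : N → ℂ) ≠ 0)
    (hθ'c : θ' ∈ blockOf M (θ₀ : N → ℂ)) (g : G) (hgN : g ∈ N)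
    (hωn : ¬ MemLocalIdeal M (centralChar (χ₁ : G → ℂ) g)) :
    (∀ θ ∈ blockOf M (θ₀ : N → ℂ),
      ¬ MemLocalIdeal M (centralChar (θ : N → ℂ) (⟨g, hgN⟩ : N))) ∧
    ¬ p ∣ (N ⊔ Subgroup.centralizer ({g} : Set G)).index := by
  classical
  have hp := hM.1
  obtain ⟨gN, hgNdef⟩ : ∃ gN : N, gN = ⟨g, hgN⟩ := ⟨_, rfl⟩
  rw [← hgNdef]
  have hgNc : (gN : G) = g := by rw [hgNdef]
  obtain ⟨w, hw⟩ : ∃ w : ℂ, w = centralChar (θ' : N → ℂ) gN := ⟨_, rfl⟩
  obtain ⟨ι, hι⟩ := exists_class_reps N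
  have hconjcc : ∀ r : N, IsConj g (r : G) →
      MemLocalIdeal M (centralChar (θ' : N → ℂ) r - w) ∧
      (Subgroup.centralizer ({r} : Set N)).index
        = (Subgroup.centralizer ({gN} : Set N)).index := by
    intro r hr
    obtain ⟨x, hx⟩ := isConj_iff.mp hr
    have hidx' : (Subgroup.centralizer ({r} : Set N)).index
        = (Subgroup.centralizer ({gN} : Set N)).index := by
      rw [index_centralizer_sub, index_centralizer_sub, ← hx, hgNc]
      exact relIndex_centralizer_conj N g x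
    refine ⟨?_, hidx'⟩
    have hsb : SameBlock M (θ' : N → ℂ) (twIrr N x θ' : N → ℂ) := by
      have h1 : twIrr N x θ' ∈ blockOf M (θ₀ : N → ℂ) := (hst x θ').mpr hθ'c
      exact sameBlock_trans (sameBlock_symm hθ'c) h1
    have e : centralChar (θ' : N → ℂ) r = centralChar (twIrr N x θ' : N → ℂ) gN := by
      unfold centralChar
      rw [hidx']
      have e1 : (twIrr N x θ' : N → ℂ) gN = (θ' : N → ℂ) r := by
        rw [twIrr_apply]
        have e3 : (⟨x * (gN : G) * x⁻¹, hN.conj_mem gN gN.2 x⟩ : N) = r :=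
          Subtype.ext (by show x * (gN : G) * x⁻¹ = r; rw [hgNc, hx])
        rw [e3]
      have e2 : (twIrr N x θ' : N → ℂ) 1 = (θ' : N → ℂ) 1 := twist_one_apply N _ x
      rw [e1, e2]
    rw [e, hw]
    have h2 := memLocalIdeal_neg (hsb gN)
    rwa [neg_sub] at h2
  have hiff : ∀ n h : N, IsConj g ((h * n * h⁻¹ : N) : G) ↔ IsConj g (n : G) := by
    intro n h
    have hc : IsConj (n : G) ((h * n * h⁻¹ : N) : G) := isConj_iff.mpr ⟨(h : G), rfl⟩
    exact ⟨fun h1 => h1.trans hc.symm, fun h1 => h1.trans hc⟩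
  have hΦcl : IsClassFunction N (fun n : N =>
      (if IsConj g (n : G) then (1 : ℂ) else 0) * centralChar (θ' : N → ℂ) n) := by
    intro n h
    show (if IsConj g ((h * n * h⁻¹ : N) : G) then (1 : ℂ) else 0)
      * centralChar (θ' : N → ℂ) (h * n * h⁻¹) = _
    rw [if_congr (hiff n h) rfl rfl, centralChar_isClassFunction θ' n h]
  have h1 := hι _ hΦcl
  have hω : centralChar (χ₁ : G → ℂ) g = ∑ r ∈ ι,
      (if IsConj g (r : G) then (1 : ℂ) else 0) * centralChar (θ' : N → ℂ) r := by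
    rw [← h1, ← indCC_eq_centralChar N χ₁ θ' hθ' g hgN, indCC_eq N θ' g, Finset.mul_sum]
    refine Finset.sum_congr rfl fun m _ => ?_
    unfold centralChar
    have hi : ((Subgroup.centralizer ({m} : Set N)).index : ℂ) ≠ 0 :=
      Nat.cast_ne_zero.mpr Subgroup.index_ne_zero_of_finite
    have h1' := Cfsg.Agent.Helper5.irr_one_ne_zero θ'
    field_simp
  obtain ⟨t, ht⟩ : ∃ t : ℕ, t = (ι.filter (fun r : N => IsConj g (r : G))).card := ⟨_, rfl⟩
  have hdiff : MemLocalIdeal M (centralChar (χ₁ : G → ℂ) g - (t : ℂ) * w) := by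
    have e : (t : ℂ) * w = ∑ r ∈ ι, (if IsConj g (r : G) then (1 : ℂ) else 0) * w := by
      rw [← Finset.sum_mul, Finset.sum_boole, ht]
    rw [hω, e, ← Finset.sum_sub_distrib]
    refine memLocalIdeal_sum _ _ fun r _ => ?_
    rw [← mul_sub]
    by_cases hr : IsConj g (r : G)
    · rw [if_pos hr, one_mul]
      exact (hconjcc r hr).1
    · rw [if_neg hr, zero_mul]
      exact memLocalIdeal_zero hMp.ne_top
  have hwR : MemLocalRing M w := by rw [hw]; exact centralChar_memLocalRing θ' gN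
  have htw : ¬ MemLocalIdeal M ((t : ℂ) * w) := by
    intro h
    apply hωn
    have h2 := memLocalIdeal_add hMp hdiff h
    rwa [sub_add_cancel] at h2
  have hwn : ¬ MemLocalIdeal M w :=
    fun h => htw (memLocalIdeal_mul_left (natCast_memLocalRing t) h)
  have htp : ¬ p ∣ t := by
    rintro ⟨k, hk⟩
    apply htw
    rw [hk, Nat.cast_mul, mul_assoc, mul_comm]
    exact memLocalIdeal_mul_left ((locRing M).mul_mem (natCast_memLocalRing k) hwR)
      (prime_memLocalIdeal hM)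
  constructor
  · intro θ hθ hcon
    apply hwn
    have hsb : SameBlock M (θ : N → ℂ) (θ' : N → ℂ) :=
      sameBlock_trans (sameBlock_symm hθ) hθ'c
    have h2 := memLocalIdeal_sub hcon (hsb gN)
    rw [sub_sub_cancel] at h2
    rw [hw]
    exact h2
  · have hΨcl : IsClassFunction N (fun n : N =>
        (if IsConj g (n : G) then (1 : ℂ) else 0)
          * ((Subgroup.centralizer ({n} : Set N)).index : ℂ)) := by
      intro n h
      show (if IsConj g ((h * n * h⁻¹ : N) : G) then (1 : ℂ) else 0)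
        * ((Subgroup.centralizer ({h * n * h⁻¹} : Set N)).index : ℂ) = _
      rw [if_congr (hiff n h) rfl rfl, index_centralizer_conj n h]
    have h2 := hι _ hΨcl
    have hL : ∑ n : N, (if IsConj g (n : G) then (1 : ℂ) else 0)
        * ((Subgroup.centralizer ({n} : Set N)).index : ℂ)
          / ((Subgroup.centralizer ({n} : Set N)).index : ℂ)
        = ((Subgroup.centralizer ({g} : Set G)).index : ℂ) := by
      have e1 : ∀ n : N, (if IsConj g (n : G) then (1 : ℂ) else 0)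
          * ((Subgroup.centralizer ({n} : Set N)).index : ℂ)
            / ((Subgroup.centralizer ({n} : Set N)).index : ℂ)
          = (fun x : G => if IsConj g x then (1 : ℂ) else 0) (n : G) := by
        intro n
        have hi : ((Subgroup.centralizer ({n} : Set N)).index : ℂ) ≠ 0 :=
          Nat.cast_ne_zero.mpr Subgroup.index_ne_zero_of_finite
        show _ = if IsConj g (n : G) then (1 : ℂ) else 0
        rw [mul_div_assoc, div_self hi, mul_one]
      rw [Finset.sum_congr rfl fun n _ => e1 n,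
        ← sum_eq_sum_subgroup N (fun x : G => if IsConj g x then (1 : ℂ) else 0) ?_,
        Finset.sum_boole, card_filter_isConj]
      intro x hx
      show (if IsConj g x then (1 : ℂ) else 0) = 0
      rw [if_neg]
      intro hc
      obtain ⟨y, hy⟩ := isConj_iff.mp hc
      exact hx (hy ▸ hN.conj_mem g hgN y)
    have hR : ∑ r ∈ ι, (if IsConj g (r : G) then (1 : ℂ) else 0)
        * ((Subgroup.centralizer ({r} : Set N)).index : ℂ)
        = (t : ℂ) * ((Subgroup.centralizer ({gN} : Set N)).index : ℂ) := by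
      rw [ht, ← Finset.sum_boole, Finset.sum_mul]
      refine Finset.sum_congr rfl fun r _ => ?_
      by_cases hr : IsConj g (r : G)
      · rw [if_pos hr, (hconjcc r hr).2]
      · rw [if_neg hr, zero_mul, zero_mul]
    rw [hL, hR] at h2
    have h3 : (Subgroup.centralizer ({g} : Set G)).index
        = t * (Subgroup.centralizer ({gN} : Set N)).index := by exact_mod_cast h2
    rw [index_centralizer_sub, hgNc] at h3
    obtain ⟨C, hC⟩ : ∃ C : Subgroup G, C = Subgroup.centralizer ({g} : Set G) := ⟨_, rfl⟩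
    rw [← hC] at h3 ⊢
    have h4 := Subgroup.relIndex_mul_relIndex (N ⊓ C) N (N ⊔ C) inf_le_left le_sup_left
    have h5 := Subgroup.relIndex_mul_relIndex (N ⊓ C) C (N ⊔ C) inf_le_right le_sup_right
    rw [Subgroup.inf_relIndex_left, Subgroup.relIndex_sup_left] at h4
    rw [Subgroup.inf_relIndex_right] at h5
    have hne1 : N.relIndex C ≠ 0 :=
      (Subgroup.index_ne_zero_of_finite : (N.subgroupOf C).index ≠ 0)
    have hne2 : C.relIndex N ≠ 0 :=
      (Subgroup.index_ne_zero_of_finite : (C.subgroupOf N).index ≠ 0)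
    have h6 : C.relIndex (N ⊔ C) = C.relIndex N := by
      have h' : N.relIndex C * C.relIndex (N ⊔ C) = N.relIndex C * C.relIndex N := by
        rw [h5, ← h4, mul_comm]
      exact Nat.eq_of_mul_eq_mul_left (Nat.pos_of_ne_zero hne1) h'
    have h7 := Subgroup.relIndex_mul_index (show C ≤ N ⊔ C from le_sup_right)
    rw [h6, h3] at h7
    have h8 : (N ⊔ C).index = t := by
      have h' : C.relIndex N * (N ⊔ C).index = C.relIndex N * t := by
        rw [h7, mul_comm]
      exact Nat.eq_of_mul_eq_mul_left (Nat.pos_of_ne_zero hne2) h'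
    rw [h8]
    exact htp

/-- some block covering a `G`-stable block `b` of `N` has defect at least
`d(b) + v_p [G : N]`. -/
theorem exists_cover_defect_ge {p : ℕ} [Fact p.Prime] {M : Ideal AlgInt} (hM : IsPModular p M)
    [hMp : M.IsPrime] (θ₀ : IrrCharacter N)
    (hst : ∀ (x : G) (ψ : IrrCharacter N),
      twIrr N x ψ ∈ blockOf M (θ₀ : N → ℂ) ↔ ψ ∈ blockOf M (θ₀ : N → ℂ)) :
    ∃ χ' : IrrCharacter G,
      (∃ θ ∈ blockOf M (θ₀ : N → ℂ),
        classInner (fun n : N => (χ' : G → ℂ) n) (θ : N → ℂ) ≠ 0) ∧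
      blockDefect p (blockOf M (θ₀ : N → ℂ)) + N.index.factorization p
        ≤ blockDefect p (blockOf M (χ' : G → ℂ)) := by
  classical
  have hp := hM.1
  obtain ⟨cB, hcBθ, hspecB, hcBblk⟩ := cover_ind_spec N (M := M) θ₀ hst
  obtain ⟨χ, hχθ⟩ := Cfsg.Agent.Helper24.exists_irr_over N (θ₀ : N → ℂ) θ₀.2
  have hθ₀c : θ₀ ∈ blockOf M (θ₀ : N → ℂ) := sameBlock_refl _
  have hχ1 : cB χ = 1 := (hcBθ χ θ₀ hχθ).1 hθ₀c
  obtain ⟨ι, hι⟩ := exists_class_reps G
  have hsv := spec_value cB ι hι χ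
  rw [hχ1] at hsv
  have hSR : ∀ g : G, MemLocalRing M (specFun cB g) := by
    intro g
    rw [hspecB]
    unfold subgroupBlockCoeff
    by_cases hg : g ∈ N
    · rw [dif_pos hg]
      exact blockCoeff_memLocalRing θ₀ _
    · rw [dif_neg hg]
      exact mem_locRing.mp (locRing M).zero_mem
  obtain ⟨s, -, hs⟩ : ∃ s ∈ ι,
      ¬ MemLocalIdeal M (specFun cB s * centralChar (χ : G → ℂ) s) := by
    by_contra hcon
    push Not at hcon
    exact not_memLocalIdeal_one (M := M) (hsv ▸ memLocalIdeal_sum _ _ hcon)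
  have hs1 : ¬ MemLocalIdeal M (specFun cB s) := fun h => hs (by
    rw [mul_comm]
    exact memLocalIdeal_mul_left (centralChar_memLocalRing χ s) h)
  have hs2 : ¬ MemLocalIdeal M (centralChar (χ : G → ℂ) s) :=
    fun h => hs (memLocalIdeal_mul_left (hSR s) h)
  have hsN : s ∈ N := by
    by_contra hno
    apply hs1
    rw [hspecB]
    unfold subgroupBlockCoeff
    rw [dif_neg hno]
    exact memLocalIdeal_zero hMp.ne_top
  obtain ⟨hdc, hidx⟩ := central_char_over N hM θ₀ hst χ θ₀ hχθ hθ₀c s hsN hs2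
  have hbc : ¬ MemLocalIdeal M (blockCoeff (blockOf M (θ₀ : N → ℂ)) (⟨s, hsN⟩ : N)) := by
    have h := hs1
    rw [hspecB] at h
    unfold subgroupBlockCoeff at h
    rwa [dif_pos hsN] at h
  have hdcN : IsDefectClass M (blockOf M (θ₀ : N → ℂ)) (⟨s, hsN⟩ : N) :=
    ⟨blockCoeff_memLocalRing θ₀ _, hbc, hdc⟩
  have hcR : ∀ ψ : IrrCharacter G, MemLocalRing M (cB ψ) := by
    intro ψ
    obtain ⟨θ, hθ⟩ := exists_constituent_res N ψ
    by_cases h : θ ∈ blockOf M (θ₀ : N → ℂ)
    · rw [(hcBθ ψ θ hθ).1 h]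
      exact mem_locRing.mp (locRing M).one_mem
    · rw [(hcBθ ψ θ hθ).2 h]
      exact mem_locRing.mp (locRing M).zero_mem
  obtain ⟨χ', hχ'c, hχ'F⟩ := exists_block_of_sum_notMem (M := M) cB
    (fun ψ : IrrCharacter G =>
      (Nat.card G : ℂ)⁻¹ * ((ψ : G → ℂ) 1 * starRingEnd ℂ ((ψ : G → ℂ) s)))
    hcR hcBblk (by
      have e : ∑ ψ : IrrCharacter G, cB ψ *
          ((Nat.card G : ℂ)⁻¹ * ((ψ : G → ℂ) 1 * starRingEnd ℂ ((ψ : G → ℂ) s)))
          = specFun cB s := by
        unfold specFun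
        rw [Finset.mul_sum]
        exact Finset.sum_congr rfl fun ψ _ => by ring
      rw [e]
      exact hs1)
  have hχ'F' : ¬ MemLocalIdeal M (blockCoeff (blockOf M (χ' : G → ℂ)) s) := by
    have e : ∑ᶠ ψ ∈ blockOf M (χ' : G → ℂ),
        (Nat.card G : ℂ)⁻¹ * ((ψ : G → ℂ) 1 * starRingEnd ℂ ((ψ : G → ℂ) s))
        = blockCoeff (blockOf M (χ' : G → ℂ)) s := by
      unfold blockCoeff
      rw [finsum_mem_eq_sum_ite', finsum_mem_eq_sum_ite', Finset.mul_sum]
      refine Finset.sum_congr rfl fun ψ _ => ?_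
      rw [mul_ite, mul_zero]
    rw [← e]
    exact hχ'F
  have hχ'cov : ∃ θ ∈ blockOf M (θ₀ : N → ℂ),
      classInner (fun n : N => (χ' : G → ℂ) n) (θ : N → ℂ) ≠ 0 := by
    obtain ⟨θ, hθ⟩ := exists_constituent_res N χ'
    refine ⟨θ, ?_, hθ⟩
    by_contra hno
    exact hχ'c ((hcBθ χ' θ hθ).2 hno)
  refine ⟨χ', hχ'cov, ?_⟩
  obtain ⟨g', hg'⟩ := exists_defect_class (M := M) χ'
  obtain ⟨Q'⟩ := (inferInstance : Nonempty (Sylow p (Subgroup.centralizer ({g'} : Set G))))
  have hD' : IsDefectGroup p M (blockOf M (χ' : G → ℂ))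
      ((Q' : Subgroup (Subgroup.centralizer ({g'} : Set G))).map
        (Subgroup.centralizer ({g'} : Set G)).subtype) := ⟨g', hg', Q', rfl⟩
  have hdefle := blockCoeff_defLe hM χ' g' _ (defLe_sylow g' Q')
    ⟨χ', sameBlock_refl _, hg'.2.2 χ' (sameBlock_refl _)⟩ s hχ'F'
  obtain ⟨Qs⟩ := (inferInstance : Nonempty (Sylow p (Subgroup.centralizer ({s} : Set G))))
  obtain ⟨x, hx⟩ := hdefle _ (Qs.2.map _) (Subgroup.map_subtype_le _)
  have hc1 : Nat.card ((Qs : Subgroup (Subgroup.centralizer ({s} : Set G))).map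
      (Subgroup.centralizer ({s} : Set G)).subtype)
      = p ^ (Nat.card (Subgroup.centralizer ({s} : Set G))).factorization p := by
    rw [Subgroup.card_map_of_injective (Subgroup.subtype_injective _)]
    exact Sylow.card_eq_multiplicity Qs
  have hc2 : Nat.card (((Q' : Subgroup (Subgroup.centralizer ({g'} : Set G))).map
      (Subgroup.centralizer ({g'} : Set G)).subtype).map (MulAut.conj x).toMonoidHom)
      = p ^ blockDefect p (blockOf M (χ' : G → ℂ)) := by
    rw [Subgroup.card_map_of_injective (MulAut.conj x).injective]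
    exact card_defect_group hM χ' _ hD'
  have hle1 : (Nat.card (Subgroup.centralizer ({s} : Set G))).factorization p
      ≤ blockDefect p (blockOf M (χ' : G → ℂ)) := by
    have h := Subgroup.card_le_of_le hx
    rw [hc1, hc2] at h
    exact (Nat.pow_le_pow_iff_right hp.one_lt).mp h
  obtain ⟨QN⟩ := (inferInstance :
    Nonempty (Sylow p (Subgroup.centralizer ({(⟨s, hsN⟩ : N)} : Set N))))
  have hDN : IsDefectGroup p M (blockOf M (θ₀ : N → ℂ))
      ((QN : Subgroup (Subgroup.centralizer ({(⟨s, hsN⟩ : N)} : Set N))).map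
        (Subgroup.centralizer ({(⟨s, hsN⟩ : N)} : Set N)).subtype) := ⟨_, hdcN, QN, rfl⟩
  have hc3 := card_defect_group hM θ₀ _ hDN
  rw [Subgroup.card_map_of_injective (Subgroup.subtype_injective _),
    Sylow.card_eq_multiplicity QN] at hc3
  have hdb : (Nat.card (Subgroup.centralizer ({(⟨s, hsN⟩ : N)} : Set N))).factorization p
      = blockDefect p (blockOf M (θ₀ : N → ℂ)) := Nat.pow_right_injective hp.two_le hc3
  have hval := centralizer_factorization (p := p) N s hsN hidx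
  rw [← hdb, ← hval]
  exact hle1

/-- the defect group of a block covering a `G`-stable block `b` of `N` meets `N` inside a
defect group of `b`. -/
theorem cover_defect_inter_le {p : ℕ} [Fact p.Prime] {M : Ideal AlgInt} (hM : IsPModular p M)
    [hMp : M.IsPrime] (θ₀ : IrrCharacter N)
    (hst : ∀ (x : G) (ψ : IrrCharacter N),
      twIrr N x ψ ∈ blockOf M (θ₀ : N → ℂ) ↔ ψ ∈ blockOf M (θ₀ : N → ℂ))
    (χ' : IrrCharacter G)
    (hcov : ∃ θ ∈ blockOf M (θ₀ : N → ℂ),
      classInner (fun n : N => (χ' : G → ℂ) n) (θ : N → ℂ) ≠ 0)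
    (D' : Subgroup G) (hD' : IsDefectGroup p M (blockOf M (χ' : G → ℂ)) D') :
    ∃ E : Subgroup N, IsDefectGroup p M (blockOf M (θ₀ : N → ℂ)) E ∧
      (D' ⊓ N).subgroupOf N ≤ E := by
  classical
  have hp := hM.1
  obtain ⟨cB, hcBθ, hspecB, hcBblk⟩ := cover_ind_spec N (M := M) θ₀ hst
  obtain ⟨θ, hθc, hθ⟩ := hcov
  have hχ'1 : cB χ' = 1 := (hcBθ χ' θ hθ).1 hθc
  obtain ⟨g, hg, Q, hD'def⟩ := id hD'
  obtain ⟨c', hc', hc'v⟩ := osima (M := M) χ'
  have hmul : c' * cB = c' := by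
    funext ψ
    rw [Pi.mul_apply]
    by_cases hψ : SameBlock M (χ' : G → ℂ) (ψ : G → ℂ)
    · rw [← hcBblk χ' ψ hψ, hχ'1, mul_one]
    · rw [(hc'v ψ).2 hψ, zero_mul]
  have hbc := blockCoeff_eq_specFun (blockOf M (χ' : G → ℂ)) c' (fun ψ hψ => (hc'v ψ).1 hψ)
    (fun ψ hψ => (hc'v ψ).2 hψ) g
  have hgn : ¬ MemLocalIdeal M (specFun c' g) := by
    rw [← hbc]
    exact hg.2.1
  have hconv := specFun_mul c' cB g
  rw [hmul] at hconv
  have hD'g : ∀ u ∈ D', u * g = g * u := by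
    intro u hu
    rw [hD'def] at hu
    exact Subgroup.mem_centralizer_singleton_iff.mp (Subgroup.map_subtype_le _ hu)
  have hD'p : IsPGroup p D' := by
    rw [hD'def]
    exact Q.2.map _
  obtain ⟨T, hT⟩ : ∃ T : G → ℂ,
      T = fun h : G => specFun c' h * specFun cB (h⁻¹ * g) := ⟨_, rfl⟩
  have hTa : ∀ h : G, T h = specFun c' h * specFun cB (h⁻¹ * g) := fun h => by rw [hT]
  have hSR : ∀ g : G, MemLocalRing M (specFun cB g) := by
    intro g
    rw [hspecB]
    unfold subgroupBlockCoeff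
    by_cases hg : g ∈ N
    · rw [dif_pos hg]
      exact blockCoeff_memLocalRing θ₀ _
    · rw [dif_neg hg]
      exact mem_locRing.mp (locRing M).zero_mem
  have hTinv : ∀ u ∈ D', ∀ h : G, T (u * h * u⁻¹) = T h := by
    intro u hu h
    rw [hTa, hTa, specFun_isClassFunction c' h u]
    have e : (u * h * u⁻¹)⁻¹ * g = u * (h⁻¹ * g) * u⁻¹ := by
      have h1 : u⁻¹ * g = g * u⁻¹ := by
        have h2 := hD'g u hu
        calc u⁻¹ * g = u⁻¹ * (g * u) * u⁻¹ := by group
          _ = u⁻¹ * (u * g) * u⁻¹ := by rw [h2]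
          _ = g * u⁻¹ := by group
      calc (u * h * u⁻¹)⁻¹ * g = u * h⁻¹ * (u⁻¹ * g) := by group
        _ = u * h⁻¹ * (g * u⁻¹) := by rw [h1]
        _ = u * (h⁻¹ * g) * u⁻¹ := by group
    rw [e, specFun_isClassFunction cB (h⁻¹ * g) u]
  obtain ⟨X, hX⟩ : ∃ X : Finset G,
      X = Finset.univ.filter (fun h : G => ¬ ∀ u ∈ D', u * h * u⁻¹ = h) := ⟨_, rfl⟩
  have hXmem : ∀ h : G, h ∈ X ↔ ¬ ∀ u ∈ D', u * h * u⁻¹ = h := by
    intro h
    rw [hX, Finset.mem_filter]
    exact ⟨fun h' => h'.2, fun h' => ⟨Finset.mem_univ _, h'⟩⟩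
  have hXs : MemLocalIdeal M (∑ h ∈ X, T h) := by
    refine sum_memLocalIdeal_of_no_fixed hM D' hD'p X ?_ ?_ T (fun u hu h _ => hTinv u hu h) ?_
    · intro u hu h hh
      rw [hXmem] at hh ⊢
      intro hfix
      apply hh
      intro v hv
      have h1 := hfix (u * v * u⁻¹) (D'.mul_mem (D'.mul_mem hu hv) (D'.inv_mem hu))
      have e : u * v * u⁻¹ * (u * h * u⁻¹) * (u * v * u⁻¹)⁻¹ = u * (v * h * v⁻¹) * u⁻¹ := by
        group
      rw [e] at h1
      exact mul_left_cancel (mul_right_cancel h1)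
    · intro h hh
      exact (hXmem h).mp hh
    · intro h _
      rw [hTa]
      exact (locRing M).mul_mem (hc' h) (hSR _)
  have hsplit : ∑ h : G, T h = ∑ h ∈ X, T h + ∑ h ∈ Xᶜ, T h :=
    (Finset.sum_add_sum_compl X T).symm
  have hfixsum : ¬ MemLocalIdeal M (∑ h ∈ Xᶜ, T h) := by
    intro hcon
    apply hgn
    rw [hconv]
    have e : ∑ h : G, specFun c' h * specFun cB (h⁻¹ * g) = ∑ h : G, T h :=
      Finset.sum_congr rfl fun h _ => (hTa h).symm
    rw [e, hsplit]
    exact memLocalIdeal_add hMp hXs hcon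
  obtain ⟨h, hhX, hhT⟩ : ∃ h ∈ Xᶜ, ¬ MemLocalIdeal M (T h) := by
    by_contra hcon
    push Not at hcon
    exact hfixsum (memLocalIdeal_sum _ _ hcon)
  have hhfix : ∀ u ∈ D', u * h * u⁻¹ = h := by
    rw [Finset.mem_compl, hXmem, not_not] at hhX
    exact hhX
  rw [hTa] at hhT
  have hh' : ¬ MemLocalIdeal M (specFun cB (h⁻¹ * g)) :=
    fun hm => hhT (memLocalIdeal_mul_left (hc' h) hm)
  obtain ⟨h', hh'def⟩ : ∃ h' : G, h' = h⁻¹ * g := ⟨_, rfl⟩
  rw [← hh'def] at hh'
  have hh'N : h' ∈ N := by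
    by_contra hno
    apply hh'
    rw [hspecB]
    unfold subgroupBlockCoeff
    rw [dif_neg hno]
    exact memLocalIdeal_zero hMp.ne_top
  have hbcN : ¬ MemLocalIdeal M
      (blockCoeff (blockOf M (θ₀ : N → ℂ)) (⟨h', hh'N⟩ : N)) := by
    rw [hspecB] at hh'
    unfold subgroupBlockCoeff at hh'
    rwa [dif_pos hh'N] at hh'
  have hh'c : ∀ u ∈ D', u * h' = h' * u := by
    intro u hu
    have h1 := hhfix u hu
    have h2 := hD'g u hu
    rw [hh'def]
    have h3 : u * h = h * u := by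
      calc u * h = u * h * u⁻¹ * u := by group
        _ = h * u := by rw [h1]
    have h4 : u * h⁻¹ = h⁻¹ * u := by
      calc u * h⁻¹ = h⁻¹ * (h * u) * h⁻¹ := by group
        _ = h⁻¹ * (u * h) * h⁻¹ := by rw [h3]
        _ = h⁻¹ * u := by group
    calc u * (h⁻¹ * g) = u * h⁻¹ * g := by group
      _ = h⁻¹ * u * g := by rw [h4]
      _ = h⁻¹ * (u * g) := by group
      _ = h⁻¹ * (g * u) := by rw [h2]
      _ = h⁻¹ * g * u := by group
  obtain ⟨gb, hgb⟩ := exists_defect_class (M := M) θ₀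
  obtain ⟨Qb⟩ := (inferInstance : Nonempty (Sylow p (Subgroup.centralizer ({gb} : Set N))))
  have hE₀ : IsDefectGroup p M (blockOf M (θ₀ : N → ℂ))
      ((Qb : Subgroup (Subgroup.centralizer ({gb} : Set N))).map
        (Subgroup.centralizer ({gb} : Set N)).subtype) := ⟨gb, hgb, Qb, rfl⟩
  have hdefle := blockCoeff_defLe hM θ₀ gb _ (defLe_sylow gb Qb)
    ⟨θ₀, sameBlock_refl _, hgb.2.2 θ₀ (sameBlock_refl _)⟩ (⟨h', hh'N⟩ : N) hbcN
  have hRp : IsPGroup p ((D' ⊓ N).subgroupOf N) := (hD'p.to_le inf_le_left).comap_subtype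
  have hRc : (D' ⊓ N).subgroupOf N ≤ Subgroup.centralizer ({(⟨h', hh'N⟩ : N)} : Set N) := by
    intro n hn
    rw [Subgroup.mem_subgroupOf] at hn
    exact Subgroup.mem_centralizer_singleton_iff.mpr (Subtype.ext (hh'c (n : G) hn.1))
  obtain ⟨x, hx⟩ := hdefle _ hRp hRc
  exact ⟨_, isDefectGroup_conj hM θ₀ _ hE₀ x, hx⟩

/-- **Fong**: S0970 for `b = blockOf M θ₀`, `B = blockOf M χ₀`. -/
theorem fong_invariant {p : ℕ} [Fact p.Prime] {M : Ideal AlgInt} (hM : IsPModular p M)
    [hMp : M.IsPrime] (θ₀ : IrrCharacter N)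
    (hst : ∀ (x : G) (ψ : IrrCharacter N),
      twIrr N x ψ ∈ blockOf M (θ₀ : N → ℂ) ↔ ψ ∈ blockOf M (θ₀ : N → ℂ))
    (χ₀ : IrrCharacter G)
    (hcov : ∃ χ ∈ blockOf M (χ₀ : G → ℂ), ∃ θ ∈ blockOf M (θ₀ : N → ℂ),
      classInner (fun n : N => (χ : G → ℂ) n) (θ : N → ℂ) ≠ 0)
    (hmax : ∀ χ' : IrrCharacter G, (∃ θ ∈ blockOf M (θ₀ : N → ℂ),
        classInner (fun n : N => (χ' : G → ℂ) n) (θ : N → ℂ) ≠ 0) →
      blockDefect p (blockOf M (χ' : G → ℂ)) ≤ blockDefect p (blockOf M (χ₀ : G → ℂ)))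
    (P : Subgroup G) (hP : IsDefectGroup p M (blockOf M (χ₀ : G → ℂ)) P) :
    ¬ p ∣ (P ⊔ N).index ∧
      IsDefectGroup p M (blockOf M (θ₀ : N → ℂ)) ((P ⊓ N).subgroupOf N) ∧
      blockDefect p (blockOf M (χ₀ : G → ℂ))
        = blockDefect p (blockOf M (θ₀ : N → ℂ)) + N.index.factorization p := by
  classical
  have hp := hM.1
  obtain ⟨χ, hχB, θ, hθc, hθ⟩ := hcov
  have hBeq : blockOf M (χ₀ : G → ℂ) = blockOf M (χ : G → ℂ) := blockOf_eq_of_sameBlock hχB
  rw [hBeq] at hP hmax ⊢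
  obtain ⟨E, hE, hRE⟩ := cover_defect_inter_le N hM θ₀ hst χ ⟨θ, hθc, hθ⟩ P hP
  obtain ⟨χ', hχ'cov, hχ'def⟩ := exists_cover_defect_ge N hM θ₀ hst
  have hge := hχ'def.trans (hmax χ' hχ'cov)
  have hPcard := card_defect_group hM χ P hP
  have hEcard := card_defect_group hM θ₀ E hE
  obtain ⟨R, hR⟩ : ∃ R : Subgroup N, R = (P ⊓ N).subgroupOf N := ⟨_, rfl⟩
  rw [← hR] at hRE ⊢
  have hRcard : Nat.card R = Nat.card (N ⊓ P : Subgroup G) := by
    rw [hR, inf_comm N P, ← Subgroup.card_map_of_injective (Subgroup.subtype_injective N),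
      Subgroup.map_subgroupOf_eq_of_le inf_le_right]
  have h1 : Nat.card (N ⊓ P : Subgroup G) * N.relIndex P = Nat.card P := by
    have h := Subgroup.relIndex_mul_relIndex ⊥ (N ⊓ P) P bot_le inf_le_right
    rwa [Subgroup.relIndex_bot_left, Subgroup.relIndex_bot_left,
      Subgroup.inf_relIndex_right] at h
  have hRdvd := Subgroup.card_dvd_of_le hRE
  rw [hEcard] at hRdvd
  obtain ⟨r, hr, hr'⟩ := (Nat.dvd_prime_pow hp).mp hRdvd
  have h2 : N.relIndex P ∣ p ^ blockDefect p (blockOf M (χ : G → ℂ)) := by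
    rw [← hPcard, ← h1]
    exact Dvd.intro_left _ rfl
  obtain ⟨a, ha, ha'⟩ := (Nat.dvd_prime_pow hp).mp h2
  have hNidx : N.index ≠ 0 := Subgroup.index_ne_zero_of_finite
  have ha2 : a ≤ N.index.factorization p := by
    have h : p ^ a ∣ N.index := ha' ▸ Subgroup.relIndex_dvd_index_of_normal N P
    exact (hp.pow_dvd_iff_le_factorization hNidx).mp h
  have h3 : r + a = blockDefect p (blockOf M (χ : G → ℂ)) := by
    have h : p ^ (r + a) = p ^ blockDefect p (blockOf M (χ : G → ℂ)) := by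
      rw [pow_add, ← hr', ← ha', hRcard, h1, hPcard]
    exact Nat.pow_right_injective hp.two_le h
  have hr2 : r = blockDefect p (blockOf M (θ₀ : N → ℂ)) := by omega
  have ha3 : a = N.index.factorization p := by omega
  refine ⟨?_, ?_, ?_⟩
  · rw [sup_comm]
    intro hdvd
    have h4 : N.relIndex P * (N ⊔ P).index = N.index := by
      rw [← Subgroup.relIndex_sup_left P N]
      exact Subgroup.relIndex_mul_index le_sup_left
    have h5 : p ^ (N.index.factorization p + 1) ∣ N.index := by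
      rw [pow_succ]
      have h6 : p ^ N.index.factorization p * p ∣ N.relIndex P * (N ⊔ P).index := by
        rw [ha', ha3]
        exact Nat.mul_dvd_mul_left _ hdvd
      rwa [h4] at h6
    exact Nat.pow_succ_factorization_not_dvd hNidx hp h5
  · have hEq : R = E := Subgroup.eq_of_le_of_card_ge hRE (by rw [hEcard, hr', hr2])
    rw [hEq]
    exact hE
  · omega

end Blocks

end Cfsg.Agent.Helper5
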