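import Mathlib
import Cfsg.Agent.Helper5.BlkFMT

/-!
helper5: the extended First Main Theorem (S0973): root blocks of `P C_G(P)` of a block with
defect group `P` exist and are `N_G(P)`-conjugate.
-/

set_option autoImplicit false

namespace Cfsg.Agent.Helper5

open Cfsg Cfsg.Agent.Helper24 Cfsg.Agent.Helper22

universe u

section Transport

theorem isIrr_comp_mulEquiv_h5 {A B : Type u} [Group A] [Group B] (e : A ≃* B) {θ : B → ℂ}
    (hθ : IsIrrCharacter B θ) : IsIrrCharacter A (fun a => θ (e a)) := by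
  obtain ⟨n, ρ, hρ, rfl⟩ := hθ
  exact ⟨n, MonoidHom.comp ρ e.toMonoidHom, (isIrreducible_comp_iff _ e.surjective ρ).mpr hρ, rfl⟩

theorem centralChar_comp_equiv {A B : Type u} [Group A] [Group B] (e : A ≃* B) (ψ : B → ℂ)
    (a : A) : centralChar (fun x => ψ (e x)) a = centralChar ψ (e a) := by
  have hidx : (Subgroup.centralizer ({a} : Set A)).index
      = (Subgroup.centralizer ({e a} : Set B)).index := by
    have h1 : Subgroup.centralizer ({a} : Set A)
        = (Subgroup.centralizer ({e a} : Set B)).comap e.toMonoidHom := by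
      ext x
      rw [Subgroup.mem_comap, Subgroup.mem_centralizer_singleton_iff,
        Subgroup.mem_centralizer_singleton_iff]
      show x * a = a * x ↔ e x * e a = e a * e x
      rw [← map_mul, ← map_mul, e.injective.eq_iff]
    rw [h1]
    exact Subgroup.index_comap_of_surjective _ e.surjective
  show ((Subgroup.centralizer ({a} : Set A)).index : ℂ) * ψ (e a) / ψ (e 1)
    = ((Subgroup.centralizer ({e a} : Set B)).index : ℂ) * ψ (e a) / ψ 1
  rw [hidx, map_one]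

theorem sameBlock_comp_equiv {A B : Type u} [Group A] [Group B] {M : Ideal AlgInt} (e : A ≃* B)
    (ψ φ : B → ℂ) :
    SameBlock M (fun x => ψ (e x)) (fun x => φ (e x)) ↔ SameBlock M ψ φ := by
  constructor
  · intro h b
    have h1 := h (e.symm b)
    rw [centralChar_comp_equiv, centralChar_comp_equiv, e.apply_symm_apply] at h1
    exact h1
  · intro h a
    rw [centralChar_comp_equiv, centralChar_comp_equiv]
    exact h (e a)

variable {G : Type u} [Group G]

/-- conjugation by `s` on a subgroup it normalises. -/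
def conjEquivL (H : Subgroup G) (s : G) (h1 : ∀ g ∈ H, s * g * s⁻¹ ∈ H)
    (h2 : ∀ g ∈ H, s⁻¹ * g * s ∈ H) : ↥H ≃* ↥H where
  toFun g := ⟨s * g * s⁻¹, h1 g g.2⟩
  invFun g := ⟨s⁻¹ * g * s, h2 g g.2⟩
  left_inv g := Subtype.ext (by simp [mul_assoc])
  right_inv g := Subtype.ext (by simp [mul_assoc])
  map_mul' a b := Subtype.ext (by simp [mul_assoc])

/-- the conjugate of an irreducible character of a subgroup by a normalising element. -/
noncomputable def twL (L : Subgroup G) (n : G) (h1 : ∀ g ∈ L, n * g * n⁻¹ ∈ L)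
    (h2 : ∀ g ∈ L, n⁻¹ * g * n ∈ L) (θ : IrrCharacter L) : IrrCharacter L :=
  ⟨fun l => (θ : L → ℂ) (conjEquivL L n h1 h2 l), isIrr_comp_mulEquiv_h5 _ θ.2⟩

theorem twL_apply (L : Subgroup G) (n : G) (h1 : ∀ g ∈ L, n * g * n⁻¹ ∈ L)
    (h2 : ∀ g ∈ L, n⁻¹ * g * n ∈ L) (θ : IrrCharacter L) (l : L) :
    (twL L n h1 h2 θ : L → ℂ) l = (θ : L → ℂ) ⟨n * l * n⁻¹, h1 l l.2⟩ := rfl

theorem twL_sameBlock {M : Ideal AlgInt} (L : Subgroup G) (n : G)
    (h1 : ∀ g ∈ L, n * g * n⁻¹ ∈ L) (h2 : ∀ g ∈ L, n⁻¹ * g * n ∈ L) (θ φ : IrrCharacter L)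
    (h : SameBlock M (θ : L → ℂ) (φ : L → ℂ)) :
    SameBlock M (twL L n h1 h2 θ : L → ℂ) (twL L n h1 h2 φ : L → ℂ) :=
  (sameBlock_comp_equiv (conjEquivL L n h1 h2) (θ : L → ℂ) (φ : L → ℂ)).mpr h

/-- an irreducible character of `L ≤ N` viewed on `L.subgroupOf N`. -/
noncomputable def resIrr {L N : Subgroup G} (hLN : L ≤ N) (θ : IrrCharacter L) :
    IrrCharacter (L.subgroupOf N) :=
  ⟨fun a => (θ : L → ℂ) (Subgroup.subgroupOfEquivOfLe hLN a), isIrr_comp_mulEquiv_h5 _ θ.2⟩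

theorem resIrr_apply {L N : Subgroup G} (hLN : L ≤ N) (θ : IrrCharacter L)
    (a : L.subgroupOf N) :
    (resIrr hLN θ : L.subgroupOf N → ℂ) a = (θ : L → ℂ) (Subgroup.subgroupOfEquivOfLe hLN a) :=
  rfl

theorem resIrr_sameBlock {M : Ideal AlgInt} {L N : Subgroup G} (hLN : L ≤ N)
    (θ φ : IrrCharacter L) :
    SameBlock M (resIrr hLN θ : L.subgroupOf N → ℂ) (resIrr hLN φ : L.subgroupOf N → ℂ)
      ↔ SameBlock M (θ : L → ℂ) (φ : L → ℂ) :=
  sameBlock_comp_equiv (Subgroup.subgroupOfEquivOfLe hLN) (θ : L → ℂ) (φ : L → ℂ)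

end Transport

section Blocks

variable {G : Type u} [Group G] [Fintype G]

/-- a block of `P ≤ H ≤ N_G(P)` inducing a block with defect group `P` has defect group `P`. -/
theorem defect_of_induced {p : ℕ} [Fact p.Prime] {M : Ideal AlgInt} (hM : IsPModular p M)
    [hMp : M.IsPrime] (χ₀ : IrrCharacter G) (P : Subgroup G)
    (hP : IsDefectGroup p M (blockOf M (χ₀ : G → ℂ)) P) (H : Subgroup G) [Fintype H]
    (hPH : P ≤ H) (hHN : H ≤ Subgroup.normalizer (P : Set G)) (ξ : IrrCharacter H)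
    (hind : IsInducedBlock M H (blockOf M (ξ : H → ℂ)) (blockOf M (χ₀ : G → ℂ))) :
    IsDefectGroup p M (blockOf M (ξ : H → ℂ)) (P.subgroupOf H) := by
  classical
  have hPp : IsPGroup p P := by
    obtain ⟨g, -, Q, rfl⟩ := hP
    exact Q.2.map _
  obtain ⟨h₀, hh₀⟩ := exists_defect_class (M := M) ξ
  obtain ⟨Q'⟩ := (inferInstance : Nonempty (Sylow p (Subgroup.centralizer ({h₀} : Set H))))
  have hD' : IsDefectGroup p M (blockOf M (ξ : H → ℂ))
      ((Q' : Subgroup (Subgroup.centralizer ({h₀} : Set H))).map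
        (Subgroup.centralizer ({h₀} : Set H)).subtype) := ⟨h₀, hh₀, Q', rfl⟩
  obtain ⟨E, hE, hDE⟩ := induced_defect_le hM H ξ χ₀ hind _ hD'
  have hP'n : (P.subgroupOf H).Normal :=
    (Subgroup.normal_subgroupOf_iff_le_normalizer hPH).mpr hHN
  have hP'p : IsPGroup p (P.subgroupOf H) := hPp.comap_subtype
  have hPD := normal_pGroup_le_defect hM ξ (P.subgroupOf H) hP'p _ hD'
  have hPE : P ≤ E := by
    intro u hu
    have h1 : (⟨u, hPH hu⟩ : H) ∈ P.subgroupOf H := by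
      rw [Subgroup.mem_subgroupOf]
      exact hu
    exact hDE ⟨⟨u, hPH hu⟩, hPD h1, rfl⟩
  have hcE := card_defect_group hM χ₀ E hE
  have hcP := card_defect_group hM χ₀ P hP
  have hPE' : P = E := Subgroup.eq_of_le_of_card_ge hPE (by rw [hcE, hcP])
  have hDeq : (Q' : Subgroup (Subgroup.centralizer ({h₀} : Set H))).map
      (Subgroup.centralizer ({h₀} : Set H)).subtype = P.subgroupOf H := by
    refine le_antisymm ?_ hPD
    intro x hx
    rw [Subgroup.mem_subgroupOf, hPE']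
    exact hDE ⟨x, hx, rfl⟩
  rw [← hDeq]
  exact hD'

/-- the Brauer central characters of `ξ ∈ Irr(N)` and of a constituent `θ` of its restriction to
the normal subgroup `L ⊇ C_G(P)` coincide. -/
theorem brauer_eq_of_over (P L N : Subgroup G) [Fintype N] [Fintype L] (hLN : L ≤ N)
    [hn : (L.subgroupOf N).Normal] [Fintype (L.subgroupOf N)]
    (hCL : Subgroup.centralizer (P : Set G) ≤ L) (hNP : N ≤ Subgroup.normalizer (P : Set G))
    (θ : IrrCharacter L) (ξ : IrrCharacter N)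
    (hover : classInner (fun a : L.subgroupOf N => (ξ : N → ℂ) a)
      (resIrr hLN θ : L.subgroupOf N → ℂ) ≠ 0) (g : G) :
    brauerCentralChar P N (ξ : N → ℂ) g = brauerCentralChar P L (θ : L → ℂ) g := by
  classical
  rw [brauerCentralChar_eq, brauerCentralChar_eq]
  obtain ⟨F, hF⟩ : ∃ F : N → ℂ, F = fun h : N =>
      if IsConj g (h : G) ∧ (h : G) ∈ Subgroup.centralizer (P : Set G) then (1 : ℂ) else 0 :=
    ⟨_, rfl⟩
  have hFapp : ∀ h : N, F h =
      if IsConj g (h : G) ∧ (h : G) ∈ Subgroup.centralizer (P : Set G) then (1 : ℂ) else 0 :=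
    fun h => by rw [hF]
  have hFconj : ∀ x a : N, F (x * a * x⁻¹) = F a := by
    intro k h
    rw [hFapp, hFapp]
    have hc : IsConj (h : G) ((k * h * k⁻¹ : N) : G) := isConj_iff.mpr ⟨(k : G), by simp⟩
    have hiff : IsConj g ((k * h * k⁻¹ : N) : G) ↔ IsConj g (h : G) :=
      ⟨fun hx => hx.trans hc.symm, fun hx => hx.trans hc⟩
    have hiff2 : ((k * h * k⁻¹ : N) : G) ∈ Subgroup.centralizer (P : Set G)
        ↔ (h : G) ∈ Subgroup.centralizer (P : Set G) := by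
      have := conj_mem_centralizer_iff_of_normalizer P (t := (k : G)) (h := (h : G)) (hNP k.2)
      simpa using this
    simp only [hiff, hiff2]
  have ha : ∑ h : N, (if IsConj g (h : G) ∧ (h : G) ∈ Subgroup.centralizer (P : Set G)
      then (1 : ℂ) else 0) * (ξ : N → ℂ) h
      = ∑ a : L.subgroupOf N, F a * (ξ : N → ℂ) a := by
    have h1 := sum_eq_sum_subgroup (L.subgroupOf N) (fun h : N => F h * (ξ : N → ℂ) h) (by
      intro h hh
      have hnc : (h : G) ∉ Subgroup.centralizer (P : Set G) :=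
        fun hc => hh (Subgroup.mem_subgroupOf.mpr (hCL hc))
      show F h * (ξ : N → ℂ) h = 0
      rw [hFapp, if_neg (fun h' => hnc h'.2), zero_mul])
    rw [← h1]
    refine Finset.sum_congr rfl fun h _ => ?_
    rw [hFapp]
  have hb := cliff_avg (L.subgroupOf N) (fun a : L.subgroupOf N => F a)
    (fun x a => hFconj x a) ξ (resIrr hLN θ) hover
  have hc : ∑ a : L.subgroupOf N, F a * (resIrr hLN θ : L.subgroupOf N → ℂ) a
      = ∑ l : L, (if IsConj g (l : G) ∧ (l : G) ∈ Subgroup.centralizer (P : Set G)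
          then (1 : ℂ) else 0) * (θ : L → ℂ) l := by
    refine Fintype.sum_equiv (Subgroup.subgroupOfEquivOfLe hLN).toEquiv _ _ (fun a => ?_)
    rw [hFapp, resIrr_apply]
    rfl
  have hone : (resIrr hLN θ : L.subgroupOf N → ℂ) 1 = (θ : L → ℂ) 1 := by
    rw [resIrr_apply, map_one]
  rw [ha, hb, hc, hone]

omit [Fintype G] in
theorem conj_mem_sup_centralizer (P : Subgroup G) (n : G)
    (hn : n ∈ Subgroup.normalizer (P : Set G)) (g : G)
    (hg : g ∈ P ⊔ Subgroup.centralizer (P : Set G)) :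
    n * g * n⁻¹ ∈ P ⊔ Subgroup.centralizer (P : Set G) := by
  have h1 : (P ⊔ Subgroup.centralizer (P : Set G)).map (MulAut.conj n).toMonoidHom
      ≤ P ⊔ Subgroup.centralizer (P : Set G) := by
    rw [Subgroup.map_sup]
    refine sup_le_sup ?_ ?_
    · rintro _ ⟨u, hu, rfl⟩
      exact (Subgroup.mem_normalizer_iff.mp hn u).mp hu
    · rintro _ ⟨c, hc, rfl⟩
      exact conj_mem_centralizer_of_normalizer P hn hc
  exact h1 ⟨g, hg, rfl⟩

/-- **extended First Main Theorem**: two blocks of `L` (`P C_G(P) ≤ L ⊴ N_G(P)`) inducing a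
block with defect group `P` are conjugate under `N_G(P)`. -/
theorem root_blocks_conj {p : ℕ} [Fact p.Prime] {M : Ideal AlgInt} (hM : IsPModular p M)
    [hMp : M.IsPrime] (χ₀ : IrrCharacter G) (P : Subgroup G)
    (hP : IsDefectGroup p M (blockOf M (χ₀ : G → ℂ)) P) (L : Subgroup G) [Fintype L]
    [Fintype (Subgroup.normalizer (P : Set G))]
    (hPL : P ≤ L) (hCL : Subgroup.centralizer (P : Set G) ≤ L)
    (hLN : L ≤ Subgroup.normalizer (P : Set G))
    (hnorm : ∀ n ∈ Subgroup.normalizer (P : Set G), ∀ g ∈ L, n * g * n⁻¹ ∈ L)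
    (θ₁ θ₂ : IrrCharacter L)
    (hind₁ : IsInducedBlock M L (blockOf M (θ₁ : L → ℂ)) (blockOf M (χ₀ : G → ℂ)))
    (hind₂ : IsInducedBlock M L (blockOf M (θ₂ : L → ℂ)) (blockOf M (χ₀ : G → ℂ))) :
    ∃ n ∈ Subgroup.normalizer (P : Set G),
      ∃ (h1 : ∀ g ∈ L, n * g * n⁻¹ ∈ L) (h2 : ∀ g ∈ L, n⁻¹ * g * n ∈ L),
        SameBlock M (θ₂ : L → ℂ) (twL L n h1 h2 θ₁ : L → ℂ) := by
  classical
  have hPp : IsPGroup p P := by
    obtain ⟨g, -, Q, rfl⟩ := hP
    exact Q.2.map _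
  have hPN : P ≤ Subgroup.normalizer (P : Set G) := Subgroup.le_normalizer
  have hCN := Subgroup.centralizer_le_normalizer (P : Set G)
  have hn : (L.subgroupOf (Subgroup.normalizer (P : Set G))).Normal := by
    refine (Subgroup.normal_subgroupOf_iff_le_normalizer hLN).mpr ?_
    intro n hn
    exact mem_normalizer_of_conj_mem L n (hnorm n hn)
  have : Fintype (L.subgroupOf (Subgroup.normalizer (P : Set G))) := Fintype.ofFinite _
  have hbrθ₁ := (induced_iff_brauer hM P L hPp hPL hLN _ ⟨θ₁, rfl⟩ _ ⟨χ₀, rfl⟩).mp hind₁ θ₁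
    (sameBlock_refl _) χ₀ (sameBlock_refl _)
  have hbrθ₂ := (induced_iff_brauer hM P L hPp hPL hLN _ ⟨θ₂, rfl⟩ _ ⟨χ₀, rfl⟩).mp hind₂ θ₂
    (sameBlock_refl _) χ₀ (sameBlock_refl _)
  obtain ⟨ξ₁, hξ₁⟩ := Cfsg.Agent.Helper24.exists_irr_over
    (L.subgroupOf (Subgroup.normalizer (P : Set G)))
    (resIrr hLN θ₁ : L.subgroupOf (Subgroup.normalizer (P : Set G)) → ℂ) (resIrr hLN θ₁).2
  obtain ⟨ξ₂, hξ₂⟩ := Cfsg.Agent.Helper24.exists_irr_over
    (L.subgroupOf (Subgroup.normalizer (P : Set G)))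
    (resIrr hLN θ₂ : L.subgroupOf (Subgroup.normalizer (P : Set G)) → ℂ) (resIrr hLN θ₂).2
  have hbr₁ : ∀ g : G, MemLocalIdeal M (brauerCentralChar P (Subgroup.normalizer (P : Set G))
      (ξ₁ : Subgroup.normalizer (P : Set G) → ℂ) g - centralChar (χ₀ : G → ℂ) g) := by
    intro g
    rw [brauer_eq_of_over P L (Subgroup.normalizer (P : Set G)) hLN hCL le_rfl θ₁ ξ₁ hξ₁ g]
    exact hbrθ₁ g
  have hbr₂ : ∀ g : G, MemLocalIdeal M (brauerCentralChar P (Subgroup.normalizer (P : Set G))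
      (ξ₂ : Subgroup.normalizer (P : Set G) → ℂ) g - centralChar (χ₀ : G → ℂ) g) := by
    intro g
    rw [brauer_eq_of_over P L (Subgroup.normalizer (P : Set G)) hLN hCL le_rfl θ₂ ξ₂ hξ₂ g]
    exact hbrθ₂ g
  have hindξ₁ := induced_of_brauer_congr hM P (Subgroup.normalizer (P : Set G)) hPp hPN le_rfl
    ξ₁ χ₀ hbr₁
  have hDξ₁ := defect_of_induced hM χ₀ P hP (Subgroup.normalizer (P : Set G)) hPN le_rfl ξ₁ hindξ₁
  have hsame := fmt_unique hM P hPp ξ₁ ξ₂ χ₀ hDξ₁ hbr₁ hbr₂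
  obtain ⟨n, hnS⟩ := cover_key (L.subgroupOf (Subgroup.normalizer (P : Set G))) ξ₂ ξ₁
    (fun a => sameBlock_symm hsame (a : Subgroup.normalizer (P : Set G)))
    (resIrr hLN θ₂) (resIrr hLN θ₂) (resIrr hLN θ₁) (sameBlock_refl _) hξ₂ hξ₁
  have h1 : ∀ g ∈ L, (n : G) * g * (n : G)⁻¹ ∈ L := hnorm n n.2
  have h2 : ∀ g ∈ L, (n : G)⁻¹ * g * (n : G) ∈ L := by
    intro g hg
    have h3 := hnorm (n : G)⁻¹ (inv_mem n.2) g hg
    simpa using h3
  refine ⟨(n : G), n.2, h1, h2, ?_⟩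
  have hfun : (twIrr (L.subgroupOf (Subgroup.normalizer (P : Set G))) n (resIrr hLN θ₁) :
        L.subgroupOf (Subgroup.normalizer (P : Set G)) → ℂ)
      = (resIrr hLN (twL L n h1 h2 θ₁) :
        L.subgroupOf (Subgroup.normalizer (P : Set G)) → ℂ) := by
    funext a
    rw [twIrr_apply, resIrr_apply, resIrr_apply, twL_apply]
    rfl
  rw [hfun] at hnS
  exact (resIrr_sameBlock hLN θ₂ (twL L n h1 h2 θ₁)).mp hnS

/-- S0973, for `B = blockOf M χ₀`. -/
theorem ext_first_main {p : ℕ} [Fact p.Prime] {M : Ideal AlgInt} (hM : IsPModular p M)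
    [hMp : M.IsPrime] (χ₀ : IrrCharacter G) (P : Subgroup G)
    (hP : IsDefectGroup p M (blockOf M (χ₀ : G → ℂ)) P)
    [Fintype (P ⊔ Subgroup.centralizer (P : Set G) : Subgroup G)]
    [Fintype (Subgroup.normalizer (P : Set G))] :
    (∃ b : Set (IrrCharacter ↥(P ⊔ Subgroup.centralizer (P : Set G))),
      IsDefectGroup p M b (P.subgroupOf (P ⊔ Subgroup.centralizer (P : Set G))) ∧
      IsInducedBlock M (P ⊔ Subgroup.centralizer (P : Set G)) b (blockOf M (χ₀ : G → ℂ))) ∧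
    ∀ b b' : Set (IrrCharacter ↥(P ⊔ Subgroup.centralizer (P : Set G))),
      IsInducedBlock M (P ⊔ Subgroup.centralizer (P : Set G)) b (blockOf M (χ₀ : G → ℂ)) →
      IsInducedBlock M (P ⊔ Subgroup.centralizer (P : Set G)) b' (blockOf M (χ₀ : G → ℂ)) →
      ∃ n ∈ Subgroup.normalizer (P : Set G), ∀ θ ∈ b, ∃ θ' ∈ b',
        ∀ x : ↥(P ⊔ Subgroup.centralizer (P : Set G)),
        ∀ hx : n * (x : G) * n⁻¹ ∈ P ⊔ Subgroup.centralizer (P : Set G),
          (θ' : ↥(P ⊔ Subgroup.centralizer (P : Set G)) → ℂ) x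
            = (θ : ↥(P ⊔ Subgroup.centralizer (P : Set G)) → ℂ) ⟨n * (x : G) * n⁻¹, hx⟩ := by
  have hPL : P ≤ P ⊔ Subgroup.centralizer (P : Set G) := le_sup_left
  have hCL : Subgroup.centralizer (P : Set G) ≤ P ⊔ Subgroup.centralizer (P : Set G) :=
    le_sup_right
  have hLN : P ⊔ Subgroup.centralizer (P : Set G) ≤ Subgroup.normalizer (P : Set G) :=
    sup_le Subgroup.le_normalizer (Subgroup.centralizer_le_normalizer (P : Set G))
  constructor
  · obtain ⟨ξ, -, hind, hDξ⟩ := exists_root_block hM χ₀ P hP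
      (P ⊔ Subgroup.centralizer (P : Set G)) hPL hCL hLN
    exact ⟨_, hDξ, hind⟩
  · intro b b' hb hb'
    obtain ⟨θ₁, rfl⟩ := hb.1
    obtain ⟨θ₂, rfl⟩ := hb'.1
    obtain ⟨n, hn, h1, h2, hS⟩ := root_blocks_conj hM χ₀ P hP
      (P ⊔ Subgroup.centralizer (P : Set G)) hPL hCL hLN
      (fun n hn g hg => conj_mem_sup_centralizer P n hn g hg) θ₁ θ₂ hb hb'
    refine ⟨n, hn, fun θ hθ => ⟨twL _ n h1 h2 θ, ?_, fun x hx => rfl⟩⟩
    exact sameBlock_trans hS (twL_sameBlock _ n h1 h2 θ₁ θ hθ)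

end Blocks

end Cfsg.Agent.Helper5
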