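import Mathlib
import Cfsg.Agent.Helper5.CliffGe
import Cfsg.Agent.Helper5.BlkFong
import Cfsg.Agent.Helper5.BlkExt
import Cfsg.Agent.Helper5.BlkInd
import Cfsg.Agent.Helper22.GalIrr
import Cfsg.Agent.S0932

/-!
helper5: the Fong–Reynolds correspondence (S4435, S4436).
-/

set_option autoImplicit false

namespace Cfsg.Agent.Helper5

open Cfsg Cfsg.Agent.Helper24 Cfsg.Agent.Helper22

universe u

section Sum

variable {G : Type u} [Group G]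

/-- summing a right-`T`-invariant function over the group. -/
theorem sum_eq_card_mul_sum_quotient [Fintype G] (T : Subgroup G) [Fintype T]
    [Fintype (G ⧸ T)] (f : G → ℂ) (hf : ∀ (x t : G), t ∈ T → f (x * t) = f x) :
    ∑ x : G, f x = (Nat.card T : ℂ) * ∑ q : G ⧸ T, f (Quotient.out q) := by
  classical
  obtain ⟨φ, hφ⟩ : ∃ φ : (G ⧸ T) × T → G,
      φ = fun p => Quotient.out p.1 * (p.2 : G) := ⟨_, rfl⟩
  have hφa : ∀ p : (G ⧸ T) × T, φ p = Quotient.out p.1 * (p.2 : G) := fun p => by rw [hφ]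
  have hmk : ∀ p : (G ⧸ T) × T, ((φ p : G) : G ⧸ T) = p.1 := by
    intro p
    rw [hφa, QuotientGroup.mk_mul_of_mem _ p.2.2]
    exact QuotientGroup.out_eq' p.1
  have hbij : Function.Bijective φ := by
    constructor
    · intro p p' h
      have h1 : p.1 = p'.1 := by rw [← hmk p, ← hmk p', h]
      have h2 : (p.2 : G) = (p'.2 : G) := by
        rw [hφa, hφa, h1] at h
        exact mul_left_cancel h
      exact Prod.ext h1 (Subtype.ext h2)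
    · intro x
      have hx : (Quotient.out (x : G ⧸ T))⁻¹ * x ∈ T := by
        rw [← QuotientGroup.eq]
        exact QuotientGroup.out_eq' _
      refine ⟨((x : G ⧸ T), ⟨_, hx⟩), ?_⟩
      rw [hφa]
      show Quotient.out (x : G ⧸ T) * ((Quotient.out (x : G ⧸ T))⁻¹ * x) = x
      group
  rw [← Fintype.sum_bijective φ hbij (fun p => f (φ p)) f (fun _ => rfl),
    Fintype.sum_prod_type, Finset.mul_sum]
  refine Finset.sum_congr rfl fun q _ => ?_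
  have e : ∀ t : T, f (φ (q, t)) = f (Quotient.out q) := by
    intro t
    rw [hφa]
    exact hf _ _ t.2
  rw [Finset.sum_congr rfl fun t _ => e t, Finset.sum_const, Finset.card_univ, nsmul_eq_mul,
    ← Nat.card_eq_fintype_card]

/-- the trace (induction) of a local-integer class function of `T` has local-integer values. -/
theorem indFun_memLocalRing [Fintype G] {M : Ideal AlgInt} [hMp : M.IsPrime] (T : Subgroup G)
    [Fintype T] (z : T → ℂ) (hz : IsClassFunction T z) (hzR : ∀ t, MemLocalRing M (z t))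
    (g : G) : MemLocalRing M (indFun T z g) := by
  classical
  haveI : Fintype (G ⧸ T) := Fintype.ofFinite _
  have hT0 : (Nat.card T : ℂ) ≠ 0 := Nat.cast_ne_zero.mpr Nat.card_pos.ne'
  rw [indFun_apply, sum_eq_card_mul_sum_quotient T
    (fun x => extendByZero T z (x⁻¹ * g * x)) ?_, ← mul_assoc, inv_mul_cancel₀ hT0, one_mul]
  · refine (locRing M).sum_mem fun q _ => ?_
    by_cases hm : (Quotient.out q)⁻¹ * g * Quotient.out q ∈ T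
    · rw [extendByZero_apply_mem T z hm]
      exact hzR _
    · rw [extendByZero_apply_not_mem T z hm]
      exact (locRing M).zero_mem
  · intro x t ht
    show extendByZero T z ((x * t)⁻¹ * g * (x * t)) = extendByZero T z (x⁻¹ * g * x)
    have e : (x * t)⁻¹ * g * (x * t) = t⁻¹ * (x⁻¹ * g * x) * t := by group
    rw [e]
    by_cases hm : x⁻¹ * g * x ∈ T
    · have hm' : t⁻¹ * (x⁻¹ * g * x) * t ∈ T :=
        T.mul_mem (T.mul_mem (T.inv_mem ht) hm) ht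
      rw [extendByZero_apply_mem T z hm', extendByZero_apply_mem T z hm]
      have h1 := hz ⟨x⁻¹ * g * x, hm⟩ (⟨t, ht⟩⁻¹ : T)
      have e2 : (⟨t⁻¹ * (x⁻¹ * g * x) * t, hm'⟩ : T)
          = (⟨t, ht⟩⁻¹ : T) * ⟨x⁻¹ * g * x, hm⟩ * (⟨t, ht⟩⁻¹ : T)⁻¹ :=
        Subtype.ext (by simp)
      rw [e2, h1]
    · have hm' : t⁻¹ * (x⁻¹ * g * x) * t ∉ T := fun h => hm (by
        have h2 := T.mul_mem (T.mul_mem ht h) (T.inv_mem ht)
        have e3 : t * (t⁻¹ * (x⁻¹ * g * x) * t) * t⁻¹ = x⁻¹ * g * x := by group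
        rwa [e3] at h2)
      rw [extendByZero_apply_not_mem T z hm', extendByZero_apply_not_mem T z hm]

/-- invariance of the pairing with a constituent under conjugation by elements of `T`. -/
theorem classInner_res_twist_sub [Fintype G] (N T : Subgroup G) [hN : N.Normal] [Fintype N]
    (hNT : N ≤ T) (ψ : T → ℂ) (hψ : IsClassFunction T ψ) (θ : N → ℂ) (g : G) (hg : g ∈ T) :
    classInner (fun n : N => ψ ⟨n, hNT n.2⟩) (twist N θ g)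
      = classInner (fun n : N => ψ ⟨n, hNT n.2⟩) θ := by
  rw [classInner_def', classInner_def']
  congr 1
  refine Fintype.sum_equiv (MulAut.conjNormal g : N ≃* N).toEquiv _ _ fun n => ?_
  have e : (MulAut.conjNormal g n : N) = ⟨g * n * g⁻¹, hN.conj_mem n n.2 g⟩ :=
    Subtype.ext (MulAut.conjNormal_apply g n)
  show ψ ⟨n, hNT n.2⟩ * starRingEnd ℂ (θ ⟨g * n * g⁻¹, hN.conj_mem n n.2 g⟩) =
    ψ ⟨((MulAut.conjNormal g n : N) : G), hNT (MulAut.conjNormal g n : N).2⟩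
      * starRingEnd ℂ (θ (MulAut.conjNormal g n))
  have h1 := hψ ⟨n, hNT n.2⟩ ⟨g, hg⟩
  have e2 : (⟨((MulAut.conjNormal g n : N) : G), hNT (MulAut.conjNormal g n : N).2⟩ : T)
      = (⟨g, hg⟩ : T) * ⟨n, hNT n.2⟩ * (⟨g, hg⟩ : T)⁻¹ :=
    Subtype.ext (MulAut.conjNormal_apply g n)
  rw [e2, h1, e]

/-- the central character of an induced irreducible character on the trace of a central
element of the local group algebra of `T`. -/
theorem trace_value [Fintype G] (T : Subgroup G) [Fintype T] (ψ : IrrCharacter T)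
    (hirr : IsIrrCharacter G (indFun T (ψ : T → ℂ))) (c' : IrrCharacter T → ℂ)
    (hsupp : ∀ ψ'' : IrrCharacter T, c' ψ'' ≠ 0 → ψ'' ≠ ψ →
      classInner (indFun T (ψ'' : T → ℂ)) (indFun T (ψ : T → ℂ)) = 0) :
    (indFun T (ψ : T → ℂ) 1)⁻¹
      * ∑ g : G, indFun T (specFun c') g * indFun T (ψ : T → ℂ) g = c' ψ := by
  classical
  obtain ⟨χ, hχ⟩ : ∃ χ : G → ℂ, χ = indFun T (ψ : T → ℂ) := ⟨_, rfl⟩
  rw [← hχ] at hirr hsupp ⊢
  have hχcf : IsClassFunction G χ := irr_isClassFunction (⟨χ, hirr⟩ : IrrCharacter G)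
  have hG0 : (Nat.card G : ℂ) ≠ 0 := Nat.cast_ne_zero.mpr Nat.card_pos.ne'
  have hT0 : (Nat.card T : ℂ) ≠ 0 := Nat.cast_ne_zero.mpr Nat.card_pos.ne'
  obtain ⟨ξ, hξ⟩ : ∃ ξ : G → ℂ, ξ = fun g => starRingEnd ℂ (χ g) := ⟨_, rfl⟩
  have hξa : ∀ g : G, ξ g = starRingEnd ℂ (χ g) := fun g => by rw [hξ]
  have hξcf : IsClassFunction G ξ := by
    intro g h
    rw [hξa, hξa, hχcf g h]
  have h1 := classInner_indFun T (specFun c') ξ hξcf
  rw [classInner_def', classInner_def'] at h1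
  have e1 : ∑ g : G, indFun T (specFun c') g * starRingEnd ℂ (ξ g)
      = ∑ g : G, indFun T (specFun c') g * χ g := by
    refine Finset.sum_congr rfl fun g _ => ?_
    rw [hξa, Complex.conj_conj]
  have e2 : ∑ t : T, specFun c' t * starRingEnd ℂ (ξ (t : G))
      = ∑ t : T, specFun c' t * χ (t : G) := by
    refine Finset.sum_congr rfl fun t _ => ?_
    rw [hξa, Complex.conj_conj]
  rw [e1, e2] at h1
  have hresc : IsClassFunction T (fun t : T => χ t) := by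
    intro t s
    show χ ((s * t * s⁻¹ : T) : G) = χ t
    exact hχcf (t : G) (s : G)
  have hdec := classFunction_eq_sum_irr (fun t : T => χ t) hresc
  have hχχ : classInner χ χ = 1 := by
    have h3 := irr_orthonormal (⟨χ, hirr⟩ : IrrCharacter G) ⟨χ, hirr⟩
    rw [if_pos rfl] at h3
    exact h3
  have e3 : ∑ t : T, specFun c' t * χ (t : G) = c' ψ * (ψ : T → ℂ) 1 := by
    have e4 : ∀ t : T, χ (t : G) = ∑ ψ'' : IrrCharacter T,
        classInner (fun t : T => χ t) (ψ'' : T → ℂ) * (ψ'' : T → ℂ) t := by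
      intro t
      have h4 := congrFun hdec t
      simp only [Finset.sum_apply, Pi.smul_apply, smul_eq_mul] at h4
      exact h4
    have e5 : ∀ ψ'' : IrrCharacter T,
        classInner (fun t : T => χ t) (ψ'' : T → ℂ) * (c' ψ'' * (ψ'' : T → ℂ) 1)
        = if ψ'' = ψ then c' ψ * (ψ : T → ℂ) 1 else 0 := by
      intro ψ''
      have h2 : classInner (fun t : T => χ t) (ψ'' : T → ℂ)
          = starRingEnd ℂ (classInner (indFun T (ψ'' : T → ℂ)) χ) := by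
        rw [classInner_conj_symm, classInner_indFun T (ψ'' : T → ℂ) χ hχcf]
      by_cases hψ : ψ'' = ψ
      · rw [if_pos hψ, h2, hψ, ← hχ, hχχ, map_one, one_mul]
      · rw [if_neg hψ]
        by_cases hc : c' ψ'' = 0
        · rw [hc, zero_mul, mul_zero]
        · rw [h2, hsupp ψ'' hc hψ, map_zero, zero_mul]
    calc ∑ t : T, specFun c' t * χ (t : G)
        = ∑ ψ'' : IrrCharacter T, classInner (fun t : T => χ t) (ψ'' : T → ℂ)
            * ∑ t : T, specFun c' t * (ψ'' : T → ℂ) t := by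
          rw [Finset.sum_congr rfl fun t _ => by rw [e4 t, Finset.mul_sum], Finset.sum_comm]
          refine Finset.sum_congr rfl fun ψ'' _ => ?_
          rw [Finset.mul_sum]
          exact Finset.sum_congr rfl fun t _ => by ring
      _ = ∑ ψ'' : IrrCharacter T, if ψ'' = ψ then c' ψ * (ψ : T → ℂ) 1 else 0 := by
          refine Finset.sum_congr rfl fun ψ'' _ => ?_
          rw [spec_inversion c' ψ'', e5]
      _ = c' ψ * (ψ : T → ℂ) 1 := by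
          rw [Finset.sum_ite_eq' Finset.univ ψ, if_pos (Finset.mem_univ _)]
  rw [e3] at h1
  have hsum : ∑ g : G, indFun T (specFun c') g * χ g
      = (Nat.card G : ℂ) * ((Nat.card T : ℂ)⁻¹ * (c' ψ * (ψ : T → ℂ) 1)) := by
    rw [← h1, ← mul_assoc, mul_inv_cancel₀ hG0, one_mul]
  have hχ1 : χ 1 = (T.index : ℂ) * (ψ : T → ℂ) 1 := by
    rw [hχ]
    exact indFun_one T _
  have hidx0 : (T.index : ℂ) ≠ 0 := Nat.cast_ne_zero.mpr Subgroup.index_ne_zero_of_finite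
  have hψ1 := Cfsg.Agent.Helper5.irr_one_ne_zero ψ
  have hcard : (Nat.card G : ℂ) = (Nat.card T : ℂ) * (T.index : ℂ) := by
    rw [← Nat.cast_mul, Subgroup.card_mul_index]
  rw [hsum, hχ1, hcard]
  field_simp

end Sum

section FR

variable {G : Type u} [Group G] [Fintype G] (N : Subgroup G) [hN : N.Normal] [Fintype N]

/-- `twIrr` preserves blocks. -/
theorem twIrr_sameBlock {M : Ideal AlgInt} (g : G) (θ φ : IrrCharacter N)
    (h : SameBlock M (θ : N → ℂ) (φ : N → ℂ)) :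
    SameBlock M (twIrr N g θ : N → ℂ) (twIrr N g φ : N → ℂ) :=
  (sameBlock_comp_equiv (conjEquivL N g (fun n hn => hN.conj_mem n hn g)
    (fun n hn => by
      have h' := hN.conj_mem n hn g⁻¹
      rwa [inv_inv] at h')) (θ : N → ℂ) (φ : N → ℂ)).mpr h

/-- an element moving a member of `b` into `b` stabilizes `b`. -/
theorem fr_mem_of_twIrr {M : Ideal AlgInt} [hMp : M.IsPrime] (θ₀ : IrrCharacter N)
    (T : Subgroup G)
    (hT : ∀ g : G, g ∈ T ↔ ∀ θ ∈ blockOf M (θ₀ : N → ℂ),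
      twIrr N g θ ∈ blockOf M (θ₀ : N → ℂ))
    (g : G) (θ : IrrCharacter N) (hθ : θ ∈ blockOf M (θ₀ : N → ℂ))
    (hgθ : twIrr N g θ ∈ blockOf M (θ₀ : N → ℂ)) : g ∈ T := by
  rw [hT]
  intro θ' hθ'
  have h1 : SameBlock M (θ : N → ℂ) (θ' : N → ℂ) := sameBlock_trans (sameBlock_symm hθ) hθ'
  exact sameBlock_trans hgθ (twIrr_sameBlock N g θ θ' h1)

theorem fr_stab_iff {M : Ideal AlgInt} (θ₀ : IrrCharacter N) (T : Subgroup G)
    (hT : ∀ g : G, g ∈ T ↔ ∀ θ ∈ blockOf M (θ₀ : N → ℂ),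
      twIrr N g θ ∈ blockOf M (θ₀ : N → ℂ))
    (t : G) (ht : t ∈ T) (ψ : IrrCharacter N) :
    twIrr N t ψ ∈ blockOf M (θ₀ : N → ℂ) ↔ ψ ∈ blockOf M (θ₀ : N → ℂ) := by
  constructor
  · intro h
    have h' := (hT t⁻¹).mp (T.inv_mem ht) _ h
    rwa [← twIrr_mul, mul_inv_cancel, twIrr_one] at h'
  · exact (hT t).mp ht ψ

/-- the Clifford correspondence over a member of `b`, for the stabilizer `T` of `b`. -/
theorem fr_clifford {M : Ideal AlgInt} [hMp : M.IsPrime] (θ₀ : IrrCharacter N)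
    (T : Subgroup G) [Fintype T]
    (hT : ∀ g : G, g ∈ T ↔ ∀ θ ∈ blockOf M (θ₀ : N → ℂ),
      twIrr N g θ ∈ blockOf M (θ₀ : N → ℂ)) (hNT : N ≤ T)
    (θ : IrrCharacter N) (hθ : θ ∈ blockOf M (θ₀ : N → ℂ)) :
    (∀ ψ : IrrCharacter T,
        classInner (fun n : N => (ψ : T → ℂ) ⟨n, hNT n.2⟩) (θ : N → ℂ) ≠ 0 →
        IsIrrCharacter G (indFun T (ψ : T → ℂ)) ∧
        classInner (fun n : N => indFun T (ψ : T → ℂ) n) (θ : N → ℂ) =
          classInner (fun n : N => (ψ : T → ℂ) ⟨n, hNT n.2⟩) (θ : N → ℂ)) ∧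
    (∀ ψ ψ' : IrrCharacter T,
        classInner (fun n : N => (ψ : T → ℂ) ⟨n, hNT n.2⟩) (θ : N → ℂ) ≠ 0 →
        classInner (fun n : N => (ψ' : T → ℂ) ⟨n, hNT n.2⟩) (θ : N → ℂ) ≠ 0 →
        indFun T (ψ : T → ℂ) = indFun T (ψ' : T → ℂ) → ψ = ψ') ∧
    (∀ χ : G → ℂ, IsIrrCharacter G χ → classInner (fun n : N => χ n) (θ : N → ℂ) ≠ 0 →
        ∃ ψ : IrrCharacter T,
          classInner (fun n : N => (ψ : T → ℂ) ⟨n, hNT n.2⟩) (θ : N → ℂ) ≠ 0 ∧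
          indFun T (ψ : T → ℂ) = χ) :=
  clifford_corr_ge N (θ : N → ℂ) θ.2 T (fun g hg => fr_mem_of_twIrr N θ₀ T hT g θ hθ (by
    have e : twIrr N g θ = θ := Subtype.ext (funext fun n => hg n)
    rw [e]
    exact hθ)) hNT

/-- induction is injective on the characters of `T` lying over `b`. -/
theorem fr_ind_inj {M : Ideal AlgInt} [hMp : M.IsPrime] (θ₀ : IrrCharacter N)
    (T : Subgroup G) [Fintype T]
    (hT : ∀ g : G, g ∈ T ↔ ∀ θ ∈ blockOf M (θ₀ : N → ℂ),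
      twIrr N g θ ∈ blockOf M (θ₀ : N → ℂ)) (hNT : N ≤ T)
    (ψ ψ' : IrrCharacter T) (θ θ' : IrrCharacter N) (hθ : θ ∈ blockOf M (θ₀ : N → ℂ))
    (hθ' : θ' ∈ blockOf M (θ₀ : N → ℂ))
    (hψ : classInner (fun n : N => (ψ : T → ℂ) ⟨n, hNT n.2⟩) (θ : N → ℂ) ≠ 0)
    (hψ' : classInner (fun n : N => (ψ' : T → ℂ) ⟨n, hNT n.2⟩) (θ' : N → ℂ) ≠ 0)
    (heq : indFun T (ψ : T → ℂ) = indFun T (ψ' : T → ℂ)) : ψ = ψ' := by
  obtain ⟨h1, h2, -⟩ := fr_clifford N θ₀ T hT hNT θ hθ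
  obtain ⟨h1', -, -⟩ := fr_clifford N θ₀ T hT hNT θ' hθ'
  obtain ⟨hirr, hin⟩ := h1 ψ hψ
  obtain ⟨-, hin'⟩ := h1' ψ' hψ'
  have hoG : classInner (fun n : N => indFun T (ψ : T → ℂ) n) (θ : N → ℂ) ≠ 0 := by
    rw [hin]
    exact hψ
  have hoG' : classInner (fun n : N => indFun T (ψ : T → ℂ) n) (θ' : N → ℂ) ≠ 0 := by
    rw [heq, hin']
    exact hψ'
  obtain ⟨g, hg⟩ := exists_twist_of_constituent N (indFun T (ψ : T → ℂ)) hirr θ θ' hoG hoG'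
  have hgT : g ∈ T := fr_mem_of_twIrr N θ₀ T hT g θ hθ (by
    have e : twIrr N g θ = θ' := Subtype.ext hg.symm
    rw [e]
    exact hθ')
  have hψ'θ : classInner (fun n : N => (ψ' : T → ℂ) ⟨n, hNT n.2⟩) (θ : N → ℂ) ≠ 0 := by
    rw [← classInner_res_twist_sub N T hNT (ψ' : T → ℂ) (irr_isClassFunction ψ')
      (θ : N → ℂ) g hgT, ← hg]
    exact hψ'
  exact h2 ψ ψ' hψ hψ'θ heq

/-- the indicator of the characters of `T` lying over `b`. -/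
theorem fr_cT {M : Ideal AlgInt} [hMp : M.IsPrime] (θ₀ : IrrCharacter N)
    (T : Subgroup G) [Fintype T]
    (hT : ∀ g : G, g ∈ T ↔ ∀ θ ∈ blockOf M (θ₀ : N → ℂ),
      twIrr N g θ ∈ blockOf M (θ₀ : N → ℂ)) (hNT : N ≤ T) :
    ∃ cT : IrrCharacter T → ℂ,
      (∀ (ψ : IrrCharacter T) (θ : IrrCharacter N),
        classInner (fun n : N => (ψ : T → ℂ) ⟨n, hNT n.2⟩) (θ : N → ℂ) ≠ 0 →
          (θ ∈ blockOf M (θ₀ : N → ℂ) → cT ψ = 1) ∧ (θ ∉ blockOf M (θ₀ : N → ℂ) → cT ψ = 0)) ∧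
      (∀ ψ ψ' : IrrCharacter T, SameBlock M (ψ : T → ℂ) (ψ' : T → ℂ) → cT ψ = cT ψ') ∧
      (∀ ψ : IrrCharacter T, ∃ θ : IrrCharacter N,
        classInner (fun n : N => (ψ : T → ℂ) ⟨n, hNT n.2⟩) (θ : N → ℂ) ≠ 0) := by
  classical
  haveI : Fintype (N.subgroupOf T) := Fintype.ofFinite _
  haveI hN' : (N.subgroupOf T).Normal := inferInstance
  have hsurj : ∀ θ' : IrrCharacter (N.subgroupOf T),
      ∃ θ : IrrCharacter N, resIrr hNT θ = θ' := by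
    intro θ'
    refine ⟨⟨fun n => (θ' : N.subgroupOf T → ℂ) ((Subgroup.subgroupOfEquivOfLe hNT).symm n),
      isIrr_comp_mulEquiv_h5 _ θ'.2⟩, ?_⟩
    apply Subtype.ext
    funext a
    show (θ' : N.subgroupOf T → ℂ) ((Subgroup.subgroupOfEquivOfLe hNT).symm
      (Subgroup.subgroupOfEquivOfLe hNT a)) = _
    rw [MulEquiv.symm_apply_apply]
  have hmem : ∀ θ : IrrCharacter N,
      resIrr hNT θ ∈ blockOf M (resIrr hNT θ₀ : N.subgroupOf T → ℂ)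
        ↔ θ ∈ blockOf M (θ₀ : N → ℂ) :=
    fun θ => resIrr_sameBlock hNT θ₀ θ
  have htw : ∀ (t : T) (θ : IrrCharacter N),
      twIrr (N.subgroupOf T) t (resIrr hNT θ) = resIrr hNT (twIrr N (t : G) θ) := by
    intro t θ
    apply Subtype.ext
    funext a
    rfl
  have hst' : ∀ (t : T) (ψ' : IrrCharacter (N.subgroupOf T)),
      twIrr (N.subgroupOf T) t ψ' ∈ blockOf M (resIrr hNT θ₀ : N.subgroupOf T → ℂ)
        ↔ ψ' ∈ blockOf M (resIrr hNT θ₀ : N.subgroupOf T → ℂ) := by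
    intro t ψ'
    obtain ⟨θ, rfl⟩ := hsurj ψ'
    rw [htw, hmem, hmem]
    exact fr_stab_iff N θ₀ T hT (t : G) t.2 θ
  obtain ⟨cT, h1, -, h3⟩ := cover_ind_spec (N.subgroupOf T) (M := M) (resIrr hNT θ₀) hst'
  have hres : ∀ (ψ : IrrCharacter T) (θ : IrrCharacter N),
      classInner (fun n : N.subgroupOf T => (ψ : T → ℂ) n)
          (resIrr hNT θ : N.subgroupOf T → ℂ)
        = classInner (fun n : N => (ψ : T → ℂ) ⟨n, hNT n.2⟩) (θ : N → ℂ) := by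
    intro ψ θ
    exact classInner_resSub hNT (fun n : N => (ψ : T → ℂ) ⟨n, hNT n.2⟩) (θ : N → ℂ)
  refine ⟨cT, ?_, h3, ?_⟩
  · intro ψ θ hψθ
    have h := h1 ψ (resIrr hNT θ) (by rw [hres]; exact hψθ)
    exact ⟨fun hb => h.1 ((hmem θ).mpr hb), fun hb => h.2 (fun h' => hb ((hmem θ).mp h'))⟩
  · intro ψ
    obtain ⟨θ', hθ'⟩ := exists_constituent_res (N.subgroupOf T) ψ
    obtain ⟨θ, rfl⟩ := hsurj θ'
    exact ⟨θ, by rw [← hres]; exact hθ'⟩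

/-- characters of `T` over `b` whose induced characters lie in one block lie in one block. -/
theorem fr_sameBlock_of_ind {M : Ideal AlgInt} [hMp : M.IsPrime] (θ₀ : IrrCharacter N)
    (T : Subgroup G) [Fintype T]
    (hT : ∀ g : G, g ∈ T ↔ ∀ θ ∈ blockOf M (θ₀ : N → ℂ),
      twIrr N g θ ∈ blockOf M (θ₀ : N → ℂ)) (hNT : N ≤ T)
    (ψ₁ ψ₂ : IrrCharacter T) (θ₁ θ₂ : IrrCharacter N)
    (hθ₁ : θ₁ ∈ blockOf M (θ₀ : N → ℂ)) (hθ₂ : θ₂ ∈ blockOf M (θ₀ : N → ℂ))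
    (h₁ : classInner (fun n : N => (ψ₁ : T → ℂ) ⟨n, hNT n.2⟩) (θ₁ : N → ℂ) ≠ 0)
    (h₂ : classInner (fun n : N => (ψ₂ : T → ℂ) ⟨n, hNT n.2⟩) (θ₂ : N → ℂ) ≠ 0)
    (hs : SameBlock M (indFun T (ψ₁ : T → ℂ)) (indFun T (ψ₂ : T → ℂ))) :
    SameBlock M (ψ₁ : T → ℂ) (ψ₂ : T → ℂ) := by
  classical
  obtain ⟨cT, hcT, hcTblk, hcTex⟩ := fr_cT N (M := M) θ₀ T hT hNT
  have hirr₁ := ((fr_clifford N θ₀ T hT hNT θ₁ hθ₁).1 ψ₁ h₁).1
  have hirr₂ := ((fr_clifford N θ₀ T hT hNT θ₂ hθ₂).1 ψ₂ h₂).1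
  obtain ⟨c', hc', hc'v⟩ := osima (M := M) ψ₁
  have hcT1 : cT ψ₁ = 1 := (hcT ψ₁ θ₁ h₁).1 hθ₁
  have hsupp : ∀ (ψ : IrrCharacter T) (θ : IrrCharacter N), θ ∈ blockOf M (θ₀ : N → ℂ) →
      classInner (fun n : N => (ψ : T → ℂ) ⟨n, hNT n.2⟩) (θ : N → ℂ) ≠ 0 →
      ∀ ψ'' : IrrCharacter T, c' ψ'' ≠ 0 → ψ'' ≠ ψ →
        classInner (indFun T (ψ'' : T → ℂ)) (indFun T (ψ : T → ℂ)) = 0 := by
    intro ψ θ hθ hψ ψ'' hc hne
    have hsb : SameBlock M (ψ₁ : T → ℂ) (ψ'' : T → ℂ) := by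
      by_contra hno
      exact hc ((hc'v ψ'').2 hno)
    have hcT'' : cT ψ'' = 1 := by
      rw [← hcTblk ψ₁ ψ'' hsb]
      exact hcT1
    obtain ⟨θ'', hθ''⟩ := hcTex ψ''
    have hθ''b : θ'' ∈ blockOf M (θ₀ : N → ℂ) := by
      by_contra hno
      have h3 := (hcT ψ'' θ'' hθ'').2 hno
      rw [hcT''] at h3
      exact one_ne_zero h3
    have hirr'' := ((fr_clifford N θ₀ T hT hNT θ'' hθ''b).1 ψ'' hθ'').1
    have hirr := ((fr_clifford N θ₀ T hT hNT θ hθ).1 ψ hψ).1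
    have h3 := irr_orthonormal (⟨indFun T (ψ'' : T → ℂ), hirr''⟩ : IrrCharacter G)
      ⟨indFun T (ψ : T → ℂ), hirr⟩
    rw [if_neg] at h3
    · exact h3
    · intro heq
      exact hne (fr_ind_inj N θ₀ T hT hNT ψ'' ψ θ'' θ hθ''b hθ hθ'' hψ
        (congrArg Subtype.val heq))
  have v₁ := trace_value T ψ₁ hirr₁ c' (hsupp ψ₁ θ₁ hθ₁ h₁)
  have v₂ := trace_value T ψ₂ hirr₂ c' (hsupp ψ₂ θ₂ hθ₂ h₂)
  have hFcl := indFun_isClassFunction T (specFun c')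
  have hFS : ∀ g : G, MemLocalRing M (indFun T (specFun c') g) :=
    indFun_memLocalRing T (specFun c') (specFun_isClassFunction c') (fun t => hc' t)
  have hcong := classFun_congr hFcl hFS
    (χ := (⟨indFun T (ψ₁ : T → ℂ), hirr₁⟩ : IrrCharacter G))
    (ψ := ⟨indFun T (ψ₂ : T → ℂ), hirr₂⟩) hs
  have hcong' : MemLocalIdeal M (c' ψ₁ - c' ψ₂) := by
    rw [← v₁, ← v₂]
    exact hcong
  by_contra hno
  rw [(hc'v ψ₁).1 (sameBlock_refl _), (hc'v ψ₂).2 hno, sub_zero] at hcong'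
  exact not_memLocalIdeal_one hcong'

/-- a character in the block of a character over `b` lies over `b`. -/
theorem fr_cover_G {M : Ideal AlgInt} [hMp : M.IsPrime] (θ₀ : IrrCharacter N)
    (χ₀ χ : IrrCharacter G) (θ' : IrrCharacter N) (hθ' : θ' ∈ blockOf M (θ₀ : N → ℂ))
    (hχ₀ : classInner (fun n : N => (χ₀ : G → ℂ) n) (θ' : N → ℂ) ≠ 0)
    (hs : SameBlock M (χ₀ : G → ℂ) (χ : G → ℂ)) :
    ∃ θ'' ∈ blockOf M (θ₀ : N → ℂ),
      classInner (fun n : N => (χ : G → ℂ) n) (θ'' : N → ℂ) ≠ 0 := by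
  obtain ⟨ψc, hψc⟩ := exists_constituent_res N χ
  obtain ⟨g, hg⟩ := cover_key N χ₀ χ (fun n => hs (n : G)) θ₀ θ' ψc hθ' hχ₀ hψc
  refine ⟨twIrr N g ψc, hg, ?_⟩
  show classInner (fun n : N => (χ : G → ℂ) n) (twist N (ψc : N → ℂ) g) ≠ 0
  rw [classInner_res_twist N (χ : G → ℂ) (irr_isClassFunction χ) (ψc : N → ℂ) g]
  exact hψc

/-- **Fong–Reynolds** (S4435), for `b = blockOf M θ₀`. -/
theorem fong_reynolds {M : Ideal AlgInt} [hMp : M.IsPrime] (θ₀ : IrrCharacter N)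
    (T : Subgroup G) [Fintype T]
    (hT : ∀ g : G, g ∈ T ↔ ∀ θ ∈ blockOf M (θ₀ : N → ℂ),
      twIrr N g θ ∈ blockOf M (θ₀ : N → ℂ)) (hNT : N ≤ T) :
    (∀ ψ₀ : IrrCharacter T,
      (∃ ψ ∈ blockOf M (ψ₀ : T → ℂ), ∃ θ ∈ blockOf M (θ₀ : N → ℂ),
        classInner (fun n : N => (ψ : T → ℂ) ⟨(n : G), hNT n.2⟩) (θ : N → ℂ) ≠ 0) →
      ∃ B : Set (IrrCharacter G), IsInducedBlock M T (blockOf M (ψ₀ : T → ℂ)) B ∧
        (∃ χ ∈ B, ∃ θ ∈ blockOf M (θ₀ : N → ℂ),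
          classInner (fun n : N => (χ : G → ℂ) n) (θ : N → ℂ) ≠ 0) ∧
        (∀ ψ ∈ blockOf M (ψ₀ : T → ℂ), IsIrrCharacter G (indFun T (ψ : T → ℂ))) ∧
        ∀ χ : IrrCharacter G, χ ∈ B ↔
          ∃ ψ ∈ blockOf M (ψ₀ : T → ℂ), (χ : G → ℂ) = indFun T (ψ : T → ℂ)) ∧
    (∀ ψ₁ ψ₂ : IrrCharacter T,
      (∃ ψ ∈ blockOf M (ψ₁ : T → ℂ), ∃ θ ∈ blockOf M (θ₀ : N → ℂ),
        classInner (fun n : N => (ψ : T → ℂ) ⟨(n : G), hNT n.2⟩) (θ : N → ℂ) ≠ 0) →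
      (∃ ψ ∈ blockOf M (ψ₂ : T → ℂ), ∃ θ ∈ blockOf M (θ₀ : N → ℂ),
        classInner (fun n : N => (ψ : T → ℂ) ⟨(n : G), hNT n.2⟩) (θ : N → ℂ) ≠ 0) →
      ∀ B : Set (IrrCharacter G), IsInducedBlock M T (blockOf M (ψ₁ : T → ℂ)) B →
        IsInducedBlock M T (blockOf M (ψ₂ : T → ℂ)) B →
        blockOf M (ψ₁ : T → ℂ) = blockOf M (ψ₂ : T → ℂ)) ∧
    (∀ χ₀ : IrrCharacter G,
      (∃ χ ∈ blockOf M (χ₀ : G → ℂ), ∃ θ ∈ blockOf M (θ₀ : N → ℂ),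
        classInner (fun n : N => (χ : G → ℂ) n) (θ : N → ℂ) ≠ 0) →
      ∃ ψ₀ : IrrCharacter T,
        (∃ ψ ∈ blockOf M (ψ₀ : T → ℂ), ∃ θ ∈ blockOf M (θ₀ : N → ℂ),
          classInner (fun n : N => (ψ : T → ℂ) ⟨(n : G), hNT n.2⟩) (θ : N → ℂ) ≠ 0) ∧
        IsInducedBlock M T (blockOf M (ψ₀ : T → ℂ)) (blockOf M (χ₀ : G → ℂ))) := by
  classical
  obtain ⟨cT, hcT, hcTblk, hcTex⟩ := fr_cT N (M := M) θ₀ T hT hNT
  have hall : ∀ ψ₀ : IrrCharacter T,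
      (∃ ψ ∈ blockOf M (ψ₀ : T → ℂ), ∃ θ ∈ blockOf M (θ₀ : N → ℂ),
        classInner (fun n : N => (ψ : T → ℂ) ⟨(n : G), hNT n.2⟩) (θ : N → ℂ) ≠ 0) →
      ∀ ψ' ∈ blockOf M (ψ₀ : T → ℂ), ∃ θ' ∈ blockOf M (θ₀ : N → ℂ),
        classInner (fun n : N => (ψ' : T → ℂ) ⟨(n : G), hNT n.2⟩) (θ' : N → ℂ) ≠ 0 := by
    rintro ψ₀ ⟨ψ, hψ, θ, hθ, hψθ⟩ ψ' hψ'
    have h1 : cT ψ = 1 := (hcT ψ θ hψθ).1 hθ
    have h2 : cT ψ' = 1 := by
      rw [← hcTblk ψ ψ' (sameBlock_trans (sameBlock_symm hψ) hψ')]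
      exact h1
    obtain ⟨θ', hθ'⟩ := hcTex ψ'
    refine ⟨θ', ?_, hθ'⟩
    by_contra hno
    have h3 := (hcT ψ' θ' hθ').2 hno
    rw [h2] at h3
    exact one_ne_zero h3
  have hsbind : ∀ ψ ψ' : IrrCharacter T, SameBlock M (ψ : T → ℂ) (ψ' : T → ℂ) →
      SameBlock M (indFun T (ψ : T → ℂ)) (indFun T (ψ' : T → ℂ)) := by
    intro ψ ψ' h g
    rw [← Cfsg.Agent.S0932.result T (ψ : T → ℂ) (isCharacter_of_isIrrCharacter ψ.2) g,
      ← Cfsg.Agent.S0932.result T (ψ' : T → ℂ) (isCharacter_of_isIrrCharacter ψ'.2) g]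
    exact inducedCentralChar_congr T ψ ψ' h g
  have hindmem : ∀ (ψ₁ : IrrCharacter T) (hirr : IsIrrCharacter G (indFun T (ψ₁ : T → ℂ)))
      (B : Set (IrrCharacter G)), IsInducedBlock M T (blockOf M (ψ₁ : T → ℂ)) B →
      (⟨indFun T (ψ₁ : T → ℂ), hirr⟩ : IrrCharacter G) ∈ B := by
    rintro ψ₁ hirr B ⟨-, ⟨χB, rfl⟩, hcong⟩
    show SameBlock M (χB : G → ℂ) (indFun T (ψ₁ : T → ℂ))
    intro g
    have h1 := hcong ψ₁ (sameBlock_refl _) χB (sameBlock_refl _) g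
    rw [Cfsg.Agent.S0932.result T (ψ₁ : T → ℂ) (isCharacter_of_isIrrCharacter ψ₁.2) g] at h1
    have h2 := memLocalIdeal_neg h1
    rwa [neg_sub] at h2
  refine ⟨?_, ?_, ?_⟩
  · intro ψ₀ hcov
    have hall₀ := hall ψ₀ hcov
    obtain ⟨θ₁, hθ₁, hψ₀θ₁⟩ := hall₀ ψ₀ (sameBlock_refl _)
    obtain ⟨hirr₀, hin₀⟩ := (fr_clifford N θ₀ T hT hNT θ₁ hθ₁).1 ψ₀ hψ₀θ₁
    have hχ₀θ₁ : classInner (fun n : N => indFun T (ψ₀ : T → ℂ) n) (θ₁ : N → ℂ) ≠ 0 := by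
      rw [hin₀]
      exact hψ₀θ₁
    refine ⟨blockOf M (indFun T (ψ₀ : T → ℂ)), induced_block_of_irr T ψ₀ hirr₀, ?_, ?_, ?_⟩
    · exact ⟨⟨indFun T (ψ₀ : T → ℂ), hirr₀⟩, sameBlock_refl _, θ₁, hθ₁, hχ₀θ₁⟩
    · intro ψ hψ
      obtain ⟨θ, hθ, hψθ⟩ := hall₀ ψ hψ
      exact ((fr_clifford N θ₀ T hT hNT θ hθ).1 ψ hψθ).1
    · intro χ
      constructor
      · intro hχ
        obtain ⟨θ'', hθ'', hχθ''⟩ := fr_cover_G N θ₀ ⟨indFun T (ψ₀ : T → ℂ), hirr₀⟩ χ θ₁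
          hθ₁ hχ₀θ₁ hχ
        obtain ⟨ψ', hψ'θ'', hψ'χ⟩ :=
          (fr_clifford N θ₀ T hT hNT θ'' hθ'').2.2 (χ : G → ℂ) χ.2 hχθ''
        refine ⟨ψ', ?_, hψ'χ.symm⟩
        show SameBlock M (ψ₀ : T → ℂ) (ψ' : T → ℂ)
        refine fr_sameBlock_of_ind N θ₀ T hT hNT ψ₀ ψ' θ₁ θ'' hθ₁ hθ'' hψ₀θ₁ hψ'θ'' ?_
        rw [hψ'χ]
        exact hχ
      · rintro ⟨ψ, hψ, hχψ⟩
        show SameBlock M (indFun T (ψ₀ : T → ℂ)) (χ : G → ℂ)
        rw [hχψ]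
        exact hsbind ψ₀ ψ hψ
  · intro ψ₁ ψ₂ hcov₁ hcov₂ B hB₁ hB₂
    obtain ⟨θ₁, hθ₁, h₁⟩ := hall ψ₁ hcov₁ ψ₁ (sameBlock_refl _)
    obtain ⟨θ₂, hθ₂, h₂⟩ := hall ψ₂ hcov₂ ψ₂ (sameBlock_refl _)
    have hirr₁ := ((fr_clifford N θ₀ T hT hNT θ₁ hθ₁).1 ψ₁ h₁).1
    have hirr₂ := ((fr_clifford N θ₀ T hT hNT θ₂ hθ₂).1 ψ₂ h₂).1
    have m₁ := hindmem ψ₁ hirr₁ B hB₁
    have m₂ := hindmem ψ₂ hirr₂ B hB₂
    obtain ⟨-, ⟨χB, rfl⟩, -⟩ := hB₁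
    have hs : SameBlock M (indFun T (ψ₁ : T → ℂ)) (indFun T (ψ₂ : T → ℂ)) :=
      sameBlock_trans (sameBlock_symm m₁) m₂
    exact blockOf_eq_of_sameBlock
      (fr_sameBlock_of_ind N θ₀ T hT hNT ψ₁ ψ₂ θ₁ θ₂ hθ₁ hθ₂ h₁ h₂ hs)
  · rintro χ₀ ⟨χ, hχ, θ, hθ, hχθ⟩
    obtain ⟨ψ, hψθ, hψχ⟩ := (fr_clifford N θ₀ T hT hNT θ hθ).2.2 (χ : G → ℂ) χ.2 hχθ
    have hirr : IsIrrCharacter G (indFun T (ψ : T → ℂ)) := by
      rw [hψχ]
      exact χ.2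
    refine ⟨ψ, ⟨ψ, sameBlock_refl _, θ, hθ, hψθ⟩, ?_⟩
    have h1 := induced_block_of_irr (M := M) T ψ hirr
    have e : blockOf M (indFun T (ψ : T → ℂ)) = blockOf M (χ₀ : G → ℂ) := by
      rw [hψχ]
      exact (blockOf_eq_of_sameBlock hχ).symm
    rw [e] at h1
    exact h1

end FR

end Cfsg.Agent.Helper5
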