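import Mathlib
import Cfsg.Agent.Helper5.BlkFR
import Cfsg.Agent.Helper5.BlkDef
import Cfsg.Agent.Helper5.BlkDefect
import Cfsg.Agent.Helper22.BlkContrib
import Cfsg.Agent.Helper22.Brauer3

/-!
# Fong–Reynolds: defect groups and heights (S4436)
-/

set_option autoImplicit false

namespace Cfsg.Agent.Helper5

open Cfsg Cfsg.Agent.Helper24 Cfsg.Agent.Helper22

universe u

variable {G : Type u} [Group G] [Fintype G]

/-- Degree of an induced character. -/
theorem charDegree_indFun (T : Subgroup G) [Fintype T] (ψ : IrrCharacter T) :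
    charDegree (indFun T (ψ : T → ℂ)) = T.index * charDegree (ψ : T → ℂ) := by
  have h1 := (irr_charDegree_spec ψ).1
  have h2 : indFun T (ψ : T → ℂ) 1 = ((T.index * charDegree (ψ : T → ℂ) : ℕ) : ℂ) := by
    rw [indFun_one, h1]
    push_cast
    rfl
  show ⌊(indFun T (ψ : T → ℂ) 1).re⌋₊ = _
  rw [h2, Complex.natCast_re, Nat.floor_natCast]

/-- **Fong–Reynolds**, defect groups and heights (S4436), for `b = blockOf M θ₀`,
`B' = blockOf M ψ₀`. -/
theorem fong_reynolds_defect {p : ℕ} [Fact p.Prime] {M : Ideal AlgInt} (hM : IsPModular p M)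
    [hMp : M.IsPrime] (N : Subgroup G) [hN : N.Normal] [Fintype N] (θ₀ : IrrCharacter N)
    (T : Subgroup G) [Fintype T]
    (hT : ∀ g : G, g ∈ T ↔ ∀ θ ∈ blockOf M (θ₀ : N → ℂ),
      twIrr N g θ ∈ blockOf M (θ₀ : N → ℂ)) (hNT : N ≤ T)
    (ψ₀ : IrrCharacter T)
    (hcov : ∃ ψ ∈ blockOf M (ψ₀ : T → ℂ), ∃ θ ∈ blockOf M (θ₀ : N → ℂ),
        classInner (fun n : N => (ψ : T → ℂ) ⟨(n : G), hNT n.2⟩) (θ : N → ℂ) ≠ 0)
    (B : Set (IrrCharacter G)) (hind : IsInducedBlock M T (blockOf M (ψ₀ : T → ℂ)) B) :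
    (∀ D : Subgroup T, IsDefectGroup p M (blockOf M (ψ₀ : T → ℂ)) D →
      IsDefectGroup p M B (D.map T.subtype)) ∧
    ∀ ψ ∈ blockOf M (ψ₀ : T → ℂ), ∃ χ ∈ B, (χ : G → ℂ) = indFun T (ψ : T → ℂ) ∧
      blockHeight p B (χ : G → ℂ) = blockHeight p (blockOf M (ψ₀ : T → ℂ)) (ψ : T → ℂ) := by
  classical
  obtain ⟨B₁, hind₁, -, hirr, hmem⟩ := (fong_reynolds N θ₀ T hT hNT).1 ψ₀ hcov
  have hBB : B = B₁ := by
    obtain ⟨-, ⟨χB, rfl⟩, hc⟩ := hind
    obtain ⟨-, ⟨χ₁, rfl⟩, hc₁⟩ := hind₁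
    apply blockOf_eq_of_sameBlock
    intro g
    have h1 := hc ψ₀ (sameBlock_refl _) χB (sameBlock_refl _) g
    have h2 := hc₁ ψ₀ (sameBlock_refl _) χ₁ (sameBlock_refl _) g
    have h3 := memLocalIdeal_sub h2 h1
    have e : inducedCentralChar T (ψ₀ : T → ℂ) g - centralChar (χ₁ : G → ℂ) g
        - (inducedCentralChar T (ψ₀ : T → ℂ) g - centralChar (χB : G → ℂ) g)
        = centralChar (χB : G → ℂ) g - centralChar (χ₁ : G → ℂ) g := by ring
    rwa [e] at h3
  subst hBB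
  obtain ⟨χB, rfl⟩ := hind.2.1
  have hidx : T.index ≠ 0 := Subgroup.index_ne_zero_of_finite
  have hdeg : ∀ ψ : IrrCharacter T, (charDegree (indFun T (ψ : T → ℂ))).factorization p
      = (T.index).factorization p + (charDegree (ψ : T → ℂ)).factorization p := by
    intro ψ
    rw [charDegree_indFun, Nat.factorization_mul hidx (irr_charDegree_spec ψ).2.1]
    rfl
  have hS'ne : ((fun ψ : IrrCharacter T => (charDegree (ψ : T → ℂ)).factorization p) ''
      blockOf M (ψ₀ : T → ℂ)).Nonempty := ⟨_, ψ₀, sameBlock_refl _, rfl⟩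
  have hm' := Nat.sInf_mem hS'ne
  have hSS' : ∀ s, s ∈ ((fun χ : IrrCharacter G => (charDegree (χ : G → ℂ)).factorization p) ''
      blockOf M (χB : G → ℂ)) ↔
      ∃ s' ∈ ((fun ψ : IrrCharacter T => (charDegree (ψ : T → ℂ)).factorization p) ''
        blockOf M (ψ₀ : T → ℂ)), s = (T.index).factorization p + s' := by
    intro s
    constructor
    · rintro ⟨χ, hχ, rfl⟩
      obtain ⟨ψ, hψ, e⟩ := (hmem χ).1 hχ
      refine ⟨_, ⟨ψ, hψ, rfl⟩, ?_⟩
      show (charDegree (χ : G → ℂ)).factorization p = _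
      rw [e]
      exact hdeg ψ
    · rintro ⟨s', ⟨ψ, hψ, rfl⟩, rfl⟩
      refine ⟨⟨indFun T (ψ : T → ℂ), hirr ψ hψ⟩, (hmem _).2 ⟨ψ, hψ, rfl⟩, ?_⟩
      exact hdeg ψ
  have hinf : sInf ((fun χ : IrrCharacter G => (charDegree (χ : G → ℂ)).factorization p) ''
      blockOf M (χB : G → ℂ)) = (T.index).factorization p +
      sInf ((fun ψ : IrrCharacter T => (charDegree (ψ : T → ℂ)).factorization p) ''
        blockOf M (ψ₀ : T → ℂ)) := by
    have h1 := (hSS' _).2 ⟨_, hm', rfl⟩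
    have h2 := Nat.sInf_mem (⟨_, h1⟩ : ((fun χ : IrrCharacter G =>
      (charDegree (χ : G → ℂ)).factorization p) '' blockOf M (χB : G → ℂ)).Nonempty)
    obtain ⟨s', hs', e⟩ := (hSS' _).1 h2
    have h3 := Nat.sInf_le h1
    have h4 := Nat.sInf_le hs'
    omega
  have hdef : blockDefect p (blockOf M (χB : G → ℂ))
      = blockDefect p (blockOf M (ψ₀ : T → ℂ)) := by
    unfold blockDefect
    rw [hinf, ← Subgroup.card_mul_index T, Nat.factorization_mul Nat.card_pos.ne' hidx]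
    rw [Finsupp.add_apply]
    omega
  refine ⟨?_, ?_⟩
  · intro D hD
    obtain ⟨E, hE, hle⟩ := induced_defect_le hM T ψ₀ χB hind D hD
    have hcE := card_defect_group hM χB E hE
    have hcD := card_defect_group hM ψ₀ D hD
    have hcmap : Nat.card (D.map T.subtype) = Nat.card D :=
      Subgroup.card_map_of_injective (Subgroup.subtype_injective _)
    have hDE : D.map T.subtype = E :=
      Subgroup.eq_of_le_of_card_ge hle (by rw [hcmap, hcD, hcE, hdef])
    rw [hDE]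
    exact hE
  · intro ψ hψ
    refine ⟨⟨indFun T (ψ : T → ℂ), hirr ψ hψ⟩, (hmem _).2 ⟨ψ, hψ, rfl⟩, rfl, ?_⟩
    unfold blockHeight
    rw [hdeg ψ, hinf]
    omega

end Cfsg.Agent.Helper5
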