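import Mathlib
import Cfsg.Agent.Helper5.BlkFong

/-!
# Group-algebra tools for Knörr's theorem

Elements of `MonoidAlgebra ℂ G` with coefficient conditions (values in the local ring,
invariance under conjugation by a subgroup, support on a coset of a normal subgroup, vanishing
modulo the local ideal on a centralizer).
-/

set_option autoImplicit false

namespace Cfsg.Agent.Helper5

open Cfsg Cfsg.Agent.Helper24 Cfsg.Agent.Helper22

open Classical

universe u

section Alg

variable {G : Type u} [Group G] [Fintype G]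

/-- the group-algebra element with given coefficient function -/
noncomputable def knCv (f : G → ℂ) : MonoidAlgebra ℂ G :=
  MonoidAlgebra.ofCoeff (Finsupp.equivFunOnFinite.symm f)

theorem knCv_coeff (f : G → ℂ) (g : G) : (knCv f).coeff g = f g := rfl

theorem kn_ext {x y : MonoidAlgebra ℂ G} (h : ∀ g, x.coeff g = y.coeff g) : x = y :=
  MonoidAlgebra.ext (Finsupp.ext h)

theorem kn_coeff_mul (x y : MonoidAlgebra ℂ G) (g : G) :
    (x * y).coeff g = ∑ h : G, x.coeff h * y.coeff (h⁻¹ * g) := by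
  rw [MonoidAlgebra.coeff_mul, Finsupp.sum_fintype _ _ (by intro i; simp)]
  refine Finset.sum_congr rfl fun h _ => ?_
  rw [Finsupp.sum_fintype _ _ (by intro i; simp)]
  rw [Finset.sum_eq_single (h⁻¹ * g)]
  · simp
  · intro b _ hb
    rw [if_neg]
    intro e
    apply hb
    rw [← e]
    group
  · intro h
    exact absurd (Finset.mem_univ _) h

theorem kn_coeff_sum {ι : Type*} (s : Finset ι) (f : ι → MonoidAlgebra ℂ G) (g : G) :
    (∑ i ∈ s, f i).coeff g = ∑ i ∈ s, (f i).coeff g := by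
  rw [MonoidAlgebra.coeff_sum, Finsupp.finset_sum_apply]

theorem kn_coeff_smul (c : ℂ) (x : MonoidAlgebra ℂ G) (g : G) :
    (c • x).coeff g = c * x.coeff g := rfl

theorem kn_coeff_add (x y : MonoidAlgebra ℂ G) (g : G) :
    (x + y).coeff g = x.coeff g + y.coeff g := rfl

theorem kn_coeff_single (h : G) (c : ℂ) (g : G) :
    (MonoidAlgebra.single h c).coeff g = if h = g then c else 0 := by
  rw [MonoidAlgebra.coeff_single, Finsupp.single_apply]

theorem kn_eq_sum_single (x : MonoidAlgebra ℂ G) :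
    x = ∑ h : G, x.coeff h • MonoidAlgebra.single h (1 : ℂ) := by
  apply kn_ext
  intro g
  rw [kn_coeff_sum]
  simp only [kn_coeff_smul, kn_coeff_single]
  rw [Finset.sum_eq_single g]
  · simp
  · intro b _ hb
    rw [if_neg hb, mul_zero]
  · intro h
    exact absurd (Finset.mem_univ _) h

theorem knCv_mul (f f' : G → ℂ) :
    knCv f * knCv f' = knCv (fun g => ∑ h : G, f h * f' (h⁻¹ * g)) := by
  apply kn_ext
  intro g
  rw [kn_coeff_mul]
  rfl

/-- values in the local ring -/
def KnRVal (M : Ideal AlgInt) (x : MonoidAlgebra ℂ G) : Prop :=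
  ∀ g, MemLocalRing M (x.coeff g)

/-- invariance under conjugation by the elements of a subgroup -/
def KnInv (N : Subgroup G) (x : MonoidAlgebra ℂ G) : Prop :=
  ∀ n ∈ N, ∀ g, x.coeff (n * g * n⁻¹) = x.coeff g

/-- support on a coset of a normal subgroup -/
def KnSupp (N : Subgroup G) [N.Normal] (t : G ⧸ N) (x : MonoidAlgebra ℂ G) : Prop :=
  ∀ g, (QuotientGroup.mk g : G ⧸ N) ≠ t → x.coeff g = 0

/-- vanishing modulo the local ideal on the centralizer of `Q` -/
def KnBrK (M : Ideal AlgInt) (Q : Subgroup G) (x : MonoidAlgebra ℂ G) : Prop :=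
  ∀ c ∈ Subgroup.centralizer (Q : Set G), MemLocalIdeal M (x.coeff c)

theorem knRVal_mul {M : Ideal AlgInt} [hMp : M.IsPrime] {x y : MonoidAlgebra ℂ G}
    (hx : KnRVal M x) (hy : KnRVal M y) : KnRVal M (x * y) := by
  intro g
  rw [kn_coeff_mul]
  exact mem_locRing.mp ((locRing M).sum_mem fun h _ => (locRing M).mul_mem (hx h) (hy _))

theorem knRVal_single {M : Ideal AlgInt} [hMp : M.IsPrime] (h : G) :
    KnRVal M (MonoidAlgebra.single h (1 : ℂ)) := by
  intro g
  rw [kn_coeff_single]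
  split_ifs
  · exact mem_locRing.mp (locRing M).one_mem
  · exact mem_locRing.mp (locRing M).zero_mem

theorem knInv_mul {N : Subgroup G} {x y : MonoidAlgebra ℂ G}
    (hx : KnInv N x) (hy : KnInv N y) : KnInv N (x * y) := by
  intro n hn g
  rw [kn_coeff_mul, kn_coeff_mul]
  rw [← Equiv.sum_comp (MulAut.conj n).toEquiv]
  refine Finset.sum_congr rfl fun h _ => ?_
  have e1 : (MulAut.conj n).toEquiv h = n * h * n⁻¹ := rfl
  have e2 : (n * h * n⁻¹)⁻¹ * (n * g * n⁻¹) = n * (h⁻¹ * g) * n⁻¹ := by group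
  rw [e1, e2, hx n hn h, hy n hn]

theorem knSupp_mul {N : Subgroup G} [N.Normal] {s t : G ⧸ N} {x y : MonoidAlgebra ℂ G}
    (hx : KnSupp N s x) (hy : KnSupp N t y) : KnSupp N (s * t) (x * y) := by
  intro g hg
  rw [kn_coeff_mul]
  refine Finset.sum_eq_zero fun h _ => ?_
  by_cases hs : (QuotientGroup.mk h : G ⧸ N) = s
  · have ht : (QuotientGroup.mk (h⁻¹ * g) : G ⧸ N) ≠ t := by
      intro e
      apply hg
      rw [← hs, ← e, ← QuotientGroup.mk_mul]
      congr 1
      group
    rw [hy _ ht, mul_zero]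
  · rw [hx _ hs, zero_mul]

theorem knBrK_mul {p : ℕ} {M : Ideal AlgInt} (hM : IsPModular p M) [hMp : M.IsPrime]
    {Q : Subgroup G} (hQ : IsPGroup p Q) {x y : MonoidAlgebra ℂ G}
    (hx : KnRVal M x) (hy : KnRVal M y) (hxi : KnInv Q x) (hyi : KnInv Q y)
    (hxb : KnBrK M Q x) : KnBrK M Q (x * y) := by
  intro c hc
  rw [kn_coeff_mul]
  have hcc : ∀ u ∈ Q, u * c = c * u := fun u hu => Subgroup.mem_centralizer_iff.mp hc u hu
  rw [← Finset.sum_filter_add_sum_filter_not Finset.univ
    (fun h : G => h ∈ Subgroup.centralizer (Q : Set G))]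
  refine memLocalIdeal_add hMp ?_ ?_
  · refine memLocalIdeal_sum _ _ fun h hh => ?_
    rw [mul_comm]
    exact memLocalIdeal_mul_left (hy _) (hxb h (Finset.mem_filter.mp hh).2)
  · refine sum_memLocalIdeal_of_no_fixed hM Q hQ _ ?_ ?_
      (fun h => x.coeff h * y.coeff (h⁻¹ * c)) ?_ ?_
    · intro u hu h hh
      rw [Finset.mem_filter] at hh ⊢
      refine ⟨Finset.mem_univ _, fun hmem => hh.2 ?_⟩
      rw [Subgroup.mem_centralizer_iff] at hmem ⊢
      intro v hv
      have hv' : u * v * u⁻¹ ∈ Q := Q.mul_mem (Q.mul_mem hu hv) (Q.inv_mem hu)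
      have h1 := hmem (u * v * u⁻¹) hv'
      have h2 : v * h = u⁻¹ * (u * v * u⁻¹ * (u * h * u⁻¹)) * u := by group
      have h3 : h * v = u⁻¹ * (u * h * u⁻¹ * (u * v * u⁻¹)) * u := by group
      rw [h2, h3, h1]
    · intro h hh hfix
      apply (Finset.mem_filter.mp hh).2
      rw [Subgroup.mem_centralizer_iff]
      intro v hv
      have h1 := hfix v hv
      calc v * h = v * h * v⁻¹ * v := by group
        _ = h * v := by rw [h1]
    · intro u hu h _
      show x.coeff (u * h * u⁻¹) * y.coeff ((u * h * u⁻¹)⁻¹ * c) = x.coeff h * y.coeff (h⁻¹ * c)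
      have e : (u * h * u⁻¹)⁻¹ * c = u * (h⁻¹ * c) * u⁻¹ := by
        have h1 : c = u * c * u⁻¹ := by rw [hcc u hu]; group
        calc (u * h * u⁻¹)⁻¹ * c = u * h⁻¹ * u⁻¹ * c := by group
          _ = u * h⁻¹ * u⁻¹ * (u * c * u⁻¹) := by rw [← h1]
          _ = u * (h⁻¹ * c) * u⁻¹ := by group
      rw [e, hxi u hu h, hyi u hu]
    · intro h _
      exact mem_locRing.mp ((locRing M).mul_mem (hx h) (hy _))

/-- an element commutes with `z` when `z` is invariant under conjugation by the support. -/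
theorem kn_comm (E z : MonoidAlgebra ℂ G)
    (h : ∀ k, E.coeff k ≠ 0 → ∀ g, z.coeff (k * g * k⁻¹) = z.coeff g) : E * z = z * E := by
  apply kn_ext
  intro g
  rw [kn_coeff_mul, kn_coeff_mul]
  rw [← Equiv.sum_comp ((Equiv.inv G).trans (Equiv.mulLeft g))
    (fun h : G => z.coeff h * E.coeff (h⁻¹ * g))]
  refine Finset.sum_congr rfl fun k _ => ?_
  have e1 : ((Equiv.inv G).trans (Equiv.mulLeft g)) k = g * k⁻¹ := rfl
  have e2 : (g * k⁻¹)⁻¹ * g = k := by group
  rw [e1, e2]
  by_cases hk : E.coeff k = 0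
  · rw [hk, zero_mul, mul_zero]
  · have h1 := h k hk (k⁻¹ * g)
    have e3 : k * (k⁻¹ * g) * k⁻¹ = g * k⁻¹ := by group
    rw [e3] at h1
    rw [h1, mul_comm]

end Alg

end Cfsg.Agent.Helper5
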