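import Mathlib
import Cfsg.Agent.Helper5.KnAlg
import Cfsg.Agent.Helper5.BlkMinMax
import Cfsg.Agent.Helper5.BlkBr2

/-!
# Knörr's theorem: the idempotents of a normal subgroup inside the group algebra
-/

set_option autoImplicit false

namespace Cfsg.Agent.Helper5

open Cfsg Cfsg.Agent.Helper24 Cfsg.Agent.Helper22

open Classical

universe u

section Obj

variable {G : Type u} [Group G] [Fintype G] (N : Subgroup G) [hN : N.Normal] [Fintype N]

/-- the idempotent of an irreducible character of `N`, inside the group algebra of `G` -/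
noncomputable def knE (θ : IrrCharacter N) : MonoidAlgebra ℂ G :=
  knCv (extendByZero N (specFun (Pi.single θ (1 : ℂ))))

/-- the coset component -/
noncomputable def knComp (t : G ⧸ N) (x : MonoidAlgebra ℂ G) : MonoidAlgebra ℂ G :=
  knCv (fun g => if (QuotientGroup.mk g : G ⧸ N) = t then x.coeff g else 0)

theorem knCv_ext_mul (F F' : N → ℂ) :
    knCv (extendByZero N F) * knCv (extendByZero N F')
      = knCv (extendByZero N (fun n => ∑ m : N, F m * F' (m⁻¹ * n))) := by
  rw [knCv_mul]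
  congr 1
  funext g
  rw [sum_extendByZero_mul N F (fun h => extendByZero N F' (h⁻¹ * g))]
  by_cases hg : g ∈ N
  · rw [extendByZero_apply_mem N _ hg]
    refine Finset.sum_congr rfl fun m _ => ?_
    have hm : (m : G)⁻¹ * g ∈ N := N.mul_mem (N.inv_mem m.2) hg
    rw [extendByZero_apply_mem N _ hm]
    rfl
  · rw [extendByZero_apply_not_mem N _ hg]
    refine Finset.sum_eq_zero fun m _ => ?_
    have hm : (m : G)⁻¹ * g ∉ N := by
      intro h
      apply hg
      have := N.mul_mem m.2 h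
      rwa [mul_inv_cancel_left] at this
    rw [extendByZero_apply_not_mem N _ hm, mul_zero]

theorem specFun_single (θ : IrrCharacter N) (n : N) :
    specFun (Pi.single θ (1 : ℂ)) n
      = (Nat.card N : ℂ)⁻¹ * ((θ : N → ℂ) 1 * starRingEnd ℂ ((θ : N → ℂ) n)) := by
  unfold specFun
  congr 1
  rw [Finset.sum_eq_single θ]
  · rw [Pi.single_eq_same, one_mul]
  · intro χ _ hχ
    rw [Pi.single_eq_of_ne hχ, zero_mul]
  · intro h
    exact absurd (Finset.mem_univ _) h

theorem knCv_ext_specFun (c : IrrCharacter N → ℂ) :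
    (knCv (extendByZero N (specFun c)) : MonoidAlgebra ℂ G) = ∑ θ, c θ • knE N θ := by
  apply kn_ext
  intro g
  rw [knCv_coeff, kn_coeff_sum]
  simp only [kn_coeff_smul]
  by_cases hg : g ∈ N
  · rw [extendByZero_apply_mem N _ hg]
    have e : ∀ θ : IrrCharacter N, (knE N θ).coeff g
        = (Nat.card N : ℂ)⁻¹ * ((θ : N → ℂ) 1 * starRingEnd ℂ ((θ : N → ℂ) ⟨g, hg⟩)) := by
      intro θ
      show extendByZero N (specFun (Pi.single θ (1 : ℂ))) g = _
      rw [extendByZero_apply_mem N _ hg, specFun_single]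
    simp only [e]
    unfold specFun
    rw [Finset.mul_sum]
    exact Finset.sum_congr rfl fun θ _ => by ring
  · rw [extendByZero_apply_not_mem N _ hg]
    symm
    refine Finset.sum_eq_zero fun θ _ => ?_
    have e : (knE N θ).coeff g = 0 := by
      show extendByZero N (specFun (Pi.single θ (1 : ℂ))) g = _
      rw [extendByZero_apply_not_mem N _ hg]
    rw [e, mul_zero]

theorem knE_mul (θ θ' : IrrCharacter N) :
    (knE N θ * knE N θ' : MonoidAlgebra ℂ G) = if θ = θ' then knE N θ else 0 := by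
  unfold knE
  rw [knCv_ext_mul]
  have e : (fun n : N => ∑ m : N, specFun (Pi.single θ (1 : ℂ)) m
      * specFun (Pi.single θ' (1 : ℂ)) (m⁻¹ * n))
      = specFun (Pi.single θ (1 : ℂ) * Pi.single θ' (1 : ℂ)) := by
    funext n
    rw [specFun_mul]
  rw [e]
  by_cases h : θ = θ'
  · subst h
    rw [if_pos rfl]
    have e2 : (Pi.single θ (1 : ℂ) * Pi.single θ (1 : ℂ) : IrrCharacter N → ℂ)
        = Pi.single θ (1 : ℂ) := by
      funext χ
      by_cases hχ : χ = θ
      · subst hχ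
        simp
      · simp [Pi.single_eq_of_ne hχ]
    rw [e2]
  · rw [if_neg h]
    have e2 : (Pi.single θ (1 : ℂ) * Pi.single θ' (1 : ℂ) : IrrCharacter N → ℂ) = 0 := by
      funext χ
      by_cases hχ : χ = θ
      · subst hχ
        simp [Pi.single_eq_of_ne h]
      · simp [Pi.single_eq_of_ne hχ]
    rw [e2]
    apply kn_ext
    intro g
    rw [knCv_coeff]
    by_cases hg : g ∈ N
    · rw [extendByZero_apply_mem N _ hg, specFun_zero]
      rfl
    · rw [extendByZero_apply_not_mem N _ hg]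
      rfl

theorem knE_supp (θ : IrrCharacter N) : KnSupp N 1 (knE N θ : MonoidAlgebra ℂ G) := by
  intro g hg
  have hgN : g ∉ N := fun h => hg ((QuotientGroup.eq_one_iff g).mpr h)
  show extendByZero N (specFun (Pi.single θ (1 : ℂ))) g = 0
  rw [extendByZero_apply_not_mem N _ hgN]

theorem knComp_sum (x : MonoidAlgebra ℂ G) : ∑ t : G ⧸ N, knComp N t x = x := by
  apply kn_ext
  intro g
  rw [kn_coeff_sum]
  simp only [knComp, knCv_coeff]
  rw [Finset.sum_ite_eq]
  simp

theorem knComp_rval {M : Ideal AlgInt} [hMp : M.IsPrime] (t : G ⧸ N) {x : MonoidAlgebra ℂ G}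
    (hx : KnRVal M x) : KnRVal M (knComp N t x) := by
  intro g
  show MemLocalRing M (if (QuotientGroup.mk g : G ⧸ N) = t then x.coeff g else 0)
  split_ifs
  · exact hx g
  · exact mem_locRing.mp (locRing M).zero_mem

theorem knComp_inv (t : G ⧸ N) {x : MonoidAlgebra ℂ G} (hx : KnInv N x) :
    KnInv N (knComp N t x) := by
  intro n hn g
  show (if (QuotientGroup.mk (n * g * n⁻¹) : G ⧸ N) = t then x.coeff (n * g * n⁻¹) else 0)
    = if (QuotientGroup.mk g : G ⧸ N) = t then x.coeff g else 0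
  have e : (QuotientGroup.mk (n * g * n⁻¹) : G ⧸ N) = QuotientGroup.mk g := by
    rw [QuotientGroup.mk_mul, QuotientGroup.mk_mul, (QuotientGroup.eq_one_iff n).mpr hn,
      (QuotientGroup.eq_one_iff n⁻¹).mpr (N.inv_mem hn), one_mul, mul_one]
  rw [e, hx n hn g]

theorem knComp_supp (t : G ⧸ N) (x : MonoidAlgebra ℂ G) : KnSupp N t (knComp N t x) := by
  intro g hg
  show (if (QuotientGroup.mk g : G ⧸ N) = t then x.coeff g else 0) = 0
  rw [if_neg hg]

theorem knComp_brk {M : Ideal AlgInt} [hMp : M.IsPrime] (Q : Subgroup G) (t : G ⧸ N)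
    {x : MonoidAlgebra ℂ G} (hx : KnBrK M Q x) : KnBrK M Q (knComp N t x) := by
  intro c hc
  show MemLocalIdeal M (if (QuotientGroup.mk c : G ⧸ N) = t then x.coeff c else 0)
  split_ifs
  · exact hx c hc
  · exact memLocalIdeal_zero hMp.ne_top

theorem knComp_mul (t : G ⧸ N) (x : MonoidAlgebra ℂ G) {y : MonoidAlgebra ℂ G}
    (hy : KnSupp N 1 y) : knComp N t x * y = knComp N t (x * y) := by
  apply kn_ext
  intro g
  rw [kn_coeff_mul]
  show _ = if (QuotientGroup.mk g : G ⧸ N) = t then (x * y).coeff g else 0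
  rw [kn_coeff_mul]
  by_cases hg : (QuotientGroup.mk g : G ⧸ N) = t
  · rw [if_pos hg]
    refine Finset.sum_congr rfl fun h _ => ?_
    show (if (QuotientGroup.mk h : G ⧸ N) = t then x.coeff h else 0) * _ = _
    by_cases hh : (QuotientGroup.mk h : G ⧸ N) = t
    · rw [if_pos hh]
    · have h1 : (QuotientGroup.mk (h⁻¹ * g) : G ⧸ N) ≠ 1 := by
        intro e
        apply hh
        rw [QuotientGroup.mk_mul, QuotientGroup.mk_inv, inv_mul_eq_one] at e
        rw [e, hg]
      rw [hy _ h1, mul_zero, mul_zero]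
  · rw [if_neg hg]
    refine Finset.sum_eq_zero fun h _ => ?_
    show (if (QuotientGroup.mk h : G ⧸ N) = t then x.coeff h else 0) * _ = _
    by_cases hh : (QuotientGroup.mk h : G ⧸ N) = t
    · have h1 : (QuotientGroup.mk (h⁻¹ * g) : G ⧸ N) ≠ 1 := by
        intro e
        apply hg
        rw [QuotientGroup.mk_mul, QuotientGroup.mk_inv, inv_mul_eq_one] at e
        rw [← e, hh]
      rw [hy _ h1, mul_zero]
    · rw [if_neg hh, zero_mul]

/-- the block idempotent is idempotent. -/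
theorem knA_idem {M : Ideal AlgInt} [hMp : M.IsPrime] (χ₀ : IrrCharacter G) :
    knCv (blockCoeff (blockOf M (χ₀ : G → ℂ))) * knCv (blockCoeff (blockOf M (χ₀ : G → ℂ)))
      = knCv (blockCoeff (blockOf M (χ₀ : G → ℂ))) := by
  obtain ⟨c, -, hcv⟩ := osima (M := M) χ₀
  have hB : blockCoeff (blockOf M (χ₀ : G → ℂ)) = specFun c := by
    funext g
    exact blockCoeff_eq_specFun (blockOf M (χ₀ : G → ℂ)) c (fun ψ hψ => (hcv ψ).1 hψ)
      (fun ψ hψ => (hcv ψ).2 hψ) g
  rw [hB, knCv_mul]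
  congr 1
  funext g
  rw [← specFun_mul]
  congr 1
  funext ψ
  by_cases hψ : SameBlock M (χ₀ : G → ℂ) (ψ : G → ℂ)
  · rw [Pi.mul_apply, (hcv ψ).1 hψ, mul_one]
  · rw [Pi.mul_apply, (hcv ψ).2 hψ, mul_zero]

/-- the block idempotent is central. -/
theorem knA_central {M : Ideal AlgInt} [hMp : M.IsPrime] (χ₀ : IrrCharacter G)
    (x : MonoidAlgebra ℂ G) :
    knCv (blockCoeff (blockOf M (χ₀ : G → ℂ))) * x
      = x * knCv (blockCoeff (blockOf M (χ₀ : G → ℂ))) :=
  (kn_comm x _ (fun k _ g => blockCoeff_conj _ g k)).symm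

/-- the idempotent of a block covering a stable block is absorbed by the latter's idempotent. -/
theorem knA_mul_Fb {M : Ideal AlgInt} [hMp : M.IsPrime] (θ₀ : IrrCharacter N)
    (hst : ∀ (x : G) (ψ : IrrCharacter N),
      twIrr N x ψ ∈ blockOf M (θ₀ : N → ℂ) ↔ ψ ∈ blockOf M (θ₀ : N → ℂ))
    (χ₀ : IrrCharacter G)
    (hcov : ∃ χ ∈ blockOf M (χ₀ : G → ℂ), ∃ θ ∈ blockOf M (θ₀ : N → ℂ),
      classInner (fun n : N => (χ : G → ℂ) n) (θ : N → ℂ) ≠ 0) :
    knCv (blockCoeff (blockOf M (χ₀ : G → ℂ)))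
        * knCv (subgroupBlockCoeff N (blockOf M (θ₀ : N → ℂ)))
      = knCv (blockCoeff (blockOf M (χ₀ : G → ℂ))) := by
  obtain ⟨c, -, hcv⟩ := osima (M := M) χ₀
  have hB : blockCoeff (blockOf M (χ₀ : G → ℂ)) = specFun c := by
    funext g
    exact blockCoeff_eq_specFun (blockOf M (χ₀ : G → ℂ)) c (fun ψ hψ => (hcv ψ).1 hψ)
      (fun ψ hψ => (hcv ψ).2 hψ) g
  obtain ⟨cB, hcB1, hcB2, hcB3⟩ := cover_ind_spec N θ₀ hst
  have hF : subgroupBlockCoeff N (blockOf M (θ₀ : N → ℂ)) = specFun cB := by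
    funext g
    exact (hcB2 g).symm
  obtain ⟨χ₁, hχ₁, θ₁, hθ₁, hc₁⟩ := hcov
  have h1 : cB χ₁ = 1 := (hcB1 χ₁ θ₁ hc₁).1 hθ₁
  rw [hB, hF, knCv_mul]
  congr 1
  funext g
  rw [← specFun_mul]
  congr 1
  funext ψ
  by_cases hψ : SameBlock M (χ₀ : G → ℂ) (ψ : G → ℂ)
  · have h2 : cB ψ = 1 := by
      rw [← h1]
      exact hcB3 ψ χ₁ (sameBlock_trans (sameBlock_symm hψ) hχ₁)
    rw [Pi.mul_apply, h2, mul_one]
  · rw [Pi.mul_apply, (hcv ψ).2 hψ, zero_mul]

/-- good homogeneous elements -/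
def KnGood (M : Ideal AlgInt) (Q : Subgroup G) (Fb : MonoidAlgebra ℂ G) (t : G ⧸ N)
    (x : MonoidAlgebra ℂ G) : Prop :=
  KnRVal M x ∧ KnInv N x ∧ KnSupp N t x ∧ KnBrK M Q x ∧ x * Fb = x

theorem knGood_mul {p : ℕ} {M : Ideal AlgInt} (hM : IsPModular p M) [hMp : M.IsPrime]
    {Q : Subgroup G} (hQ : IsPGroup p Q) (hQN : Q ≤ N) {Fb : MonoidAlgebra ℂ G} {s t : G ⧸ N}
    {x y : MonoidAlgebra ℂ G} (hx : KnGood N M Q Fb s x) (hy : KnGood N M Q Fb t y) :
    KnGood N M Q Fb (s * t) (x * y) := by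
  obtain ⟨hx1, hx2, hx3, hx4, -⟩ := hx
  obtain ⟨hy1, hy2, hy3, -, hy5⟩ := hy
  refine ⟨knRVal_mul hx1 hy1, knInv_mul hx2 hy2, knSupp_mul hx3 hy3, ?_, ?_⟩
  · exact knBrK_mul hM hQ hx1 hy1 (fun n hn g => hx2 n (hQN hn) g)
      (fun n hn g => hy2 n (hQN hn) g) hx4
  · rw [mul_assoc, hy5]

/-- a good element of degree one is a combination of the idempotents of `N` with
coefficients in the local ideal. -/
theorem knGood_one_decomp {p : ℕ} [Fact p.Prime] {M : Ideal AlgInt} (hM : IsPModular p M)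
    [hMp : M.IsPrime] (θ₀ : IrrCharacter N) (Q' : Subgroup N)
    (hQ' : IsDefectGroup p M (blockOf M (θ₀ : N → ℂ)) Q') (P : MonoidAlgebra ℂ G)
    (hP : KnGood N M (Q'.map N.subtype)
      (knCv (subgroupBlockCoeff N (blockOf M (θ₀ : N → ℂ)))) 1 P) :
    ∃ c : IrrCharacter N → ℂ, (∀ θ, MemLocalIdeal M (c θ)) ∧ P = ∑ θ, c θ • knE N θ := by
  obtain ⟨hR, hI, hS, hB, hF⟩ := hP
  obtain ⟨F, hFdef⟩ : ∃ F : N → ℂ, F = fun n : N => P.coeff (n : G) := ⟨_, rfl⟩
  have hFa : ∀ n : N, F n = P.coeff (n : G) := fun n => by rw [hFdef]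
  have hFcl : IsClassFunction N F := by
    intro n h
    rw [hFa, hFa]
    exact hI (h : G) h.2 (n : G)
  have hPF : P = knCv (extendByZero N F) := by
    apply kn_ext
    intro g
    rw [knCv_coeff]
    by_cases hg : g ∈ N
    · rw [extendByZero_apply_mem N F hg, hFa]
    · rw [extendByZero_apply_not_mem N F hg]
      exact hS g (fun e => hg ((QuotientGroup.eq_one_iff g).mp e))
  obtain ⟨c₀, hc₀def⟩ : ∃ c₀ : IrrCharacter N → ℂ, c₀ = fun θ : IrrCharacter N =>
      ((θ : N → ℂ) 1)⁻¹ * ∑ h : N, F h * (θ : N → ℂ) h := ⟨_, rfl⟩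
  have hc₀ : specFun c₀ = F := by
    rw [hc₀def]
    exact specFun_cvec F hFcl
  obtain ⟨d, -, hdv⟩ := osima (M := M) θ₀
  have hFb : (knCv (subgroupBlockCoeff N (blockOf M (θ₀ : N → ℂ))) : MonoidAlgebra ℂ G)
      = knCv (extendByZero N (specFun d)) := by
    congr 1
    funext g
    unfold subgroupBlockCoeff
    by_cases hg : g ∈ N
    · rw [dif_pos hg, extendByZero_apply_mem N _ hg]
      exact blockCoeff_eq_specFun (blockOf M (θ₀ : N → ℂ)) d (fun ψ hψ => (hdv ψ).1 hψ)
        (fun ψ hψ => (hdv ψ).2 hψ) _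
    · rw [dif_neg hg, extendByZero_apply_not_mem N _ hg]
  have hP2 : P = knCv (extendByZero N (specFun (c₀ * d))) := by
    have h1 : P = P * knCv (subgroupBlockCoeff N (blockOf M (θ₀ : N → ℂ))) := hF.symm
    rw [hFb] at h1
    rw [h1, hPF, knCv_ext_mul]
    congr 2
    funext n
    rw [specFun_mul, hc₀]
  refine ⟨c₀ * d, ?_, ?_⟩
  · intro θ
    by_cases hθ : SameBlock M (θ₀ : N → ℂ) (θ : N → ℂ)
    · rw [Pi.mul_apply, (hdv θ).1 hθ, mul_one]
      obtain ⟨ι, hι⟩ := exists_class_reps N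
      have hval : c₀ θ = ∑ r ∈ ι, F r * centralChar (θ : N → ℂ) r := by
        rw [hc₀def]
        exact classFun_value hFcl ι hι θ
      rw [hval]
      refine memLocalIdeal_sum _ _ fun r _ => ?_
      by_cases hω : MemLocalIdeal M (centralChar (θ : N → ℂ) r)
      · rw [hFa]
        exact memLocalIdeal_mul_left (hR _) hω
      · obtain ⟨y, hy, D, hQ'def⟩ := hQ'
        obtain ⟨x, Qr, hle⟩ := (min_max hM θ₀ y hy D r).2 ⟨θ, hθ, hω⟩
        have hcomm : ∀ q ∈ Q', (x⁻¹ * r * x) * q = q * (x⁻¹ * r * x) := by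
          intro q hq
          have h1 : x * q * x⁻¹ ∈ ((D : Subgroup (Subgroup.centralizer ({y} : Set N))).map
              (Subgroup.centralizer ({y} : Set N)).subtype).map (MulAut.conj x).toMonoidHom := by
            rw [← hQ'def]
            exact ⟨q, hq, rfl⟩
          have h2 := hle h1
          have h3 : x * q * x⁻¹ ∈ Subgroup.centralizer ({r} : Set N) := by
            obtain ⟨w, -, hw⟩ := h2
            rw [← hw]
            exact w.2
          have h4 := Subgroup.mem_centralizer_singleton_iff.mp h3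
          calc x⁻¹ * r * x * q = x⁻¹ * (r * (x * q * x⁻¹)) * x := by group
            _ = x⁻¹ * ((x * q * x⁻¹) * r) * x := by rw [h4]
            _ = q * (x⁻¹ * r * x) := by group
        have hmem : ((x⁻¹ * r * x : N) : G) ∈ Subgroup.centralizer
            ((Q'.map N.subtype : Subgroup G) : Set G) := by
          rw [Subgroup.mem_centralizer_iff]
          rintro _ ⟨q, hq, rfl⟩
          have h1 := hcomm q hq
          have h2 := congrArg (Subtype.val : N → G) h1
          exact h2.symm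
        have hJ := hB _ hmem
        have e : F r = P.coeff ((x⁻¹ * r * x : N) : G) := by
          rw [← hFa]
          have h1 := hFcl (x⁻¹ * r * x) x
          have h2 : x * (x⁻¹ * r * x) * x⁻¹ = r := by group
          rw [h2] at h1
          exact h1
        rw [e, mul_comm]
        exact memLocalIdeal_mul_left (centralChar_memLocalRing θ r) hJ
    · rw [Pi.mul_apply, (hdv θ).2 hθ, mul_zero]
      exact memLocalIdeal_zero hMp.ne_top
  · rw [hP2]
    exact knCv_ext_specFun N (c₀ * d)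

end Obj

end Cfsg.Agent.Helper5
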