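import Mathlib
import Cfsg.Agent.Helper5.KnObj

/-!
# Knörr's theorem: the Nakayama argument

If `B` covers the `G`-stable block `b` of `N` with defect group `Q`, the coefficients of the
idempotent of `B` do not all vanish on `C_G(Q)` modulo the local ideal.
-/

set_option autoImplicit false

namespace Cfsg.Agent.Helper5

open Cfsg Cfsg.Agent.Helper24 Cfsg.Agent.Helper22

open Classical

universe u

section Lam

variable {G : Type u} [Group G] [Fintype G] (N : Subgroup G) [hN : N.Normal] [Fintype N]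

/-- the module spanned over the local ring by the elements `g · a · e_θ`. -/
noncomputable def knLam (M : Ideal AlgInt) [hMp : M.IsPrime] (a : MonoidAlgebra ℂ G) :
    Submodule (locRing M) (MonoidAlgebra ℂ G) :=
  Submodule.span (locRing M)
    (Set.range (fun q : G × IrrCharacter N => MonoidAlgebra.single q.1 (1 : ℂ) * a * knE N q.2))

theorem knLam_mem_of_rval {M : Ideal AlgInt} [hMp : M.IsPrime] (a : MonoidAlgebra ℂ G)
    {u : MonoidAlgebra ℂ G} (hu : KnRVal M u) (θ : IrrCharacter N) :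
    u * a * knE N θ ∈ knLam N M a := by
  have e := kn_eq_sum_single u
  rw [e, Finset.sum_mul, Finset.sum_mul]
  refine Submodule.sum_mem _ fun h _ => ?_
  rw [smul_mul_assoc, smul_mul_assoc]
  exact Submodule.smul_mem _ (⟨u.coeff h, hu h⟩ : locRing M)
    (Submodule.subset_span ⟨(h, θ), rfl⟩)

theorem knLam_mul_right {M : Ideal AlgInt} [hMp : M.IsPrime] (a w : MonoidAlgebra ℂ G)
    (hw : ∀ (g : G) (θ : IrrCharacter N),
      MonoidAlgebra.single g (1 : ℂ) * a * knE N θ * w ∈ knLam N M a) :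
    ∀ x ∈ knLam N M a, x * w ∈ knLam N M a := by
  intro x hx
  refine Submodule.span_induction (p := fun x _ => x * w ∈ knLam N M a) ?_ ?_ ?_ ?_ hx
  · rintro _ ⟨⟨g, θ⟩, rfl⟩
    exact hw g θ
  · rw [zero_mul]
    exact Submodule.zero_mem _
  · intro x y _ _ hx hy
    rw [add_mul]
    exact Submodule.add_mem _ hx hy
  · intro r x _ hx
    have e : (r • x) * w = r • (x * w) := by
      show ((r : ℂ) • x) * w = (r : ℂ) • (x * w)
      rw [smul_mul_assoc]
    rw [e]
    exact Submodule.smul_mem _ r hx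

theorem knJLam_mul_right {M : Ideal AlgInt} [hMp : M.IsPrime] (a w : MonoidAlgebra ℂ G)
    (hw : ∀ x ∈ knLam N M a, x * w ∈ knLam N M a) :
    ∀ x ∈ locIdeal M • knLam N M a, x * w ∈ locIdeal M • knLam N M a := by
  intro x hx
  refine Submodule.smul_induction_on (p := fun x => x * w ∈ locIdeal M • knLam N M a) hx ?_ ?_
  · intro r hr n hn
    have e : (r • n) * w = r • (n * w) := by
      show ((r : ℂ) • n) * w = (r : ℂ) • (n * w)
      rw [smul_mul_assoc]
    rw [e]
    exact Submodule.smul_mem_smul hr (hw n hn)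
  · intro x y hx hy
    rw [add_mul]
    exact Submodule.add_mem _ hx hy

theorem knLam_mul_inv {M : Ideal AlgInt} [hMp : M.IsPrime] (a : MonoidAlgebra ℂ G)
    (ha_c : ∀ x : MonoidAlgebra ℂ G, a * x = x * a) {z : MonoidAlgebra ℂ G}
    (hz : KnRVal M z) (hzi : KnInv N z) (g : G) (θ : IrrCharacter N) :
    MonoidAlgebra.single g (1 : ℂ) * a * knE N θ * z ∈ knLam N M a := by
  have hcomm : knE N θ * z = z * knE N θ := by
    apply kn_comm
    intro k hk g'
    have hkN : k ∈ N := by
      by_contra hkN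
      exact hk (knE_supp N θ k (fun e => hkN ((QuotientGroup.eq_one_iff k).mp e)))
    exact hzi k hkN g'
  have e : MonoidAlgebra.single g (1 : ℂ) * a * knE N θ * z
      = (MonoidAlgebra.single g (1 : ℂ) * z) * a * knE N θ := by
    rw [mul_assoc, hcomm, ← mul_assoc, mul_assoc (MonoidAlgebra.single g (1 : ℂ)) a z, ha_c z,
      ← mul_assoc]
  rw [e]
  exact knLam_mem_of_rval N a (knRVal_mul (knRVal_single g) hz) θ

theorem knLam_mul_E {M : Ideal AlgInt} [hMp : M.IsPrime] (a : MonoidAlgebra ℂ G)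
    (g : G) (θ θ' : IrrCharacter N) :
    MonoidAlgebra.single g (1 : ℂ) * a * knE N θ * knE N θ' ∈ knLam N M a := by
  rw [mul_assoc, knE_mul]
  split_ifs
  · exact Submodule.subset_span ⟨(g, θ), rfl⟩
  · rw [mul_zero]
    exact Submodule.zero_mem _

/-- "nil" elements: `u · a · y` lies in `J · Λ` for all `u` with local-integer coefficients. -/
def KnNil (M : Ideal AlgInt) [hMp : M.IsPrime] (a y : MonoidAlgebra ℂ G) : Prop :=
  ∀ u : MonoidAlgebra ℂ G, KnRVal M u → u * a * y ∈ locIdeal M • knLam N M a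

theorem knNil_of_decomp {M : Ideal AlgInt} [hMp : M.IsPrime] (a : MonoidAlgebra ℂ G)
    (c : IrrCharacter N → ℂ) (hc : ∀ θ, MemLocalIdeal M (c θ)) :
    KnNil N M a (∑ θ, c θ • knE N θ) := by
  intro u hu
  rw [Finset.mul_sum]
  refine Submodule.sum_mem _ fun θ _ => ?_
  rw [mul_smul_comm]
  exact Submodule.smul_mem_smul
    (show (⟨c θ, memLocalIdeal_memLocalRing (hc θ)⟩ : locRing M) ∈ locIdeal M from hc θ)
    (knLam_mem_of_rval N a hu θ)

theorem knNil_mul_left {M : Ideal AlgInt} [hMp : M.IsPrime] (a : MonoidAlgebra ℂ G)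
    (ha_c : ∀ x : MonoidAlgebra ℂ G, a * x = x * a) {x y : MonoidAlgebra ℂ G}
    (hx : KnRVal M x) (hy : KnNil N M a y) : KnNil N M a (x * y) := by
  intro u hu
  have e : u * a * (x * y) = (u * x) * a * y := by
    rw [← mul_assoc, mul_assoc u a x, ha_c x, ← mul_assoc]
  rw [e]
  exact hy (u * x) (knRVal_mul hu hx)

theorem knNil_mul_right {M : Ideal AlgInt} [hMp : M.IsPrime] (a : MonoidAlgebra ℂ G)
    (ha_c : ∀ x : MonoidAlgebra ℂ G, a * x = x * a) {y z : MonoidAlgebra ℂ G}
    (hy : KnNil N M a y) (hz : KnRVal M z) (hzi : KnInv N z) : KnNil N M a (y * z) := by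
  intro u hu
  rw [← mul_assoc]
  exact knJLam_mul_right N a z
    (knLam_mul_right N a z (fun g θ => knLam_mul_inv N a ha_c hz hzi g θ)) _ (hy u hu)

theorem knNil_add {M : Ideal AlgInt} [hMp : M.IsPrime] (a : MonoidAlgebra ℂ G)
    {y y' : MonoidAlgebra ℂ G} (hy : KnNil N M a y) (hy' : KnNil N M a y') :
    KnNil N M a (y + y') := by
  intro u hu
  rw [mul_add]
  exact Submodule.add_mem _ (hy u hu) (hy' u hu)

theorem knNil_zero {M : Ideal AlgInt} [hMp : M.IsPrime] (a : MonoidAlgebra ℂ G) :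
    KnNil N M a 0 := by
  intro u _
  rw [mul_zero]
  exact Submodule.zero_mem _

theorem locIdeal_le_jacobson {M : Ideal AlgInt} [hMp : M.IsPrime] :
    locIdeal M ≤ Ideal.jacobson ⊥ := by
  intro x hx
  rw [Ideal.mem_jacobson_bot]
  intro y
  have hxy : MemLocalIdeal M ((x * y : locRing M) : ℂ) := by
    have h := (locIdeal M).mul_mem_right y hx
    exact h
  have hR : MemLocalRing M (((x * y + 1 : locRing M) : ℂ)) := (x * y + 1).2
  have hnJ : ¬ MemLocalIdeal M (((x * y + 1 : locRing M) : ℂ)) := by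
    intro h
    have h2 := memLocalIdeal_sub h hxy
    have e : ((x * y + 1 : locRing M) : ℂ) - ((x * y : locRing M) : ℂ) = 1 := by
      push_cast
      ring
    rw [e] at h2
    exact not_memLocalIdeal_one h2
  have hinv := inv_mem_locRing hR hnJ
  have hne : ((x * y + 1 : locRing M) : ℂ) ≠ 0 := by
    intro h0
    apply hnJ
    rw [h0]
    exact memLocalIdeal_zero hMp.ne_top
  rw [isUnit_iff_exists_inv]
  refine ⟨⟨_, hinv⟩, ?_⟩
  apply Subtype.ext
  show ((x * y + 1 : locRing M) : ℂ) * ((x * y + 1 : locRing M) : ℂ)⁻¹ = 1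
  exact mul_inv_cancel₀ hne

/-- the path invariant of the pigeonhole argument. -/
def KnPhi (M : Ideal AlgInt) (Q : Subgroup G) (Fb : MonoidAlgebra ℂ G)
    (V : Finset (G ⧸ N)) (d : G ⧸ N) (y : MonoidAlgebra ℂ G) : Prop :=
  d ∉ V ∧ KnRVal M y ∧ ∀ s ∈ V, ∃ p q : MonoidAlgebra ℂ G,
    y = p * q ∧ KnRVal M p ∧ KnGood N M Q Fb (s⁻¹ * d) q

set_option maxHeartbeats 1000000 in
/-- **Key step of Knörr's theorem**: if `B` covers the `G`-stable block `b` of `N` and `Q'` is
a defect group of `b`, then the idempotent of `B` has a coefficient outside the local ideal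
at an element centralizing `Q'`. -/
theorem knorr_key {p : ℕ} [Fact p.Prime] {M : Ideal AlgInt} (hM : IsPModular p M)
    [hMp : M.IsPrime] (θ₀ : IrrCharacter N)
    (hst : ∀ (x : G) (ψ : IrrCharacter N),
      twIrr N x ψ ∈ blockOf M (θ₀ : N → ℂ) ↔ ψ ∈ blockOf M (θ₀ : N → ℂ))
    (χ₀ : IrrCharacter G)
    (hcov : ∃ χ ∈ blockOf M (χ₀ : G → ℂ), ∃ θ ∈ blockOf M (θ₀ : N → ℂ),
      classInner (fun n : N => (χ : G → ℂ) n) (θ : N → ℂ) ≠ 0)
    (Q' : Subgroup N) (hQ' : IsDefectGroup p M (blockOf M (θ₀ : N → ℂ)) Q') :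
    ∃ c ∈ Subgroup.centralizer ((Q'.map N.subtype : Subgroup G) : Set G),
      ¬ MemLocalIdeal M (blockCoeff (blockOf M (χ₀ : G → ℂ)) c) := by
  by_contra hcon
  push Not at hcon
  obtain ⟨a, hadef⟩ : ∃ a : MonoidAlgebra ℂ G,
      a = knCv (blockCoeff (blockOf M (χ₀ : G → ℂ))) := ⟨_, rfl⟩
  obtain ⟨Fb, hFbdef⟩ : ∃ Fb : MonoidAlgebra ℂ G,
      Fb = knCv (subgroupBlockCoeff N (blockOf M (θ₀ : N → ℂ))) := ⟨_, rfl⟩
  obtain ⟨Q, hQdef⟩ : ∃ Q : Subgroup G, Q = Q'.map N.subtype := ⟨_, rfl⟩
  have hacoeff : ∀ g, a.coeff g = blockCoeff (blockOf M (χ₀ : G → ℂ)) g := fun g => by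
    rw [hadef]; rfl
  have hQp : IsPGroup p Q := by
    obtain ⟨y, -, D, hD⟩ := hQ'
    rw [hQdef, hD]
    exact (D.2.map _).map _
  have hQN : Q ≤ N := by
    rw [hQdef]
    exact Subgroup.map_subtype_le _
  have ha_i : a * a = a := by rw [hadef]; exact knA_idem χ₀
  have ha_c : ∀ x : MonoidAlgebra ℂ G, a * x = x * a := fun x => by
    rw [hadef]; exact knA_central χ₀ x
  have haF : a * Fb = a := by rw [hadef, hFbdef]; exact knA_mul_Fb N θ₀ hst χ₀ hcov
  have haR : KnRVal M a := fun g => by rw [hacoeff]; exact blockCoeff_memLocalRing χ₀ g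
  have haI : KnInv N a := fun n _ g => by
    rw [hacoeff, hacoeff]; exact blockCoeff_conj _ g n
  have haB : KnBrK M Q a := fun c hc => by
    rw [hacoeff]
    rw [hQdef] at hc
    exact hcon c hc
  have hFbS : KnSupp N 1 Fb := by
    intro g hg
    have hgN : g ∉ N := fun h => hg ((QuotientGroup.eq_one_iff g).mpr h)
    rw [hFbdef]
    show subgroupBlockCoeff N (blockOf M (θ₀ : N → ℂ)) g = 0
    unfold subgroupBlockCoeff
    rw [dif_neg hgN]
  have hAgood : ∀ t : G ⧸ N, KnGood N M Q Fb t (knComp N t a) := by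
    intro t
    refine ⟨knComp_rval N t haR, knComp_inv N t haI, knComp_supp N t a,
      knComp_brk N Q t haB, ?_⟩
    rw [knComp_mul N t a hFbS, haF]
  have hsum : ∑ t : G ⧸ N, knComp N t a = a := knComp_sum N a
  have hNilGood : ∀ P : MonoidAlgebra ℂ G, KnGood N M Q Fb 1 P → KnNil N M a P := by
    intro P hP
    rw [hQdef, hFbdef] at hP
    obtain ⟨c, hc, hPc⟩ := knGood_one_decomp N hM θ₀ Q' hQ' P hP
    rw [hPc]
    exact knNil_of_decomp N a c hc
  -- the stages of the pigeonhole argument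
  obtain ⟨S, hSdef⟩ : ∃ S : ℕ → Set (MonoidAlgebra ℂ G), S = fun j =>
      {y | KnNil N M a y ∨ ∃ (V : Finset (G ⧸ N)) (d : G ⧸ N),
        V.card = j ∧ KnPhi N M Q Fb V d y} := ⟨_, rfl⟩
  have hSmem : ∀ j y, y ∈ S j ↔ (KnNil N M a y ∨ ∃ (V : Finset (G ⧸ N)) (d : G ⧸ N),
      V.card = j ∧ KnPhi N M Q Fb V d y) := fun j y => by rw [hSdef]; rfl
  have hstep1 : ∀ (j : ℕ) (y : MonoidAlgebra ℂ G) (t : G ⧸ N), y ∈ S j →
      y * knComp N t a ∈ S (j + 1) := by
    intro j y t hy
    rw [hSmem] at hy ⊢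
    rcases hy with hy | ⟨V, d, hV, hdV, hyR, hyV⟩
    · exact Or.inl (knNil_mul_right N a ha_c hy (hAgood t).1 (hAgood t).2.1)
    · by_cases ht : t = 1
      · left
        rw [ht]
        exact knNil_mul_left N a ha_c hyR (hNilGood _ (hAgood 1))
      · by_cases hdt : d * t ∈ V
        · left
          obtain ⟨p', q, hyq, hp'R, hq⟩ := hyV (d * t) hdt
          have hq2 := knGood_mul N hM hQp hQN hq (hAgood t)
          have e1 : (d * t)⁻¹ * d * t = 1 := by group
          rw [e1] at hq2
          rw [hyq, mul_assoc]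
          exact knNil_mul_left N a ha_c hp'R (hNilGood _ hq2)
        · right
          refine ⟨insert d V, d * t, ?_, ?_, knRVal_mul hyR (hAgood t).1, ?_⟩
          · rw [Finset.card_insert_of_notMem hdV, hV]
          · rw [Finset.mem_insert]
            rintro (h | h)
            · exact ht (by simpa using h)
            · exact hdt h
          · intro s hs
            rw [Finset.mem_insert] at hs
            rcases hs with rfl | hs
            · refine ⟨y, knComp N t a, rfl, hyR, ?_⟩
              have e1 : s⁻¹ * (s * t) = t := by group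
              rw [e1]
              exact hAgood t
            · obtain ⟨p', q, hyq, hp'R, hq⟩ := hyV s hs
              refine ⟨p', q * knComp N t a, ?_, hp'R, ?_⟩
              · rw [hyq, mul_assoc]
              · have hq2 := knGood_mul N hM hQp hQN hq (hAgood t)
                have e1 : s⁻¹ * d * t = s⁻¹ * (d * t) := by group
                rw [e1] at hq2
                exact hq2
  have hstep : ∀ (j : ℕ) (x : MonoidAlgebra ℂ G) (t : G ⧸ N),
      x ∈ AddSubmonoid.closure (S j) → x * knComp N t a ∈ AddSubmonoid.closure (S (j + 1)) := by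
    intro j x t hx
    refine AddSubmonoid.closure_induction
      (motive := fun x _ => x * knComp N t a ∈ AddSubmonoid.closure (S (j + 1))) ?_ ?_ ?_ hx
    · intro y hy
      exact AddSubmonoid.subset_closure (hstep1 j y t hy)
    · rw [zero_mul]
      exact AddSubmonoid.zero_mem _
    · intro x y _ _ hx hy
      rw [add_mul]
      exact AddSubmonoid.add_mem _ hx hy
  have hone : (1 : MonoidAlgebra ℂ G) = MonoidAlgebra.single 1 (1 : ℂ) := MonoidAlgebra.one_def
  have hpow : ∀ j : ℕ, a ^ (j + 1) ∈ AddSubmonoid.closure (S (j + 1)) := by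
    intro j
    induction j with
    | zero =>
      rw [zero_add, pow_one, ← hsum]
      refine AddSubmonoid.sum_mem _ fun t _ => AddSubmonoid.subset_closure ?_
      rw [hSmem]
      by_cases ht : t = 1
      · left
        rw [ht]
        exact hNilGood _ (hAgood 1)
      · right
        refine ⟨{1}, t, Finset.card_singleton 1, ?_, (hAgood t).1, ?_⟩
        · rw [Finset.mem_singleton]
          exact ht
        · intro s hs
          rw [Finset.mem_singleton] at hs
          refine ⟨1, knComp N t a, (one_mul _).symm, ?_, ?_⟩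
          · rw [hone]
            exact knRVal_single 1
          · rw [hs, inv_one, one_mul]
            exact hAgood t
    | succ j ih =>
      have e : a ^ (j + 1 + 1) = ∑ t : G ⧸ N, a ^ (j + 1) * knComp N t a := by
        rw [pow_succ, ← Finset.mul_sum, hsum]
      rw [e]
      exact AddSubmonoid.sum_mem _ fun t _ => hstep (j + 1) _ t ih
  have hapow : ∀ j : ℕ, a ^ (j + 1) = a := by
    intro j
    induction j with
    | zero => rw [zero_add, pow_one]
    | succ j ih => rw [pow_succ, ih, ha_i]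
  have hm : 0 < Fintype.card (G ⧸ N) := Fintype.card_pos
  obtain ⟨m', hm'⟩ : ∃ m' : ℕ, Fintype.card (G ⧸ N) = m' + 1 := ⟨_, (Nat.succ_pred_eq_of_pos hm).symm⟩
  have haNil : KnNil N M a a := by
    have h1 := hpow m'
    rw [hapow] at h1
    refine AddSubmonoid.closure_induction (motive := fun x _ => KnNil N M a x) ?_ ?_ ?_ h1
    · intro y hy
      rw [hSmem] at hy
      rcases hy with hy | ⟨V, d, hV, hdV, -, -⟩
      · exact hy
      · exfalso
        rw [← hm'] at hV
        have hVu : V = Finset.univ := (Finset.card_eq_iff_eq_univ V).mp hV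
        rw [hVu] at hdV
        exact hdV (Finset.mem_univ d)
    · exact knNil_zero N a
    · intro x y _ _ hx hy
      exact knNil_add N a hx hy
  -- Nakayama
  have hle : knLam N M a ≤ locIdeal M • knLam N M a := by
    unfold knLam
    rw [Submodule.span_le]
    rintro _ ⟨⟨g, θ⟩, rfl⟩
    have h1 := haNil (MonoidAlgebra.single g (1 : ℂ)) (knRVal_single g)
    rw [mul_assoc, ha_i] at h1
    have h2 := knJLam_mul_right N a (knE N θ)
      (knLam_mul_right N a (knE N θ) (fun g' θ' => knLam_mul_E N a g' θ' θ)) _ h1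
    exact h2
  have hfg : (knLam N M a).FG := by
    unfold knLam
    exact Submodule.fg_span (Set.finite_range _)
  have hbot := Submodule.eq_bot_of_le_smul_of_le_jacobson_bot (locIdeal M) (knLam N M a) hfg hle
    locIdeal_le_jacobson
  -- `a` lies in `Λ`
  obtain ⟨d, -, hdv⟩ := osima (M := M) θ₀
  have hFb2 : Fb = ∑ θ, d θ • knE N θ := by
    rw [hFbdef, ← knCv_ext_specFun N d]
    congr 1
    funext g
    unfold subgroupBlockCoeff
    by_cases hg : g ∈ N
    · rw [dif_pos hg, extendByZero_apply_mem N _ hg]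
      exact blockCoeff_eq_specFun (blockOf M (θ₀ : N → ℂ)) d (fun ψ hψ => (hdv ψ).1 hψ)
        (fun ψ hψ => (hdv ψ).2 hψ) _
    · rw [dif_neg hg, extendByZero_apply_not_mem N _ hg]
  have haLam : a ∈ knLam N M a := by
    have e : a = ∑ θ, d θ • ((1 : MonoidAlgebra ℂ G) * a * knE N θ) := by
      conv_lhs => rw [← haF, hFb2, Finset.mul_sum]
      refine Finset.sum_congr rfl fun θ _ => ?_
      rw [mul_smul_comm, one_mul]
    have hsumLam : (∑ θ, d θ • ((1 : MonoidAlgebra ℂ G) * a * knE N θ)) ∈ knLam N M a := by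
      refine Submodule.sum_mem _ fun θ _ => ?_
      have hdR : MemLocalRing M (d θ) := by
        by_cases hθ : SameBlock M (θ₀ : N → ℂ) (θ : N → ℂ)
        · rw [(hdv θ).1 hθ]
          exact mem_locRing.mp (locRing M).one_mem
        · rw [(hdv θ).2 hθ]
          exact mem_locRing.mp (locRing M).zero_mem
      have h1 : (1 : MonoidAlgebra ℂ G) * a * knE N θ ∈ knLam N M a :=
        knLam_mem_of_rval N a (by rw [hone]; exact knRVal_single 1) θ
      have key : ∀ x ∈ knLam N M a, d θ • x ∈ knLam N M a := fun x hx =>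
        Submodule.smul_mem _ (⟨d θ, hdR⟩ : locRing M) hx
      exact key _ h1
    rw [← e] at hsumLam
    exact hsumLam
  rw [hbot, Submodule.mem_bot] at haLam
  obtain ⟨g₀, hg₀⟩ := exists_defect_class (M := M) χ₀
  apply hg₀.2.1
  rw [← hacoeff, haLam]
  exact memLocalIdeal_zero hMp.ne_top

end Lam

end Cfsg.Agent.Helper5
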