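import Mathlib
import Cfsg.Agent.Helper5.KnMain
import Cfsg.Agent.Helper5.BlkDom2
import Cfsg.Agent.Helper5.BlkFong

/-!
# Knörr's theorem for a stable covered block

If `B` covers the `G`-stable block `b` of the normal subgroup `N` and `D` is a defect group of
`B`, then `D ∩ N` is a defect group of `b`.
-/

set_option autoImplicit false

namespace Cfsg.Agent.Helper5

open Cfsg Cfsg.Agent.Helper24 Cfsg.Agent.Helper22

universe u

section Thm

variable {G : Type u} [Group G] [Fintype G] (N : Subgroup G) [hN : N.Normal] [Fintype N]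

/-- **Knörr's theorem** (stable case): if `B` covers the `G`-stable block `b` of `N` and `D` is a
defect group of `B`, then `D ∩ N` is a defect group of `b`. -/
theorem knorr_stable {p : ℕ} [Fact p.Prime] {M : Ideal AlgInt} (hM : IsPModular p M)
    [hMp : M.IsPrime] (θ₀ : IrrCharacter N)
    (hst : ∀ (x : G) (ψ : IrrCharacter N),
      twIrr N x ψ ∈ blockOf M (θ₀ : N → ℂ) ↔ ψ ∈ blockOf M (θ₀ : N → ℂ))
    (χ₀ : IrrCharacter G)
    (hcov : ∃ χ ∈ blockOf M (χ₀ : G → ℂ), ∃ θ ∈ blockOf M (θ₀ : N → ℂ),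
      classInner (fun n : N => (χ : G → ℂ) n) (θ : N → ℂ) ≠ 0)
    (D : Subgroup G) (hD : IsDefectGroup p M (blockOf M (χ₀ : G → ℂ)) D) :
    IsDefectGroup p M (blockOf M (θ₀ : N → ℂ)) ((D ⊓ N).subgroupOf N) := by
  classical
  have hp : p.Prime := Fact.out
  obtain ⟨g₀, hg₀⟩ := exists_defect_class (M := M) θ₀
  obtain ⟨Q₀⟩ : Nonempty (Sylow p (Subgroup.centralizer ({g₀} : Set N))) := inferInstance
  obtain ⟨Q', hQ'def⟩ : ∃ Q' : Subgroup N, Q' = (Q₀ : Subgroup (Subgroup.centralizer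
      ({g₀} : Set N))).map (Subgroup.centralizer ({g₀} : Set N)).subtype := ⟨_, rfl⟩
  have hQ' : IsDefectGroup p M (blockOf M (θ₀ : N → ℂ)) Q' := ⟨g₀, hg₀, Q₀, hQ'def⟩
  have hQ'p : IsPGroup p Q' := by
    rw [hQ'def]
    exact Q₀.2.map _
  obtain ⟨c, hc, hcn⟩ := knorr_key N hM θ₀ hst χ₀ hcov Q' hQ'
  obtain ⟨x, hx⟩ := (brauer_map_iff hM χ₀ D hD (Q'.map N.subtype) (hQ'p.map _)).mp
    ⟨c, blockCoeff_memLocalRing χ₀ c, hcn, c, IsConj.refl c, hc⟩
  obtain ⟨χ', hχ', θ, hθ, hne⟩ := hcov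
  have hBeq : blockOf M (χ' : G → ℂ) = blockOf M (χ₀ : G → ℂ) :=
    (blockOf_eq_of_sameBlock hχ').symm
  have hD' : IsDefectGroup p M (blockOf M (χ' : G → ℂ)) D := by
    rw [hBeq]
    exact hD
  obtain ⟨E, hE, hle⟩ := cover_defect_inter_le N hM θ₀ hst χ' ⟨θ, hθ, hne⟩ D hD'
  have hcE := card_defect_group hM θ₀ E hE
  have hcQ := card_defect_group hM θ₀ Q' hQ'
  have hle2 : (Q'.map N.subtype).map (MulAut.conj x).toMonoidHom ≤ D ⊓ N := by
    refine le_inf hx ?_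
    rintro _ ⟨_, ⟨q, -, rfl⟩, rfl⟩
    exact hN.conj_mem _ q.2 x
  have hc1 : Nat.card ((Q'.map N.subtype).map (MulAut.conj x).toMonoidHom) = Nat.card Q' := by
    rw [Subgroup.card_map_of_injective (MulAut.conj x).injective,
      Subgroup.card_map_of_injective N.subtype_injective]
  have hc2 : Nat.card ((D ⊓ N).subgroupOf N) = Nat.card ((D ⊓ N : Subgroup G)) :=
    Nat.card_congr (Subgroup.subgroupOfEquivOfLe (inf_le_right : D ⊓ N ≤ N)).toEquiv
  have hc3 : Nat.card Q' ≤ Nat.card ((D ⊓ N).subgroupOf N) := by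
    rw [hc2, ← hc1]
    exact Subgroup.card_le_of_le hle2
  have heq : (D ⊓ N).subgroupOf N = E :=
    Subgroup.eq_of_le_of_card_ge hle (by rw [hcE, ← hcQ]; exact hc3)
  rw [heq]
  exact hE

end Thm

end Cfsg.Agent.Helper5
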