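import Mathlib
import Cfsg.Agent.Helper5.BlkExt
import Cfsg.Agent.Helper5.BlkDefect
import Cfsg.Agent.Helper5.BlkDef

/-!
# Transport of blocks and defect groups along a group isomorphism
-/

set_option autoImplicit false

namespace Cfsg.Agent.Helper5

open Cfsg Cfsg.Agent.Helper24 Cfsg.Agent.Helper22

universe u

section Tr

variable {A B : Type u} [Group A] [Group B]

/-- composition with a group isomorphism, on irreducible characters. -/
noncomputable def irrEquivMap (e : A ≃* B) (θ : IrrCharacter B) : IrrCharacter A :=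
  ⟨fun a => (θ : B → ℂ) (e a), isIrr_comp_mulEquiv_h5 e θ.2⟩

theorem irrEquivMap_apply (e : A ≃* B) (θ : IrrCharacter B) (a : A) :
    (irrEquivMap e θ : A → ℂ) a = (θ : B → ℂ) (e a) := rfl

theorem irrEquivMap_symm (e : A ≃* B) (θ : IrrCharacter B) :
    irrEquivMap e.symm (irrEquivMap e θ) = θ := by
  apply Subtype.ext
  funext b
  show (θ : B → ℂ) (e (e.symm b)) = _
  rw [e.apply_symm_apply]

theorem irrEquivMap_symm' (e : A ≃* B) (ψ : IrrCharacter A) :
    irrEquivMap e (irrEquivMap e.symm ψ) = ψ := by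
  apply Subtype.ext
  funext a
  show (ψ : A → ℂ) (e.symm (e a)) = _
  rw [e.symm_apply_apply]

theorem irrEquivMap_bijective (e : A ≃* B) : Function.Bijective (irrEquivMap e) :=
  Function.bijective_iff_has_inverse.mpr
    ⟨irrEquivMap e.symm, irrEquivMap_symm e, irrEquivMap_symm' e⟩

theorem irrEquivMap_mem {M : Ideal AlgInt} (e : A ≃* B) (θ₀ θ : IrrCharacter B) :
    irrEquivMap e θ ∈ blockOf M (irrEquivMap e θ₀ : A → ℂ) ↔ θ ∈ blockOf M (θ₀ : B → ℂ) :=
  sameBlock_comp_equiv e (θ₀ : B → ℂ) (θ : B → ℂ)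

theorem blockCoeff_irrEquivMap [Fintype A] [Fintype B] {M : Ideal AlgInt} (e : A ≃* B)
    (θ₀ : IrrCharacter B) (a : A) :
    blockCoeff (blockOf M (irrEquivMap e θ₀ : A → ℂ)) a
      = blockCoeff (blockOf M (θ₀ : B → ℂ)) (e a) := by
  classical
  rw [blockCoeff_eq_specFun (blockOf M (irrEquivMap e θ₀ : A → ℂ))
      (fun ψ => if ψ ∈ blockOf M (irrEquivMap e θ₀ : A → ℂ) then 1 else 0)
      (fun ψ hψ => if_pos hψ) (fun ψ hψ => if_neg hψ),
    blockCoeff_eq_specFun (blockOf M (θ₀ : B → ℂ))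
      (fun ψ => if ψ ∈ blockOf M (θ₀ : B → ℂ) then 1 else 0)
      (fun ψ hψ => if_pos hψ) (fun ψ hψ => if_neg hψ)]
  unfold specFun
  rw [Nat.card_congr e.toEquiv]
  congr 1
  symm
  refine Fintype.sum_bijective (irrEquivMap e) (irrEquivMap_bijective e) _ _ (fun θ => ?_)
  have h1 : (irrEquivMap e θ ∈ blockOf M (irrEquivMap e θ₀ : A → ℂ))
      ↔ θ ∈ blockOf M (θ₀ : B → ℂ) := irrEquivMap_mem e θ₀ θ
  rw [irrEquivMap_apply, irrEquivMap_apply, map_one]
  beta_reduce
  by_cases h : θ ∈ blockOf M (θ₀ : B → ℂ)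
  · rw [if_pos h, if_pos (h1.mpr h)]
  · rw [if_neg h, if_neg (fun h' => h (h1.mp h'))]

theorem isDefectClass_irrEquivMap [Fintype A] [Fintype B] {M : Ideal AlgInt} (e : A ≃* B)
    (θ₀ : IrrCharacter B) (a : A)
    (h : IsDefectClass M (blockOf M (irrEquivMap e θ₀ : A → ℂ)) a) :
    IsDefectClass M (blockOf M (θ₀ : B → ℂ)) (e a) := by
  obtain ⟨h1, h2, h3⟩ := h
  rw [blockCoeff_irrEquivMap] at h1 h2
  refine ⟨h1, h2, fun χ hχ => ?_⟩
  have h4 := h3 (irrEquivMap e χ) ((irrEquivMap_mem e θ₀ χ).mpr hχ)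
  have h5 : centralChar (irrEquivMap e χ : A → ℂ) a = centralChar (χ : B → ℂ) (e a) :=
    centralChar_comp_equiv e (χ : B → ℂ) a
  rwa [h5] at h4

theorem blockDefect_irrEquivMap {M : Ideal AlgInt} (p : ℕ) (e : A ≃* B)
    (θ₀ : IrrCharacter B) :
    blockDefect p (blockOf M (irrEquivMap e θ₀ : A → ℂ))
      = blockDefect p (blockOf M (θ₀ : B → ℂ)) := by
  unfold blockDefect
  rw [Nat.card_congr e.toEquiv]
  congr 2
  ext v
  constructor
  · rintro ⟨ψ, hψ, rfl⟩
    obtain ⟨θ, rfl⟩ := (irrEquivMap_bijective e).2 ψ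
    refine ⟨θ, (irrEquivMap_mem e θ₀ θ).mp hψ, ?_⟩
    show (charDegree (θ : B → ℂ)).factorization p
      = (charDegree (irrEquivMap e θ : A → ℂ)).factorization p
    unfold charDegree
    rw [irrEquivMap_apply, map_one]
  · rintro ⟨θ, hθ, rfl⟩
    refine ⟨irrEquivMap e θ, (irrEquivMap_mem e θ₀ θ).mpr hθ, ?_⟩
    show (charDegree (irrEquivMap e θ : A → ℂ)).factorization p
      = (charDegree (θ : B → ℂ)).factorization p
    unfold charDegree
    rw [irrEquivMap_apply, map_one]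

/-- defect groups are transported by group isomorphisms. -/
theorem isDefectGroup_irrEquivMap [Fintype A] [Fintype B] {p : ℕ} [Fact p.Prime]
    {M : Ideal AlgInt} (hM : IsPModular p M) [hMp : M.IsPrime]
    (e : A ≃* B) (θ₀ : IrrCharacter B) (D : Subgroup A)
    (hD : IsDefectGroup p M (blockOf M (irrEquivMap e θ₀ : A → ℂ)) D) :
    IsDefectGroup p M (blockOf M (θ₀ : B → ℂ)) (D.map e.toMonoidHom) := by
  have hcD := card_defect_group hM (irrEquivMap e θ₀) D hD
  obtain ⟨g, hg, Q, rfl⟩ := id hD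
  have hg' := isDefectClass_irrEquivMap e θ₀ g hg
  obtain ⟨E, hE, hle⟩ := exists_defect_group_ge (p := p) hg'
    (((Q : Subgroup (Subgroup.centralizer ({g} : Set A))).map
      (Subgroup.centralizer ({g} : Set A)).subtype).map e.toMonoidHom)
    ((Q.2.map _).map _) (by
      rintro _ ⟨_, ⟨q, -, rfl⟩, rfl⟩
      rw [Subgroup.mem_centralizer_singleton_iff]
      have hq := Subgroup.mem_centralizer_singleton_iff.mp q.2
      show e (q : A) * e g = e g * e (q : A)
      rw [← map_mul, ← map_mul, hq])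
  have hcE := card_defect_group hM θ₀ E hE
  have heq : ((Q : Subgroup (Subgroup.centralizer ({g} : Set A))).map
      (Subgroup.centralizer ({g} : Set A)).subtype).map e.toMonoidHom = E :=
    Subgroup.eq_of_le_of_card_ge hle (by
      rw [hcE, Subgroup.card_map_of_injective e.injective, hcD, blockDefect_irrEquivMap])
  rw [heq]
  exact hE

end Tr

end Cfsg.Agent.Helper5
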