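import Mathlib
import Cfsg.Agent.Helper5.KnThm
import Cfsg.Agent.Helper5.KnTr
import Cfsg.Agent.Helper5.BlkFR2

/-!
# Knörr's theorem for an arbitrary covered block

If `B` covers the block `b` of the normal subgroup `N`, then `B` has a defect group `D` inside
the stabilizer of `b` such that `D ∩ N` is a defect group of `b`.
-/

set_option autoImplicit false

namespace Cfsg.Agent.Helper5

open Cfsg Cfsg.Agent.Helper24 Cfsg.Agent.Helper22

universe u

section Gen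

variable {G : Type u} [Group G] [Fintype G] (N : Subgroup G) [hN : N.Normal] [Fintype N]

/-- the stabilizer of a set of irreducible characters of `N`. -/
def knStab (c : Set (IrrCharacter N)) : Subgroup G where
  carrier := {g | ∀ θ, twIrr N g θ ∈ c ↔ θ ∈ c}
  mul_mem' := by
    intro a b ha hb θ
    rw [twIrr_mul]
    exact (hb _).trans (ha θ)
  one_mem' := by
    intro θ
    rw [twIrr_one]
  inv_mem' := by
    intro a ha θ
    have h := ha (twIrr N a⁻¹ θ)
    rw [← twIrr_mul, inv_mul_cancel, twIrr_one] at h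
    exact h.symm

theorem mem_knStab (c : Set (IrrCharacter N)) (g : G) :
    g ∈ knStab N c ↔ ∀ θ, twIrr N g θ ∈ c ↔ θ ∈ c := Iff.rfl

theorem knStab_iff {M : Ideal AlgInt} [hMp : M.IsPrime] (θ₀ : IrrCharacter N) (g : G) :
    g ∈ knStab N (blockOf M (θ₀ : N → ℂ)) ↔
      ∀ θ ∈ blockOf M (θ₀ : N → ℂ), twIrr N g θ ∈ blockOf M (θ₀ : N → ℂ) := by
  constructor
  · intro h θ hθ
    exact (h θ).mpr hθ
  · intro h θ
    constructor
    · intro hθ
      have h0 : twIrr N g θ₀ ∈ blockOf M (θ₀ : N → ℂ) := h θ₀ (sameBlock_refl _)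
      have h1 : SameBlock M (twIrr N g θ₀ : N → ℂ) (twIrr N g θ : N → ℂ) :=
        sameBlock_trans (sameBlock_symm h0) hθ
      have h2 := twIrr_sameBlock N g⁻¹ _ _ h1
      rw [← twIrr_mul, ← twIrr_mul, mul_inv_cancel, twIrr_one, twIrr_one] at h2
      exact h2
    · exact h θ

theorem twIrr_of_mem (n : G) (hn : n ∈ N) (θ : IrrCharacter N) : twIrr N n θ = θ := by
  apply Subtype.ext
  funext m
  rw [twIrr_apply]
  exact irr_isClassFunction θ m ⟨n, hn⟩

theorem le_knStab (c : Set (IrrCharacter N)) : N ≤ knStab N c := by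
  intro n hn θ
  rw [twIrr_of_mem N n hn θ]

/-- **Knörr's theorem**: a block `B` covering the block `b` of `N` has a defect group `D`
stabilizing `b` with `D ∩ N` a defect group of `b`. -/
theorem knorr_general {p : ℕ} [Fact p.Prime] {M : Ideal AlgInt} (hM : IsPModular p M)
    [hMp : M.IsPrime] (θ₀ : IrrCharacter N) (χ₀ : IrrCharacter G)
    (hcov : ∃ χ ∈ blockOf M (χ₀ : G → ℂ), ∃ θ ∈ blockOf M (θ₀ : N → ℂ),
      classInner (fun n : N => (χ : G → ℂ) n) (θ : N → ℂ) ≠ 0) :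
    ∃ D : Subgroup G, IsDefectGroup p M (blockOf M (χ₀ : G → ℂ)) D ∧
      D ≤ knStab N (blockOf M (θ₀ : N → ℂ)) ∧
      IsDefectGroup p M (blockOf M (θ₀ : N → ℂ)) ((D ⊓ N).subgroupOf N) := by
  classical
  obtain ⟨T, hTdef⟩ : ∃ T : Subgroup G, T = knStab N (blockOf M (θ₀ : N → ℂ)) := ⟨_, rfl⟩
  haveI : Fintype T := Fintype.ofFinite _
  have hT : ∀ g : G, g ∈ T ↔ ∀ θ ∈ blockOf M (θ₀ : N → ℂ),
      twIrr N g θ ∈ blockOf M (θ₀ : N → ℂ) := by
    intro g
    rw [hTdef]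
    exact knStab_iff N θ₀ g
  have hNT : N ≤ T := by
    rw [hTdef]
    exact le_knStab N _
  obtain ⟨ψ₀, hcovT, hind⟩ := (fong_reynolds N θ₀ T hT hNT).2.2 χ₀ hcov
  obtain ⟨g₀, hg₀⟩ := exists_defect_class (M := M) ψ₀
  obtain ⟨Q₀⟩ : Nonempty (Sylow p (Subgroup.centralizer ({g₀} : Set T))) := inferInstance
  obtain ⟨D', hD'def⟩ : ∃ D' : Subgroup T, D' = (Q₀ : Subgroup (Subgroup.centralizer
      ({g₀} : Set T))).map (Subgroup.centralizer ({g₀} : Set T)).subtype := ⟨_, rfl⟩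
  have hD' : IsDefectGroup p M (blockOf M (ψ₀ : T → ℂ)) D' := ⟨g₀, hg₀, Q₀, hD'def⟩
  have hDB := (fong_reynolds_defect hM N θ₀ T hT hNT ψ₀ hcovT _ hind).1 D' hD'
  haveI : Fintype (N.subgroupOf T) := Fintype.ofFinite _
  haveI hN' : (N.subgroupOf T).Normal := inferInstance
  have hsurj : ∀ θ' : IrrCharacter (N.subgroupOf T),
      ∃ θ : IrrCharacter N, resIrr hNT θ = θ' := by
    intro θ'
    refine ⟨⟨fun n => (θ' : N.subgroupOf T → ℂ) ((Subgroup.subgroupOfEquivOfLe hNT).symm n),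
      isIrr_comp_mulEquiv_h5 _ θ'.2⟩, ?_⟩
    apply Subtype.ext
    funext a
    show (θ' : N.subgroupOf T → ℂ) ((Subgroup.subgroupOfEquivOfLe hNT).symm
      (Subgroup.subgroupOfEquivOfLe hNT a)) = _
    rw [MulEquiv.symm_apply_apply]
  have hmem : ∀ θ : IrrCharacter N,
      resIrr hNT θ ∈ blockOf M (resIrr hNT θ₀ : N.subgroupOf T → ℂ)
        ↔ θ ∈ blockOf M (θ₀ : N → ℂ) :=
    fun θ => resIrr_sameBlock hNT θ₀ θ
  have htw : ∀ (t : T) (θ : IrrCharacter N),
      twIrr (N.subgroupOf T) t (resIrr hNT θ) = resIrr hNT (twIrr N (t : G) θ) := by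
    intro t θ
    apply Subtype.ext
    funext a
    rfl
  have hst' : ∀ (t : T) (ψ' : IrrCharacter (N.subgroupOf T)),
      twIrr (N.subgroupOf T) t ψ' ∈ blockOf M (resIrr hNT θ₀ : N.subgroupOf T → ℂ)
        ↔ ψ' ∈ blockOf M (resIrr hNT θ₀ : N.subgroupOf T → ℂ) := by
    intro t ψ'
    obtain ⟨θ, rfl⟩ := hsurj ψ'
    rw [htw, hmem, hmem]
    exact fr_stab_iff N θ₀ T hT (t : G) t.2 θ
  have hres : ∀ (ψ : IrrCharacter T) (θ : IrrCharacter N),
      classInner (fun n : N.subgroupOf T => (ψ : T → ℂ) n)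
          (resIrr hNT θ : N.subgroupOf T → ℂ)
        = classInner (fun n : N => (ψ : T → ℂ) ⟨n, hNT n.2⟩) (θ : N → ℂ) := by
    intro ψ θ
    exact classInner_resSub hNT (fun n : N => (ψ : T → ℂ) ⟨n, hNT n.2⟩) (θ : N → ℂ)
  have hcov' : ∃ ψ ∈ blockOf M (ψ₀ : T → ℂ),
      ∃ θ' ∈ blockOf M (resIrr hNT θ₀ : N.subgroupOf T → ℂ),
      classInner (fun n : N.subgroupOf T => (ψ : T → ℂ) n)
        (θ' : N.subgroupOf T → ℂ) ≠ 0 := by
    obtain ⟨ψ, hψ, θ, hθ, hne⟩ := hcovT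
    exact ⟨ψ, hψ, resIrr hNT θ, (hmem θ).mpr hθ, by rw [hres]; exact hne⟩
  have hkn := knorr_stable (N.subgroupOf T) hM (resIrr hNT θ₀) hst' ψ₀ hcov' D' hD'
  have htr := isDefectGroup_irrEquivMap hM (Subgroup.subgroupOfEquivOfLe hNT) θ₀ _ hkn
  refine ⟨D'.map T.subtype, hDB, ?_, ?_⟩
  · rw [← hTdef]
    rintro _ ⟨t, -, rfl⟩
    exact t.2
  · have heq : ((D'.map T.subtype) ⊓ N).subgroupOf N
        = ((D' ⊓ N.subgroupOf T).subgroupOf (N.subgroupOf T)).map
          (Subgroup.subgroupOfEquivOfLe hNT).toMonoidHom := by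
      ext n
      constructor
      · intro hn
        obtain ⟨⟨t, ht, htn⟩, -⟩ := Subgroup.mem_subgroupOf.mp hn
        have htN : t ∈ N.subgroupOf T := by
          rw [Subgroup.mem_subgroupOf]
          have : ((t : T) : G) = (n : G) := htn
          rw [this]
          exact n.2
        refine ⟨⟨t, htN⟩, ?_, ?_⟩
        · show (⟨t, htN⟩ : N.subgroupOf T) ∈ (D' ⊓ N.subgroupOf T).subgroupOf (N.subgroupOf T)
          rw [Subgroup.mem_subgroupOf]
          exact ⟨ht, htN⟩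
        · apply Subtype.ext
          exact htn
      · rintro ⟨a, ha, rfl⟩
        rw [Subgroup.mem_subgroupOf]
        have ha' : (a : T) ∈ D' ⊓ N.subgroupOf T := Subgroup.mem_subgroupOf.mp ha
        refine ⟨⟨(a : T), ha'.1, rfl⟩, ?_⟩
        exact (Subgroup.subgroupOfEquivOfLe hNT a).2
    rw [heq]
    exact htr

end Gen

end Cfsg.Agent.Helper5
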