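import Mathlib
import Cfsg.Agent.Helper5.BlkStab
import Cfsg.Agent.Helper5.BlkExt
import Cfsg.Agent.Helper22.BlkContrib
import Cfsg.Agent.Helper22.Brauer3
import Cfsg.Agent.Helper22.GalIrr

/-!
# A height-zero character stable under a Sylow subgroup of the block stabilizer (S4723)
-/

set_option autoImplicit false

namespace Cfsg.Agent.Helper5

open Cfsg Cfsg.Agent.Helper24 Cfsg.Agent.Helper22

universe u

section PIndex

variable {G : Type u} [Group G] [Fintype G] (N : Subgroup G) [hN : N.Normal] [Fintype N]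

/-- In a `G`-stable block of a normal subgroup of `p`-power index there is a `G`-invariant
character of minimal degree valuation. -/
theorem exists_invariant_min_of_pindex {p : ℕ} [Fact p.Prime] {M : Ideal AlgInt}
    (hM : IsPModular p M) [hMp : M.IsPrime] (hidx : ∃ k : ℕ, N.index = p ^ k)
    (θ₀ : IrrCharacter N)
    (hst : ∀ x : G, StabilizesBlock N (blockOf M (θ₀ : N → ℂ)) x) :
    ∃ θ ∈ blockOf M (θ₀ : N → ℂ),
      (∀ ψ ∈ blockOf M (θ₀ : N → ℂ), (charDegree (θ : N → ℂ)).factorization p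
        ≤ (charDegree (ψ : N → ℂ)).factorization p) ∧
      ∀ g : G, twist N (θ : N → ℂ) g = (θ : N → ℂ) := by
  classical
  have hp : p.Prime := Fact.out
  obtain ⟨χ₁, hco, hmemiff⟩ := stable_block_spec N hM hidx θ₀ hst
  obtain ⟨g₀, hg₀⟩ := exists_defect_class (M := M) χ₁
  obtain ⟨Q⟩ : Nonempty (Sylow p (Subgroup.centralizer ({g₀} : Set G))) := inferInstance
  obtain ⟨P', hP'def⟩ : ∃ P' : Subgroup G, P' = (Q : Subgroup (Subgroup.centralizer
      ({g₀} : Set G))).map (Subgroup.centralizer ({g₀} : Set G)).subtype := ⟨_, rfl⟩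
  have hP' : IsDefectGroup p M (blockOf M (χ₁ : G → ℂ)) P' := ⟨g₀, hg₀, Q, hP'def⟩
  obtain ⟨hsup, hdef⟩ := (stable_block_main N hM hidx θ₀ hst).2 χ₁ hco P' hP'
  have hcB := card_defect_group hM χ₁ P' hP'
  have hcb := card_defect_group hM θ₀ _ hdef
  have hcb' : Nat.card ((P' ⊓ N : Subgroup G)) = p ^ blockDefect p (blockOf M (θ₀ : N → ℂ)) := by
    rw [← hcb]
    exact (Nat.card_congr (Subgroup.subgroupOfEquivOfLe
      (inf_le_right : P' ⊓ N ≤ N)).toEquiv).symm
  have hidx' : N.index = N.relIndex P' := by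
    rw [← Subgroup.relIndex_sup_left, hsup, Subgroup.relIndex_top_right]
  have hmul : Nat.card ((P' ⊓ N : Subgroup G)) * N.relIndex P' = Nat.card P' := by
    have h1 := Subgroup.relIndex_mul_relIndex (H := (⊥ : Subgroup G)) (K := P' ⊓ N) (L := P')
      bot_le inf_le_left
    rw [Subgroup.relIndex_bot_left, Subgroup.relIndex_bot_left, Subgroup.inf_relIndex_left] at h1
    exact h1
  obtain ⟨k, hk⟩ := hidx
  rw [← hidx', hk, hcb', hcB, ← pow_add] at hmul
  have hdB : blockDefect p (blockOf M (θ₀ : N → ℂ)) + k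
      = blockDefect p (blockOf M (χ₁ : G → ℂ)) := Nat.pow_right_injective hp.two_le hmul
  have hG : (Nat.card G).factorization p = (Nat.card N).factorization p + k := by
    rw [← Subgroup.card_mul_index N, hk, Nat.factorization_mul Nat.card_pos.ne'
      (pow_ne_zero _ hp.ne_zero), Finsupp.add_apply, Nat.factorization_pow,
      Finsupp.smul_apply, hp.factorization_self]
    simp
  have hB := block_defect_eq (M := M) p χ₁
  have hb := block_defect_eq (M := M) p θ₀
  have hsInf : sInf ((fun ψ : IrrCharacter G => (charDegree (ψ : G → ℂ)).factorization p) ''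
      blockOf M (χ₁ : G → ℂ)) = sInf ((fun ψ : IrrCharacter N =>
        (charDegree (ψ : N → ℂ)).factorization p) '' blockOf M (θ₀ : N → ℂ)) := by
    omega
  obtain ⟨χ, hχ, hχeq⟩ := Nat.sInf_mem (⟨_, χ₁, sameBlock_refl _, rfl⟩ :
    ((fun ψ : IrrCharacter G => (charDegree (ψ : G → ℂ)).factorization p) ''
      blockOf M (χ₁ : G → ℂ)).Nonempty)
  obtain ⟨θ, hθ⟩ := exists_constituent_res N χ
  have hθb : θ ∈ blockOf M (θ₀ : N → ℂ) := (hmemiff χ θ hθ).1 hχ
  obtain ⟨e, he0, hdeg⟩ := clifford_degree N (χ : G → ℂ) χ.2 (θ : N → ℂ) θ.2 hθ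
  obtain ⟨hχ1, hχ0, -⟩ := irr_charDegree_spec χ
  obtain ⟨hθ1, hθ0, -⟩ := irr_charDegree_spec θ
  obtain ⟨t, ht⟩ : ∃ t : ℕ, t = Set.ncard {φ : N → ℂ | ∃ g : G, φ = twist N (θ : N → ℂ) g} :=
    ⟨_, rfl⟩
  rw [← ht, hχ1, hθ1] at hdeg
  have hdegN : charDegree (χ : G → ℂ) = e * t * charDegree (θ : N → ℂ) := by
    exact_mod_cast hdeg
  have htdvd : t ∣ p ^ k := by
    rw [ht, ← hk]
    exact ncard_twist_orbit_dvd N (θ : N → ℂ) (irr_isClassFunction θ)
  obtain ⟨j, -, hj⟩ := (Nat.dvd_prime_pow hp).1 htdvd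
  have hle : sInf ((fun ψ : IrrCharacter N =>
        (charDegree (ψ : N → ℂ)).factorization p) '' blockOf M (θ₀ : N → ℂ))
      ≤ (charDegree (θ : N → ℂ)).factorization p := Nat.sInf_le ⟨θ, hθb, rfl⟩
  have hfac : (charDegree (χ : G → ℂ)).factorization p
      = e.factorization p + j + (charDegree (θ : N → ℂ)).factorization p := by
    rw [hdegN, hj, Nat.factorization_mul (mul_ne_zero he0 (pow_ne_zero _ hp.ne_zero)) hθ0,
      Nat.factorization_mul he0 (pow_ne_zero _ hp.ne_zero), Finsupp.add_apply, Finsupp.add_apply,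
      Nat.factorization_pow, Finsupp.smul_apply, hp.factorization_self]
    simp
  have hχeq' : (charDegree (χ : G → ℂ)).factorization p = sInf ((fun ψ : IrrCharacter G =>
      (charDegree (ψ : G → ℂ)).factorization p) '' blockOf M (χ₁ : G → ℂ)) := hχeq
  have hj0 : j = 0 := by omega
  have hmin : (charDegree (θ : N → ℂ)).factorization p = sInf ((fun ψ : IrrCharacter N =>
        (charDegree (ψ : N → ℂ)).factorization p) '' blockOf M (θ₀ : N → ℂ)) := by omega
  refine ⟨θ, hθb, ?_, ?_⟩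
  · intro ψ hψ
    rw [hmin]
    exact Nat.sInf_le ⟨ψ, hψ, rfl⟩
  · intro g
    have ht1 : Set.ncard {φ : N → ℂ | ∃ g : G, φ = twist N (θ : N → ℂ) g} = 1 := by
      rw [← ht, hj, hj0, pow_zero]
    obtain ⟨a, ha⟩ := Set.ncard_eq_one.mp ht1
    have h1 : twist N (θ : N → ℂ) g ∈ ({a} : Set (N → ℂ)) := by
      rw [← ha]; exact ⟨g, rfl⟩
    have h2 : (θ : N → ℂ) ∈ ({a} : Set (N → ℂ)) := by
      rw [← ha]; exact ⟨1, (twist_one N _).symm⟩
    rw [Set.mem_singleton_iff] at h1 h2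
    rw [h1, h2]

end PIndex

section Main

variable {G : Type u} [Group G] [Fintype G] (H : Subgroup G) [hH : H.Normal] [Fintype H]

/-- the stabilizer of a function on a normal subgroup -/
def twistStab (θ : H → ℂ) : Subgroup G where
  carrier := {g | twist H θ g = θ}
  mul_mem' := by
    intro a b ha hb
    show twist H θ (a * b) = θ
    rw [twist_mul, show twist H θ a = θ from ha]
    exact hb
  one_mem' := twist_one H θ
  inv_mem' := by
    intro a ha
    show twist H θ a⁻¹ = θ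
    have h : twist H θ a = θ := ha
    have h2 := twist_mul H θ a a⁻¹
    rw [mul_inv_cancel, twist_one, h] at h2
    exact h2.symm

/-- **S4723**: a block `b = blockOf M θ₀` of a normal subgroup `H` contains a height-zero
character whose stabilizer has index prime to `p` in the stabilizer `T` of `b`. -/
theorem exists_height_zero_sylow_stable {p : ℕ} [Fact p.Prime] {M : Ideal AlgInt}
    (hM : IsPModular p M) [hMp : M.IsPrime] (θ₀ : IrrCharacter H) (T : Subgroup G)
    (hT : ∀ g : G, g ∈ T ↔ ∀ θ ∈ blockOf M (θ₀ : H → ℂ),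
      twIrr H g θ ∈ blockOf M (θ₀ : H → ℂ)) :
    ∃ θ ∈ blockOf M (θ₀ : H → ℂ),
      blockHeight p (blockOf M (θ₀ : H → ℂ)) (θ : H → ℂ) = 0 ∧
      ∃ S : Subgroup G, S ≤ T ∧
        (∀ g : G, g ∈ S ↔ (g ∈ T ∧ twist H (θ : H → ℂ) g = (θ : H → ℂ))) ∧
        ¬ p ∣ S.relIndex T := by
  classical
  have hp : p.Prime := Fact.out
  have hHT : H ≤ T := by
    intro h₀ hh₀
    rw [hT]
    intro θ hθ
    have e : twIrr H h₀ θ = θ := by
      apply Subtype.ext
      funext n
      rw [twIrr_apply]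
      exact irr_isClassFunction θ n ⟨h₀, hh₀⟩
    rw [e]
    exact hθ
  obtain ⟨P₀⟩ : Nonempty (Sylow p T) := inferInstance
  obtain ⟨P, hPdef⟩ : ∃ P : Subgroup G, P = (P₀ : Subgroup T).map T.subtype := ⟨_, rfl⟩
  have hPT : P ≤ T := by rw [hPdef]; exact Subgroup.map_subtype_le _
  have hPp : IsPGroup p P := by rw [hPdef]; exact P₀.2.map _
  obtain ⟨L, hLdef⟩ : ∃ L : Subgroup G, L = H ⊔ P := ⟨_, rfl⟩
  have hHL : H ≤ L := by rw [hLdef]; exact le_sup_left
  have hPL : P ≤ L := by rw [hLdef]; exact le_sup_right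
  have hLT : L ≤ T := by rw [hLdef]; exact sup_le hHT hPT
  haveI : Fintype L := Fintype.ofFinite _
  haveI : Fintype (H.subgroupOf L) := Fintype.ofFinite _
  haveI hN' : (H.subgroupOf L).Normal := inferInstance
  have hidx : ∃ k : ℕ, (H.subgroupOf L).index = p ^ k := by
    have h1 : (H.subgroupOf L).index = H.relIndex P := by
      show H.relIndex L = _
      rw [hLdef, Subgroup.relIndex_sup_left]
    obtain ⟨n, hn⟩ := IsPGroup.iff_card.mp hPp
    have h2 : H.relIndex P ∣ p ^ n := by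
      rw [← hn]
      exact Subgroup.relIndex_dvd_card H P
    obtain ⟨k, -, hk⟩ := (Nat.dvd_prime_pow hp).1 h2
    exact ⟨k, by rw [h1, hk]⟩
  have hsurj : ∀ θ' : IrrCharacter (H.subgroupOf L),
      ∃ θ : IrrCharacter H, resIrr hHL θ = θ' := by
    intro θ'
    refine ⟨⟨fun n => (θ' : H.subgroupOf L → ℂ) ((Subgroup.subgroupOfEquivOfLe hHL).symm n),
      isIrr_comp_mulEquiv_h5 _ θ'.2⟩, ?_⟩
    apply Subtype.ext
    funext a
    show (θ' : H.subgroupOf L → ℂ) ((Subgroup.subgroupOfEquivOfLe hHL).symm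
      (Subgroup.subgroupOfEquivOfLe hHL a)) = _
    rw [MulEquiv.symm_apply_apply]
  have htw : ∀ (t : L) (θ : IrrCharacter H),
      twIrr (H.subgroupOf L) t (resIrr hHL θ) = resIrr hHL (twIrr H (t : G) θ) := by
    intro t θ
    apply Subtype.ext
    funext a
    rfl
  have hst : ∀ x : L, StabilizesBlock (H.subgroupOf L)
      (blockOf M (resIrr hHL θ₀ : H.subgroupOf L → ℂ)) x := by
    intro x
    refine ⟨?_, ?_⟩
    · rw [Subgroup.normalizer_eq_top]
      exact Subgroup.mem_top x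
    · intro χ hχ
      obtain ⟨θ, rfl⟩ := hsurj χ
      have hθ : θ ∈ blockOf M (θ₀ : H → ℂ) := (resIrr_sameBlock hHL θ₀ θ).1 hχ
      refine ⟨twIrr (H.subgroupOf L) x⁻¹ (resIrr hHL θ), ?_, ?_⟩
      · rw [htw]
        apply (resIrr_sameBlock hHL θ₀ _).2
        exact (hT _).1 (hLT (x⁻¹).2) θ hθ
      · intro k k' hk
        rw [twIrr_apply]
        refine congrArg _ (Subtype.ext ?_)
        show x⁻¹ * (k' : L) * x⁻¹⁻¹ = (k : L)
        rw [hk]
        group
  obtain ⟨θ', hθ'b, hθ'min, hθ'inv⟩ :=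
    exists_invariant_min_of_pindex (H.subgroupOf L) hM hidx (resIrr hHL θ₀) hst
  obtain ⟨θ, rfl⟩ := hsurj θ'
  have hθb : θ ∈ blockOf M (θ₀ : H → ℂ) := (resIrr_sameBlock hHL θ₀ θ).1 hθ'b
  have hdeg : ∀ ψ : IrrCharacter H,
      charDegree (resIrr hHL ψ : H.subgroupOf L → ℂ) = charDegree (ψ : H → ℂ) := by
    intro ψ
    unfold charDegree
    rw [resIrr_apply, map_one]
  refine ⟨θ, hθb, ?_, ?_⟩
  · unfold blockHeight
    rw [Nat.sub_eq_zero_iff_le]
    refine le_csInf ⟨_, ⟨θ₀, sameBlock_refl _, rfl⟩⟩ ?_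
    rintro _ ⟨ψ, hψ, rfl⟩
    have h1 := hθ'min (resIrr hHL ψ) ((resIrr_sameBlock hHL θ₀ ψ).2 hψ)
    rw [hdeg, hdeg] at h1
    exact h1
  · refine ⟨T ⊓ twistStab H (θ : H → ℂ), inf_le_left, ?_, ?_⟩
    · intro g
      exact Iff.rfl
    · have hPS : P ≤ T ⊓ twistStab H (θ : H → ℂ) := by
        intro y hy
        refine ⟨hPT hy, ?_⟩
        show twist H (θ : H → ℂ) y = (θ : H → ℂ)
        funext h
        have h1 := congrFun (hθ'inv ⟨y, hPL hy⟩) ⟨⟨h, hHL h.2⟩, h.2⟩
        exact h1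
      have hP₀ : (P₀ : Subgroup T) ≤ (T ⊓ twistStab H (θ : H → ℂ)).subgroupOf T := by
        intro t ht
        rw [Subgroup.mem_subgroupOf]
        apply hPS
        rw [hPdef]
        exact ⟨t, ht, rfl⟩
      have h1 : ((T ⊓ twistStab H (θ : H → ℂ)).subgroupOf T).index ∣ (P₀ : Subgroup T).index :=
        Subgroup.index_dvd_of_le hP₀
      intro hdvd
      exact P₀.not_dvd_index (hdvd.trans h1)

end Main

end Cfsg.Agent.Helper5
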