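import Mathlib
import Cfsg.Prelude.Def_BlockRank
import Cfsg.Agent.Helper5.BlkQuot
import Cfsg.Agent.Helper5.BlkSMT2
import Cfsg.Agent.Helper5.BlkOrth2
import Cfsg.Agent.Helper5.BlkOrth
import Cfsg.Agent.Helper5.BlkTwist
import Cfsg.Agent.Helper5.BlkInd2
import Cfsg.Agent.Helper5.BlkReg
import Cfsg.Agent.Helper22.IrrKer
import Cfsg.Agent.Helper22.BlkContrib
import Cfsg.Agent.Helper24.CharProd

/-!
helper5: blocks of `G = P C_G(P)` with defect group `P` (S0968, S4714).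
-/

set_option autoImplicit false

namespace Cfsg.Agent.Helper5

open Cfsg Cfsg.Agent.Helper24 Cfsg.Agent.Helper22

universe u

section Grp

variable {G : Type u} [Group G]

/-- every element of `P C_G(P)` is a product. -/
theorem pc_decomp (P : Subgroup G) (hG : P ⊔ Subgroup.centralizer (P : Set G) = ⊤) (g : G) :
    ∃ y ∈ P, ∃ c ∈ Subgroup.centralizer (P : Set G), g = y * c := by
  have hcomm : ∀ y ∈ P, ∀ c ∈ Subgroup.centralizer (P : Set G), y * c = c * y := fun y hy c hc =>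
    Subgroup.mem_centralizer_iff.mp hc y hy
  let S : Subgroup G :=
    { carrier := {g | ∃ y ∈ P, ∃ c ∈ Subgroup.centralizer (P : Set G), g = y * c}
      one_mem' := ⟨1, P.one_mem, 1, Subgroup.one_mem _, (mul_one 1).symm⟩
      mul_mem' := by
        rintro _ _ ⟨y, hy, c, hc, rfl⟩ ⟨y', hy', c', hc', rfl⟩
        refine ⟨y * y', P.mul_mem hy hy', c * c', Subgroup.mul_mem _ hc hc', ?_⟩
        calc y * c * (y' * c') = y * (c * y') * c' := by group
          _ = y * (y' * c) * c' := by rw [hcomm y' hy' c hc]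
          _ = y * y' * (c * c') := by group
      inv_mem' := by
        rintro _ ⟨y, hy, c, hc, rfl⟩
        refine ⟨y⁻¹, P.inv_mem hy, c⁻¹, Subgroup.inv_mem _ hc, ?_⟩
        rw [mul_inv_rev, ← hcomm y⁻¹ (P.inv_mem hy) c⁻¹ (Subgroup.inv_mem _ hc)] }
  have h1 : P ≤ S := fun y hy => ⟨y, hy, 1, Subgroup.one_mem _, (mul_one y).symm⟩
  have h2 : Subgroup.centralizer (P : Set G) ≤ S := fun c hc =>
    ⟨1, P.one_mem, c, hc, (one_mul c).symm⟩
  have h3 : g ∈ S := by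
    have : (⊤ : Subgroup G) ≤ S := by
      rw [← hG]
      exact sup_le h1 h2
    exact this (Subgroup.mem_top g)
  exact h3

theorem pc_normal (P : Subgroup G) (hG : P ⊔ Subgroup.centralizer (P : Set G) = ⊤) :
    P.Normal := by
  refine ⟨fun u hu g => ?_⟩
  obtain ⟨y, hy, c, hc, rfl⟩ := pc_decomp P hG g
  have e : y * c * u * (y * c)⁻¹ = y * u * y⁻¹ := by
    have h1 : u * c = c * u := Subgroup.mem_centralizer_iff.mp hc u hu
    calc y * c * u * (y * c)⁻¹ = y * (c * u) * c⁻¹ * y⁻¹ := by group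
      _ = y * (u * c) * c⁻¹ * y⁻¹ := by rw [h1]
      _ = y * u * y⁻¹ := by group
  rw [e]
  exact P.mul_mem (P.mul_mem hy hu) (P.inv_mem hy)

/-- `p`-regular elements of `P C_G(P)` centralize `P`. -/
theorem pc_regular_mem {p : ℕ} (hp : p.Prime) (P : Subgroup G) (hP : IsPGroup p P)
    (hG : P ⊔ Subgroup.centralizer (P : Set G) = ⊤) (g : G) (hg : ¬ p ∣ orderOf g) :
    g ∈ Subgroup.centralizer (P : Set G) := by
  have hPn := pc_normal P hG
  haveI hCn : (Subgroup.centralizer (P : Set G)).Normal := centralizer_normal_h5 P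
  obtain ⟨y, hy, c, hc, rfl⟩ := pc_decomp P hG g
  obtain ⟨k, hk⟩ := hP ⟨y, hy⟩
  have hyk : y ^ (p ^ k) = 1 := by
    have := congrArg Subtype.val hk
    simpa using this
  have e1 : (QuotientGroup.mk (y * c) : G ⧸ Subgroup.centralizer (P : Set G))
      = QuotientGroup.mk y := by
    rw [QuotientGroup.eq]
    have : (y * c)⁻¹ * y = y⁻¹ * c⁻¹ * y := by
      have h1 : y⁻¹ * c⁻¹ = c⁻¹ * y⁻¹ :=
        Subgroup.mem_centralizer_iff.mp (Subgroup.inv_mem _ hc) y⁻¹ (P.inv_mem hy)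
      rw [mul_inv_rev, h1]
    rw [this]
    exact hCn.conj_mem' c⁻¹ (Subgroup.inv_mem _ hc) y
  have h1 : (QuotientGroup.mk (y * c) : G ⧸ Subgroup.centralizer (P : Set G)) ^ (p ^ k) = 1 := by
    rw [e1, ← QuotientGroup.mk_pow, hyk, QuotientGroup.mk_one]
  have h2 : (QuotientGroup.mk (y * c) : G ⧸ Subgroup.centralizer (P : Set G))
      ^ (orderOf (y * c)) = 1 := by
    rw [← QuotientGroup.mk_pow, pow_orderOf_eq_one, QuotientGroup.mk_one]
  have hcop : Nat.Coprime (p ^ k) (orderOf (y * c)) :=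
    Nat.Coprime.pow_left k ((Nat.Prime.coprime_iff_not_dvd hp).mpr hg)
  have h3 : orderOf (QuotientGroup.mk (y * c) : G ⧸ Subgroup.centralizer (P : Set G)) = 1 :=
    Nat.eq_one_of_dvd_coprimes hcop (orderOf_dvd_of_pow_eq_one h1) (orderOf_dvd_of_pow_eq_one h2)
  exact (QuotientGroup.eq_one_iff _).mp (orderOf_eq_one_iff.mp h3)

/-- the index of `C_G(P)` in `P C_G(P)` is a power of `p`. -/
theorem pc_index [Finite G] {p : ℕ} [Fact p.Prime] (P : Subgroup G) (hP : IsPGroup p P)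
    (hG : P ⊔ Subgroup.centralizer (P : Set G) = ⊤) :
    ∃ k : ℕ, (Subgroup.centralizer (P : Set G)).index = p ^ k := by
  have hPn := pc_normal P hG
  haveI hCn : (Subgroup.centralizer (P : Set G)).Normal := centralizer_normal_h5 P
  have hQ : IsPGroup p (G ⧸ Subgroup.centralizer (P : Set G)) := by
    intro q
    obtain ⟨g, rfl⟩ := QuotientGroup.mk_surjective q
    obtain ⟨y, hy, c, hc, rfl⟩ := pc_decomp P hG g
    obtain ⟨k, hk⟩ := hP ⟨y, hy⟩
    have hyk : y ^ (p ^ k) = 1 := by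
      have := congrArg Subtype.val hk
      simpa using this
    refine ⟨k, ?_⟩
    have e1 : (QuotientGroup.mk (y * c) : G ⧸ Subgroup.centralizer (P : Set G))
        = QuotientGroup.mk y := by
      rw [QuotientGroup.eq]
      have : (y * c)⁻¹ * y = y⁻¹ * c⁻¹ * y := by
        have h1 : y⁻¹ * c⁻¹ = c⁻¹ * y⁻¹ :=
          Subgroup.mem_centralizer_iff.mp (Subgroup.inv_mem _ hc) y⁻¹ (P.inv_mem hy)
        rw [mul_inv_rev, h1]
      rw [this]
      exact hCn.conj_mem' c⁻¹ (Subgroup.inv_mem _ hc) y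
    rw [e1, ← QuotientGroup.mk_pow, hyk, QuotientGroup.mk_one]
  obtain ⟨k, hk⟩ := IsPGroup.iff_card.mp hQ
  exact ⟨k, by rw [Subgroup.index_eq_card, hk]⟩

/-- the `p`-part of `y c` for `y ∈ P` and `c` a `p`-regular element. -/
theorem pc_isPPart {p : ℕ} (hp : p.Prime) (P : Subgroup G) (hP : IsPGroup p P)
    (hG : P ⊔ Subgroup.centralizer (P : Set G) = ⊤) (y : G) (hy : y ∈ P) (c : G)
    (hc : ¬ p ∣ orderOf c) : IsPPart p (y * c) y := by
  have hcC := pc_regular_mem hp P hP hG c hc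
  haveI : Fact p.Prime := ⟨hp⟩
  obtain ⟨k, hk⟩ := (IsPGroup.iff_orderOf.mp hP) ⟨y, hy⟩
  refine ⟨c, rfl, (Subgroup.mem_centralizer_iff.mp hcC y hy), ⟨k, ?_⟩, hc⟩
  rw [← hk, Subgroup.orderOf_mk]

/-- a product `y c` with `1 ≠ y ∈ P` and `c` a `p`-regular element is `p`-singular. -/
theorem pc_singular [Finite G] {p : ℕ} (hp : p.Prime) (P : Subgroup G) (hP : IsPGroup p P)
    (hG : P ⊔ Subgroup.centralizer (P : Set G) = ⊤) (y : G) (hy : y ∈ P) (hy1 : y ≠ 1) (c : G)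
    (hc : ¬ p ∣ orderOf c) : p ∣ orderOf (y * c) := by
  have hcC := pc_regular_mem hp P hP hG c hc
  obtain ⟨k, hk⟩ := hP ⟨y, hy⟩
  have hyk : y ^ (p ^ k) = 1 := by
    have := congrArg Subtype.val hk
    simpa using this
  exact dvd_orderOf_mul hp y c (Subgroup.mem_centralizer_iff.mp hcC y hy) k hyk hy1 hc

end Grp

section Chars

variable {G : Type u} [Group G] [Fintype G]

/-- summing over the elements whose `p`-part lies in `P`. -/
theorem pc_sum_param {p : ℕ} (hp : p.Prime) (P : Subgroup G) [Fintype P] (hP : IsPGroup p P)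
    (hG : P ⊔ Subgroup.centralizer (P : Set G) = ⊤) (F : G → ℂ)
    (hF : ∀ g x : G, IsPPart p g x → x ∉ P → F g = 0) :
    ∑ g : G, F g = ∑ z : P, ∑ c : G, if p ∣ orderOf c then 0 else F ((z : G) * c) := by
  classical
  choose pp hpp using fun g : G => exists_isPPart hp g
  have hS : ∑ g : G, F g = ∑ g ∈ Finset.univ.filter (fun g : G => pp g ∈ P), F g := by
    rw [Finset.sum_filter]
    refine Finset.sum_congr rfl fun g _ => ?_
    by_cases h : pp g ∈ P
    · rw [if_pos h]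
    · rw [if_neg h]; exact hF g (pp g) (hpp g) h
  have hT : ∑ z : P, ∑ c : G, (if p ∣ orderOf c then 0 else F ((z : G) * c))
      = ∑ x ∈ (Finset.univ : Finset P) ×ˢ Finset.univ.filter (fun c : G => ¬ p ∣ orderOf c),
          F ((x.1 : G) * x.2) := by
    rw [Finset.sum_product]
    refine Finset.sum_congr rfl fun z _ => ?_
    rw [Finset.sum_filter]
    refine Finset.sum_congr rfl fun c _ => ?_
    by_cases h : p ∣ orderOf c
    · rw [if_pos h, if_neg (not_not.mpr h)]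
    · rw [if_neg h, if_pos h]
  rw [hS, hT]
  symm
  refine Finset.sum_nbij' (fun x => (x.1 : G) * x.2)
    (fun g => if h : pp g ∈ P then ((⟨pp g, h⟩ : P), (pp g)⁻¹ * g) else (1, 1)) ?_ ?_ ?_ ?_ ?_
  · rintro ⟨z, c⟩ hx
    rw [Finset.mem_product, Finset.mem_filter] at hx
    have h1 := pc_isPPart hp P hP hG z z.2 c hx.2.2
    have h2 : pp ((z : G) * c) = z := isPPart_unique hp (hpp _) h1
    rw [Finset.mem_filter]
    exact ⟨Finset.mem_univ _, by rw [h2]; exact z.2⟩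
  · intro g hg
    rw [Finset.mem_filter] at hg
    rw [dif_pos hg.2, Finset.mem_product, Finset.mem_filter]
    refine ⟨Finset.mem_univ _, Finset.mem_univ _, ?_⟩
    obtain ⟨y, hxy, -, -, hy⟩ := hpp g
    have : (pp g)⁻¹ * g = y := by
      calc (pp g)⁻¹ * g = (pp g)⁻¹ * (pp g * y) := by rw [hxy]
        _ = y := inv_mul_cancel_left _ _
    show ¬ p ∣ orderOf ((pp g)⁻¹ * g)
    rw [this]; exact hy
  · rintro ⟨z, c⟩ hx
    rw [Finset.mem_product, Finset.mem_filter] at hx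
    have h1 := pc_isPPart hp P hP hG z z.2 c hx.2.2
    have h2 : pp ((z : G) * c) = z := isPPart_unique hp (hpp _) h1
    have h3 : pp ((z : G) * c) ∈ P := by rw [h2]; exact z.2
    show (if h : pp ((z : G) * c) ∈ P then
      ((⟨pp ((z : G) * c), h⟩ : P), (pp ((z : G) * c))⁻¹ * ((z : G) * c)) else (1, 1)) = (z, c)
    rw [dif_pos h3]
    refine Prod.ext (Subtype.ext h2) ?_
    show (pp ((z : G) * c))⁻¹ * ((z : G) * c) = c
    rw [h2, inv_mul_cancel_left]
  · intro g hg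
    rw [Finset.mem_filter] at hg
    show (((if h : pp g ∈ P then ((⟨pp g, h⟩ : P), (pp g)⁻¹ * g) else (1, 1)).1 : P) : G)
      * (if h : pp g ∈ P then ((⟨pp g, h⟩ : P), (pp g)⁻¹ * g) else (1, 1)).2 = g
    rw [dif_pos hg.2]
    show pp g * ((pp g)⁻¹ * g) = g
    rw [mul_inv_cancel_left]
  · intro x _
    rfl

/-- characters of `P C_G(P)` are multiplicative across the two factors. -/
theorem pc_char_mul (P : Subgroup G) (hG : P ⊔ Subgroup.centralizer (P : Set G) = ⊤)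
    (χ : IrrCharacter G) (y : G) (hy : y ∈ P) (c : G)
    (hc : c ∈ Subgroup.centralizer (P : Set G)) :
    (χ : G → ℂ) (y * c) * (χ : G → ℂ) 1 = (χ : G → ℂ) y * (χ : G → ℂ) c := by
  have hG0 : (Nat.card G : ℂ) ≠ 0 := Nat.cast_ne_zero.mpr Nat.card_pos.ne'
  have h10 := Cfsg.Agent.Helper5.irr_one_ne_zero χ
  have h := sum_conj_mul χ c y
  have hterm : ∀ g : G, (χ : G → ℂ) (c * g * y * g⁻¹) = (χ : G → ℂ) (y * c) := by
    intro g
    obtain ⟨y', hy', c', hc', rfl⟩ := pc_decomp P hG g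
    have h1 : y * c' = c' * y := Subgroup.mem_centralizer_iff.mp hc' y hy
    have h2 : y' * c = c * y' := Subgroup.mem_centralizer_iff.mp hc y' hy'
    have h3 : y * c = c * y := Subgroup.mem_centralizer_iff.mp hc y hy
    have e : c * (y' * c') * y * (y' * c')⁻¹ = y' * (y * c) * y'⁻¹ := by
      calc c * (y' * c') * y * (y' * c')⁻¹ = c * y' * (c' * y) * c'⁻¹ * y'⁻¹ := by group
        _ = c * y' * (y * c') * c'⁻¹ * y'⁻¹ := by rw [h1]
        _ = (c * y') * y * y'⁻¹ := by group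
        _ = (y' * c) * y * y'⁻¹ := by rw [h2]
        _ = y' * (c * y) * y'⁻¹ := by group
        _ = y' * (y * c) * y'⁻¹ := by rw [h3]
    rw [e, irr_conj]
  rw [Finset.sum_congr rfl fun g _ => hterm g, Finset.sum_const, Finset.card_univ, nsmul_eq_mul,
    ← Nat.card_eq_fintype_card] at h
  have h5 : (χ : G → ℂ) (y * c) = (χ : G → ℂ) c * (χ : G → ℂ) y / (χ : G → ℂ) 1 := by
    have h6 : (Nat.card G : ℂ) * (χ : G → ℂ) (y * c)
        = (Nat.card G : ℂ) * ((χ : G → ℂ) c * (χ : G → ℂ) y / (χ : G → ℂ) 1) := by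
      rw [h]; ring
    exact mul_left_cancel₀ hG0 h6
  rw [h5]
  field_simp

/-- the restriction to `P` of an irreducible character of `P C_G(P)` is a multiple of one
irreducible character. -/
theorem pc_res (P : Subgroup G) [Fintype P] (hG : P ⊔ Subgroup.centralizer (P : Set G) = ⊤)
    (χ : IrrCharacter G) :
    ∃ (ζ : IrrCharacter P) (e : ℂ), ∀ y : P, (χ : G → ℂ) y = e * (ζ : P → ℂ) y := by
  classical
  have hPn := pc_normal P hG
  have hcf : IsClassFunction P (fun n : P => (χ : G → ℂ) n) := by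
    intro g h
    show (χ : G → ℂ) ((h * g * h⁻¹ : P) : G) = (χ : G → ℂ) g
    push_cast
    exact irr_conj χ _ _
  obtain ⟨ζ, hζ⟩ : ∃ ζ : IrrCharacter P,
      classInner (fun n : P => (χ : G → ℂ) n) (ζ : P → ℂ) ≠ 0 := by
    by_contra hno
    push_neg at hno
    have hdec := classFunction_eq_sum_irr _ hcf
    have h0 : (fun n : P => (χ : G → ℂ) n) = 0 := by
      rw [hdec]
      refine Finset.sum_eq_zero fun ζ _ => ?_
      rw [hno ζ, zero_smul]
    have h1 := congrFun h0 1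
    exact Cfsg.Agent.Helper5.irr_one_ne_zero χ h1
  have hcl := clifford_restrict P hPn (χ : G → ℂ) χ.2 (ζ : P → ℂ) ζ.2 hζ
  have hset : {ψ : P → ℂ | ∃ g : G, ψ = fun n : P =>
      (ζ : P → ℂ) ⟨g * n * g⁻¹, hPn.conj_mem n n.2 g⟩} = {(ζ : P → ℂ)} := by
    ext ψ
    constructor
    · rintro ⟨g, rfl⟩
      show (fun n : P => (ζ : P → ℂ) ⟨g * n * g⁻¹, hPn.conj_mem n n.2 g⟩) = (ζ : P → ℂ)
      funext n
      obtain ⟨y, hy, c, hc, rfl⟩ := pc_decomp P hG g
      have e : (⟨y * c * n * (y * c)⁻¹, hPn.conj_mem n n.2 (y * c)⟩ : P)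
          = ⟨y, hy⟩ * n * ⟨y, hy⟩⁻¹ := by
        apply Subtype.ext
        show y * c * n * (y * c)⁻¹ = y * n * y⁻¹
        have h1 : (n : G) * c = c * n := Subgroup.mem_centralizer_iff.mp hc n n.2
        calc y * c * n * (y * c)⁻¹ = y * (c * n) * c⁻¹ * y⁻¹ := by group
          _ = y * (n * c) * c⁻¹ * y⁻¹ := by rw [h1]
          _ = y * n * y⁻¹ := by group
      show (ζ : P → ℂ) ⟨y * c * n * (y * c)⁻¹, hPn.conj_mem n n.2 (y * c)⟩ = (ζ : P → ℂ) n
      rw [e, irr_conj]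
    · intro h
      rw [Set.mem_singleton_iff] at h
      refine ⟨1, ?_⟩
      rw [h]
      funext n
      exact congrArg (ζ : P → ℂ) (Subtype.ext (by show (n : G) = 1 * n * 1⁻¹; group))
  rw [hset, finsum_mem_singleton] at hcl
  exact ⟨ζ, classInner (fun n : P => (χ : G → ℂ) n) (ζ : P → ℂ), fun y => congrFun hcl y⟩

/-- the values of an irreducible character of `P C_G(P)` factor through an irreducible
character of `P`. -/
theorem pc_char_factor (P : Subgroup G) [Fintype P]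
    (hG : P ⊔ Subgroup.centralizer (P : Set G) = ⊤) (χ : IrrCharacter G) :
    ∃ ζ : IrrCharacter P, ∀ (y : P) (c : G), c ∈ Subgroup.centralizer (P : Set G) →
      (χ : G → ℂ) ((y : G) * c) = (ζ : P → ℂ) y * (χ : G → ℂ) c / (ζ : P → ℂ) 1 := by
  obtain ⟨ζ, e, he⟩ := pc_res P hG χ
  refine ⟨ζ, fun y c hc => ?_⟩
  have h10 := Cfsg.Agent.Helper5.irr_one_ne_zero χ
  have hζ10 := Cfsg.Agent.Helper5.irr_one_ne_zero ζ
  have h1 := pc_char_mul P hG χ y y.2 c hc
  have h2 := he y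
  have h3 : (χ : G → ℂ) 1 = e * (ζ : P → ℂ) 1 := by
    have h := he 1
    rwa [Subgroup.coe_one] at h
  have he0 : e ≠ 0 := by
    rintro rfl
    rw [zero_mul] at h3
    exact h10 h3
  rw [h2, h3] at h1
  rw [eq_div_iff hζ10]
  have h4 : e * ((χ : G → ℂ) ((y : G) * c) * (ζ : P → ℂ) 1)
      = e * ((ζ : P → ℂ) y * (χ : G → ℂ) c) := by
    linear_combination h1
  exact mul_left_cancel₀ he0 h4

/-- Fourier inversion: a combination of conjugate irreducible characters vanishing off `1`. -/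
theorem irr_fourier_delta {H : Type u} [Group H] [Fintype H] (a : IrrCharacter H → ℂ)
    (h : ∀ y : H, y ≠ 1 → ∑ ζ : IrrCharacter H, a ζ * starRingEnd ℂ ((ζ : H → ℂ) y) = 0)
    (t : IrrCharacter H) (ht : ∀ y : H, (t : H → ℂ) y = 1) (ζ₁ : IrrCharacter H) :
    a ζ₁ = (ζ₁ : H → ℂ) 1 * a t := by
  classical
  have hH0 : (Nat.card H : ℂ) ≠ 0 := Nat.cast_ne_zero.mpr Nat.card_pos.ne'
  obtain ⟨F, hF⟩ : ∃ F : H → ℂ, F = fun y =>
      ∑ ζ : IrrCharacter H, a ζ * starRingEnd ℂ ((ζ : H → ℂ) y) := ⟨_, rfl⟩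
  have hFy : ∀ y, F y = ∑ ζ : IrrCharacter H, a ζ * starRingEnd ℂ ((ζ : H → ℂ) y) :=
    fun y => by rw [hF]
  have key : ∀ ξ : IrrCharacter H, a ξ = (Nat.card H : ℂ)⁻¹ * (F 1 * (ξ : H → ℂ) 1) := by
    intro ξ
    have h1 : ∑ y : H, F y * (ξ : H → ℂ) y = F 1 * (ξ : H → ℂ) 1 := by
      refine Finset.sum_eq_single 1 (fun y _ hy => ?_) (fun h => absurd (Finset.mem_univ _) h)
      rw [hFy, h y hy, zero_mul]
    have h2 : ∑ y : H, F y * (ξ : H → ℂ) y = (Nat.card H : ℂ) * a ξ := by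
      calc ∑ y : H, F y * (ξ : H → ℂ) y
          = ∑ ζ : IrrCharacter H, a ζ *
              ∑ y : H, (ξ : H → ℂ) y * starRingEnd ℂ ((ζ : H → ℂ) y) := by
            simp only [hFy, Finset.sum_mul, Finset.mul_sum]
            rw [Finset.sum_comm]
            refine Finset.sum_congr rfl fun ζ _ => Finset.sum_congr rfl fun y _ => by ring
        _ = ∑ ζ : IrrCharacter H, a ζ * ((Nat.card H : ℂ) * if ξ = ζ then 1 else 0) := by
            refine Finset.sum_congr rfl fun ζ _ => ?_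
            have ho := irr_orthonormal ξ ζ
            rw [classInner_def'] at ho
            rw [← ho, ← mul_assoc (Nat.card H : ℂ), mul_inv_cancel₀ hH0, one_mul]
        _ = (Nat.card H : ℂ) * a ξ := by
            rw [Finset.sum_eq_single ξ]
            · rw [if_pos rfl]; ring
            · intro ζ _ hne; rw [if_neg (Ne.symm hne)]; ring
            · intro h; exact absurd (Finset.mem_univ _) h
    rw [← h1, h2, ← mul_assoc, inv_mul_cancel₀ hH0, one_mul]
  rw [key ζ₁, key t, ht 1]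
  ring

/-- the unique character of the block trivial on `P`, and its degree. -/
theorem pc_theta {p : ℕ} [Fact p.Prime] {M : Ideal AlgInt} (hM : IsPModular p M)
    [hMp : M.IsPrime] (P : Subgroup G) (hP : IsPGroup p P)
    (hG : P ⊔ Subgroup.centralizer (P : Set G) = ⊤) (χ₀ : IrrCharacter G)
    (hD : IsDefectGroup p M (blockOf M (χ₀ : G → ℂ)) P) :
    (∃ θ ∈ blockOf M (χ₀ : G → ℂ), ∀ x ∈ P, (θ : G → ℂ) x = (θ : G → ℂ) 1) ∧
    (∀ θ ∈ blockOf M (χ₀ : G → ℂ), (∀ x ∈ P, (θ : G → ℂ) x = (θ : G → ℂ) 1) →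
      (charDegree (θ : G → ℂ)).factorization p = P.index.factorization p) ∧
    (∀ θ ∈ blockOf M (χ₀ : G → ℂ), ∀ θ' ∈ blockOf M (χ₀ : G → ℂ),
      (∀ x ∈ P, (θ : G → ℂ) x = (θ : G → ℂ) 1) →
      (∀ x ∈ P, (θ' : G → ℂ) x = (θ' : G → ℂ) 1) → θ = θ') := by
  classical
  have hp : p.Prime := Fact.out
  haveI hPn := pc_normal P hG
  haveI : Fintype (G ⧸ P) := Fintype.ofFinite _
  have hq := quot_blocks hM P hP (pc_index P hP hG)
  have hsurj : Function.Surjective (QuotientGroup.mk' P) := QuotientGroup.mk'_surjective P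
  have hdeg : ∀ θ ∈ blockOf M (χ₀ : G → ℂ),
      ∀ ψ : IrrCharacter (G ⧸ P),
      (∀ g : G, (θ : G → ℂ) g = (ψ : G ⧸ P → ℂ) (QuotientGroup.mk' P g)) →
      (charDegree (θ : G → ℂ)).factorization p = P.index.factorization p ∧
      (charDegree (ψ : G ⧸ P → ℂ)).factorization p
        = (Nat.card (G ⧸ P)).factorization p := by
    intro θ hθ ψ hψ
    obtain ⟨hψ1, hψ0, hψdvd⟩ := irr_charDegree_spec ψ
    have hdegeq : charDegree (θ : G → ℂ) = charDegree (ψ : G ⧸ P → ℂ) := by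
      have h1 := hψ 1
      rw [map_one] at h1
      unfold charDegree
      rw [h1]
    have hidx : Nat.card (G ⧸ P) = P.index := (Subgroup.index_eq_card P).symm
    have hle : (charDegree (ψ : G ⧸ P → ℂ)).factorization p
        ≤ (Nat.card (G ⧸ P)).factorization p :=
      (Nat.factorization_le_iff_dvd hψ0 Nat.card_pos.ne').mpr hψdvd p
    have hcardP := card_defect_group hM χ₀ P hD
    have hdef := block_defect_eq (M := M) p χ₀
    have hinf : sInf ((fun ψ : IrrCharacter G => (charDegree (ψ : G → ℂ)).factorization p) ''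
        blockOf M (χ₀ : G → ℂ)) ≤ (charDegree (θ : G → ℂ)).factorization p :=
      Nat.sInf_le ⟨θ, hθ, rfl⟩
    have hmul : Nat.card G = Nat.card P * P.index := (Subgroup.card_mul_index P).symm
    have hpow : (p ^ blockDefect p (blockOf M (χ₀ : G → ℂ))).factorization p
        = blockDefect p (blockOf M (χ₀ : G → ℂ)) := by
      rw [hp.factorization_pow, Finsupp.single_eq_same]
    have hfac : (Nat.card G).factorization p
        = blockDefect p (blockOf M (χ₀ : G → ℂ)) + P.index.factorization p := by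
      rw [hmul, Nat.factorization_mul Nat.card_pos.ne' Subgroup.index_ne_zero_of_finite,
        Finsupp.add_apply, hcardP, hpow]
    rw [hidx] at hle ⊢
    rw [← hdegeq] at hle ⊢
    constructor <;> omega
  have hker : ∀ θ : IrrCharacter G, (∀ x ∈ P, (θ : G → ℂ) x = (θ : G → ℂ) 1) →
      ∃ ψ : IrrCharacter (G ⧸ P),
        ∀ g : G, (θ : G → ℂ) g = (ψ : G ⧸ P → ℂ) (QuotientGroup.mk' P g) := by
    intro θ hθP
    refine exists_irr_of_ker (QuotientGroup.mk' P) hsurj θ (fun u hu => hθP u ?_)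
    have h : u ∈ (QuotientGroup.mk' P).ker := hu
    rwa [QuotientGroup.ker_mk'] at h
  refine ⟨?_, ?_, ?_⟩
  · obtain ⟨ψ, θ, hθ, hθeq⟩ := hq.2 χ₀
    refine ⟨θ, hθ, fun x hx => ?_⟩
    rw [hθeq]
    show (ψ : G ⧸ P → ℂ) (QuotientGroup.mk x) = (ψ : G ⧸ P → ℂ) (QuotientGroup.mk 1)
    rw [(QuotientGroup.eq_one_iff x).mpr hx, QuotientGroup.mk_one]
  · intro θ hθ hθP
    obtain ⟨ψ, hψ⟩ := hker θ hθP
    exact (hdeg θ hθ ψ hψ).1
  · intro θ hθ θ' hθ' hθP hθ'P
    obtain ⟨ψ, hψ⟩ := hker θ hθP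
    obtain ⟨ψ', hψ'⟩ := hker θ' hθ'P
    have hsame : SameBlock M (θ : G → ℂ) (θ' : G → ℂ) := sameBlock_trans (sameBlock_symm hθ) hθ'
    have e1 : (ψ : G ⧸ P → ℂ) ∘ QuotientGroup.mk = (θ : G → ℂ) := funext fun g => (hψ g).symm
    have e2 : (ψ' : G ⧸ P → ℂ) ∘ QuotientGroup.mk = (θ' : G → ℂ) :=
      funext fun g => (hψ' g).symm
    have hsame' : SameBlock M (ψ : G ⧸ P → ℂ) (ψ' : G ⧸ P → ℂ) := by
      rw [hq.1 ψ ψ', e1, e2]; exact hsame
    have hz := (hdeg θ hθ ψ hψ).2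
    have hdz : ¬ p ∣ Nat.card (G ⧸ P) / charDegree (ψ : G ⧸ P → ℂ) := by
      obtain ⟨hψ1, hψ0, hψdvd⟩ := irr_charDegree_spec ψ
      obtain ⟨m, hm⟩ := hψdvd
      intro hdvd
      rw [hm, Nat.mul_div_cancel_left _ (Nat.pos_of_ne_zero hψ0)] at hdvd
      have hm0 : m ≠ 0 := by
        rintro rfl
        rw [mul_zero] at hm
        exact Nat.card_pos.ne' hm
      rw [hm, Nat.factorization_mul hψ0 hm0, Finsupp.add_apply] at hz
      have : 0 < m.factorization p := hp.factorization_pos_of_dvd hm0 hdvd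
      omega
    have hblk := (defect_zero_iff hM ψ).mp hdz
    have hmem : ψ' ∈ blockOf M (ψ : G ⧸ P → ℂ) := hsame'
    rw [hblk, Set.mem_singleton_iff] at hmem
    apply Subtype.ext
    funext g
    rw [hψ g, hψ' g, hmem]

/-- the characters of a block of `G = P C_G(P)` with defect group `P` are parametrized by the
irreducible characters of `P`. -/
theorem pc_block_struct {p : ℕ} [Fact p.Prime] {M : Ideal AlgInt} (hM : IsPModular p M)
    [hMp : M.IsPrime] (P : Subgroup G) [Fintype P] (hP : IsPGroup p P)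
    (hG : P ⊔ Subgroup.centralizer (P : Set G) = ⊤) (χ₀ : IrrCharacter G)
    (hD : IsDefectGroup p M (blockOf M (χ₀ : G → ℂ)) P)
    (θ : IrrCharacter G) (hθB : θ ∈ blockOf M (χ₀ : G → ℂ))
    (hθP : ∀ x ∈ P, (θ : G → ℂ) x = (θ : G → ℂ) 1)
    (huniq : ∀ θ' ∈ blockOf M (χ₀ : G → ℂ),
      (∀ x ∈ P, (θ' : G → ℂ) x = (θ' : G → ℂ) 1) → θ' = θ) :
    ∃ zet : IrrCharacter G → IrrCharacter P,
      (∀ χ ∈ blockOf M (χ₀ : G → ℂ), ∀ (y : P) (c : G), ¬ p ∣ orderOf c →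
        (χ : G → ℂ) ((y : G) * c) = (zet χ : P → ℂ) y * (θ : G → ℂ) c) ∧
      (∀ ζ : IrrCharacter P, ∃ χ ∈ blockOf M (χ₀ : G → ℂ), zet χ = ζ) ∧
      (∀ χ ∈ blockOf M (χ₀ : G → ℂ), ∀ χ' ∈ blockOf M (χ₀ : G → ℂ),
        zet χ = zet χ' → χ = χ') := by
  classical
  have hp : p.Prime := Fact.out
  haveI hPn := pc_normal P hG
  choose zet hzet using fun χ : IrrCharacter G => pc_char_factor P hG χ
  have hG0 : (Nat.card G : ℂ) ≠ 0 := Nat.cast_ne_zero.mpr Nat.card_pos.ne'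
  have hP0 : (Nat.card P : ℂ) ≠ 0 := Nat.cast_ne_zero.mpr Nat.card_pos.ne'
  have hregC : ∀ c : G, ¬ p ∣ orderOf c → c ∈ Subgroup.centralizer (P : Set G) :=
    fun c hc => pc_regular_mem hp P hP hG c hc
  have hreal : ∀ ζ : IrrCharacter P, starRingEnd ℂ ((ζ : P → ℂ) 1) = (ζ : P → ℂ) 1 := by
    intro ζ
    obtain ⟨n, -, hn⟩ := irr_one_eq_natCast_pos ζ
    rw [hn, Complex.conj_natCast]
  have hζ0 : ∀ ζ : IrrCharacter P, (ζ : P → ℂ) 1 ≠ 0 :=
    fun ζ => Cfsg.Agent.Helper5.irr_one_ne_zero ζ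
  obtain ⟨t, ht⟩ : ∃ t : IrrCharacter P, ∀ y : P, (t : P → ℂ) y = 1 :=
    ⟨⟨fun _ => 1, Cfsg.Agent.Helper24.isIrrCharacter_one⟩, fun _ => rfl⟩
  have htriv : ∀ χ : IrrCharacter G, (χ ∈ blockOf M (χ₀ : G → ℂ) ∧ zet χ = t) ↔ χ = θ := by
    intro χ
    constructor
    · rintro ⟨hχ, hz⟩
      refine huniq χ hχ fun x hx => ?_
      have h := hzet χ ⟨x, hx⟩ 1 (Subgroup.one_mem _)
      rw [hz, ht, ht, mul_one, one_mul, div_one] at h
      exact h
    · rintro rfl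
      refine ⟨hθB, ?_⟩
      have hconst : ∀ y : P, (zet χ : P → ℂ) y = (zet χ : P → ℂ) 1 := by
        intro y
        have h := hzet χ y 1 (Subgroup.one_mem _)
        rw [mul_one, hθP y y.2] at h
        have h10 := Cfsg.Agent.Helper5.irr_one_ne_zero χ
        have h2 : (χ : G → ℂ) 1 * (zet χ : P → ℂ) 1 = (zet χ : P → ℂ) y * (χ : G → ℂ) 1 := by
          rw [eq_div_iff (hζ0 _)] at h; exact h
        have h3 : (χ : G → ℂ) 1 * (zet χ : P → ℂ) 1 = (χ : G → ℂ) 1 * (zet χ : P → ℂ) y := by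
          rw [h2]; ring
        exact (mul_left_cancel₀ h10 h3).symm
      by_contra hne
      have ho := irr_orthonormal (zet χ) t
      rw [if_neg hne, classInner_def'] at ho
      have hs : ∑ g : P, (zet χ : P → ℂ) g * starRingEnd ℂ ((t : P → ℂ) g)
          = (Nat.card P : ℂ) * (zet χ : P → ℂ) 1 := by
        rw [Finset.sum_congr rfl fun g _ => by rw [hconst g, ht g, map_one, mul_one],
          Finset.sum_const, Finset.card_univ, nsmul_eq_mul, ← Nat.card_eq_fintype_card]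
      rw [hs, ← mul_assoc, inv_mul_cancel₀ hP0, one_mul] at ho
      exact hζ0 _ ho
  have hwbo : ∀ c c' : G, ¬ p ∣ orderOf c → ¬ p ∣ orderOf c' → ∀ y : P, y ≠ 1 →
      ∑ χ : IrrCharacter G, (if χ ∈ blockOf M (χ₀ : G → ℂ) then
        (χ : G → ℂ) c * starRingEnd ℂ ((χ : G → ℂ) ((y : G) * c')) else 0) = 0 := by
    intro c c' hc hc' y hy
    have hy1 : (y : G) ≠ 1 := fun h => hy (Subtype.ext h)
    have hsing := pc_singular hp P hP hG (y : G) y.2 hy1 c' hc'
    have h := weak_block_orth hM χ₀ c ((y : G) * c') hc hsing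
    rw [finsum_mem_eq_sum_ite'] at h
    exact h
  have hstar : ∀ c c' : G, ¬ p ∣ orderOf c → ¬ p ∣ orderOf c' → ∀ ζ : IrrCharacter P,
      ∑ χ : IrrCharacter G, (if (χ ∈ blockOf M (χ₀ : G → ℂ) ∧ zet χ = ζ) then
        (χ : G → ℂ) c * starRingEnd ℂ ((χ : G → ℂ) c') else 0)
      = (ζ : P → ℂ) 1 ^ 2 * ((θ : G → ℂ) c * starRingEnd ℂ ((θ : G → ℂ) c')) := by
    intro c c' hc hc' ζ
    obtain ⟨a, ha⟩ : ∃ a : IrrCharacter P → ℂ, a = fun ζ : IrrCharacter P =>
        ∑ χ : IrrCharacter G, (if (χ ∈ blockOf M (χ₀ : G → ℂ) ∧ zet χ = ζ) then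
          (χ : G → ℂ) c * starRingEnd ℂ ((χ : G → ℂ) c') / (ζ : P → ℂ) 1 else 0) := ⟨_, rfl⟩
    have haζ : ∀ ζ : IrrCharacter P, a ζ = ∑ χ : IrrCharacter G,
        (if (χ ∈ blockOf M (χ₀ : G → ℂ) ∧ zet χ = ζ) then
          (χ : G → ℂ) c * starRingEnd ℂ ((χ : G → ℂ) c') / (ζ : P → ℂ) 1 else 0) :=
      fun ζ => by rw [ha]
    have hvan : ∀ y : P, y ≠ 1 →
        ∑ ζ : IrrCharacter P, a ζ * starRingEnd ℂ ((ζ : P → ℂ) y) = 0 := by
      intro y hy
      rw [← hwbo c c' hc hc' y hy]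
      simp only [haζ, Finset.sum_mul]
      rw [Finset.sum_comm]
      refine Finset.sum_congr rfl fun χ _ => ?_
      by_cases hχ : χ ∈ blockOf M (χ₀ : G → ℂ)
      · rw [if_pos hχ, Finset.sum_eq_single (zet χ)]
        · rw [if_pos ⟨hχ, rfl⟩, hzet χ y c' (hregC c' hc'), map_div₀, map_mul, hreal]
          ring
        · intro ζ' _ hne
          rw [if_neg (fun h => hne h.2.symm), zero_mul]
        · intro h; exact absurd (Finset.mem_univ _) h
      · rw [if_neg hχ]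
        refine Finset.sum_eq_zero fun ζ' _ => ?_
        rw [if_neg (fun h => hχ h.1), zero_mul]
    have hf := irr_fourier_delta a hvan t ht ζ
    have hat : a t = (θ : G → ℂ) c * starRingEnd ℂ ((θ : G → ℂ) c') := by
      rw [haζ, Finset.sum_eq_single θ]
      · rw [if_pos ((htriv θ).mpr rfl), ht, div_one]
      · intro χ _ hne
        rw [if_neg (fun h => hne ((htriv χ).mp h))]
      · intro h; exact absurd (Finset.mem_univ _) h
    have h1 : ∑ χ : IrrCharacter G, (if (χ ∈ blockOf M (χ₀ : G → ℂ) ∧ zet χ = ζ) then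
        (χ : G → ℂ) c * starRingEnd ℂ ((χ : G → ℂ) c') else 0) = (ζ : P → ℂ) 1 * a ζ := by
      rw [haζ, Finset.mul_sum]
      refine Finset.sum_congr rfl fun χ _ => ?_
      by_cases h : χ ∈ blockOf M (χ₀ : G → ℂ) ∧ zet χ = ζ
      · rw [if_pos h, if_pos h]
        have := hζ0 ζ
        field_simp
      · rw [if_neg h, if_neg h, mul_zero]
    rw [h1, hf, hat]
    ring
  have hdefP : ∀ D : Subgroup G, IsDefectGroup p M (blockOf M (χ₀ : G → ℂ)) D → D = P := by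
    intro D hD'
    have h1 := normal_pGroup_le_defect hM χ₀ P hP D hD'
    have h2 := card_defect_group hM χ₀ D hD'
    have h3 := card_defect_group hM χ₀ P hD
    exact (Subgroup.eq_of_le_of_card_ge h1 (by rw [h2, h3])).symm
  have hvanB : ∀ χ ∈ blockOf M (χ₀ : G → ℂ), ∀ g x : G, IsPPart p g x → x ∉ P →
      (χ : G → ℂ) g = 0 := by
    intro χ hχ g x hx hxP
    refine vanish_of_ppart hM χ g x hx fun D hD' => ?_
    have e : blockOf M (χ₀ : G → ℂ) = blockOf M (χ : G → ℂ) := blockOf_eq_of_sameBlock hχ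
    rw [← e] at hD'
    rw [hdefP D hD']
    exact hxP
  obtain ⟨R, hR⟩ : ∃ R : IrrCharacter G → IrrCharacter G → ℂ,
      R = fun χ χ' : IrrCharacter G =>
      ∑ c : G, if p ∣ orderOf c then (0 : ℂ)
        else (χ : G → ℂ) c * starRingEnd ℂ ((χ' : G → ℂ) c) := ⟨_, rfl⟩
  have hRdef : ∀ χ χ' : IrrCharacter G, R χ χ' = ∑ c : G, if p ∣ orderOf c then (0 : ℂ)
      else (χ : G → ℂ) c * starRingEnd ℂ ((χ' : G → ℂ) c) := fun χ χ' => by rw [hR]
  have horth : ∀ χ ∈ blockOf M (χ₀ : G → ℂ), ∀ χ' ∈ blockOf M (χ₀ : G → ℂ), zet χ = zet χ' →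
      (Nat.card P : ℂ) * R χ χ'
        = (if χ = χ' then 1 else 0) * ((Nat.card G : ℂ) * (zet χ : P → ℂ) 1 ^ 2) := by
    intro χ hχ χ' hχ' hz
    have ho := irr_orthonormal χ χ'
    rw [classInner_def'] at ho
    have hsum : ∑ g : G, (χ : G → ℂ) g * starRingEnd ℂ ((χ' : G → ℂ) g)
        = (Nat.card G : ℂ) * (if χ = χ' then 1 else 0) := by
      rw [← ho, ← mul_assoc, mul_inv_cancel₀ hG0, one_mul]
    have hpar : ∑ g : G, (χ : G → ℂ) g * starRingEnd ℂ ((χ' : G → ℂ) g)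
        = ∑ z : P, ∑ c : G, if p ∣ orderOf c then (0 : ℂ) else
          (χ : G → ℂ) ((z : G) * c) * starRingEnd ℂ ((χ' : G → ℂ) ((z : G) * c)) :=
      pc_sum_param hp P hP hG (fun g => (χ : G → ℂ) g * starRingEnd ℂ ((χ' : G → ℂ) g))
        (fun g x hx hxP => by
          show (χ : G → ℂ) g * starRingEnd ℂ ((χ' : G → ℂ) g) = 0
          rw [hvanB χ hχ g x hx hxP, zero_mul])
    have hoP := irr_orthonormal (zet χ) (zet χ)
    rw [if_pos rfl, classInner_def'] at hoP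
    have hsumP : ∑ z : P, (zet χ : P → ℂ) z * starRingEnd ℂ ((zet χ : P → ℂ) z)
        = (Nat.card P : ℂ) := by
      have h := congrArg (fun t => (Nat.card P : ℂ) * t) hoP
      beta_reduce at h
      rwa [← mul_assoc, mul_inv_cancel₀ hP0, one_mul, mul_one] at h
    have hinner : ∀ z : P, ∑ c : G, (if p ∣ orderOf c then (0 : ℂ) else
        (χ : G → ℂ) ((z : G) * c) * starRingEnd ℂ ((χ' : G → ℂ) ((z : G) * c)))
        = (zet χ : P → ℂ) z * starRingEnd ℂ ((zet χ : P → ℂ) z) / (zet χ : P → ℂ) 1 ^ 2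
          * R χ χ' := by
      intro z
      rw [hRdef, Finset.mul_sum]
      refine Finset.sum_congr rfl fun c _ => ?_
      by_cases hc : p ∣ orderOf c
      · rw [if_pos hc, if_pos hc, mul_zero]
      · rw [if_neg hc, if_neg hc, hzet χ z c (hregC c hc), hzet χ' z c (hregC c hc), ← hz,
          map_div₀, map_mul, hreal]
        have := hζ0 (zet χ)
        field_simp
    rw [hsum, Finset.sum_congr rfl fun z _ => hinner z, ← Finset.sum_mul, ← Finset.sum_div,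
      hsumP] at hpar
    have hζ2 : (zet χ : P → ℂ) 1 ^ 2 ≠ 0 := pow_ne_zero 2 (hζ0 _)
    have h2 : (Nat.card P : ℂ) * R χ χ'
        = (Nat.card G : ℂ) * (if χ = χ' then 1 else 0) * (zet χ : P → ℂ) 1 ^ 2 := by
      rw [hpar]
      have hz1 := hζ0 (zet χ)
      field_simp
    rw [h2]
    ring
  have hprop : ∀ χ₁ ∈ blockOf M (χ₀ : G → ℂ), ∀ c' : G, ¬ p ∣ orderOf c' →
      (Nat.card G : ℂ) * starRingEnd ℂ ((χ₁ : G → ℂ) c')
        = (Nat.card P : ℂ) * R θ χ₁ * starRingEnd ℂ ((θ : G → ℂ) c') := by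
    intro χ₁ hχ₁ c' hc'
    obtain ⟨ζ, hζ⟩ : ∃ ζ, ζ = zet χ₁ := ⟨_, rfl⟩
    have hA : ∑ c : G, (if p ∣ orderOf c then (0 : ℂ) else
        (∑ χ : IrrCharacter G, (if (χ ∈ blockOf M (χ₀ : G → ℂ) ∧ zet χ = ζ) then
          (χ : G → ℂ) c * starRingEnd ℂ ((χ : G → ℂ) c') else 0))
            * starRingEnd ℂ ((χ₁ : G → ℂ) c))
        = ∑ c : G, (if p ∣ orderOf c then (0 : ℂ) else
          ((ζ : P → ℂ) 1 ^ 2 * ((θ : G → ℂ) c * starRingEnd ℂ ((θ : G → ℂ) c')))
            * starRingEnd ℂ ((χ₁ : G → ℂ) c)) := by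
      refine Finset.sum_congr rfl fun c _ => ?_
      by_cases hc : p ∣ orderOf c
      · rw [if_pos hc, if_pos hc]
      · rw [if_neg hc, if_neg hc, hstar c c' hc hc' ζ]
    have hL : ∑ c : G, (if p ∣ orderOf c then (0 : ℂ) else
        (∑ χ : IrrCharacter G, (if (χ ∈ blockOf M (χ₀ : G → ℂ) ∧ zet χ = ζ) then
          (χ : G → ℂ) c * starRingEnd ℂ ((χ : G → ℂ) c') else 0))
            * starRingEnd ℂ ((χ₁ : G → ℂ) c))
        = ∑ χ : IrrCharacter G, (if (χ ∈ blockOf M (χ₀ : G → ℂ) ∧ zet χ = ζ) then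
            R χ χ₁ * starRingEnd ℂ ((χ : G → ℂ) c') else 0) := by
      have e1 : ∀ c : G, (if p ∣ orderOf c then (0 : ℂ) else
          (∑ χ : IrrCharacter G, (if (χ ∈ blockOf M (χ₀ : G → ℂ) ∧ zet χ = ζ) then
            (χ : G → ℂ) c * starRingEnd ℂ ((χ : G → ℂ) c') else 0))
              * starRingEnd ℂ ((χ₁ : G → ℂ) c))
          = ∑ χ : IrrCharacter G, (if (χ ∈ blockOf M (χ₀ : G → ℂ) ∧ zet χ = ζ) then
            (if p ∣ orderOf c then (0 : ℂ) else
              (χ : G → ℂ) c * starRingEnd ℂ ((χ₁ : G → ℂ) c))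
                * starRingEnd ℂ ((χ : G → ℂ) c') else 0) := by
        intro c
        by_cases hc : p ∣ orderOf c
        · simp only [if_pos hc, zero_mul, ite_self, Finset.sum_const_zero]
        · simp only [if_neg hc]
          rw [Finset.sum_mul]
          refine Finset.sum_congr rfl fun χ _ => ?_
          by_cases h : χ ∈ blockOf M (χ₀ : G → ℂ) ∧ zet χ = ζ
          · rw [if_pos h, if_pos h]; ring
          · rw [if_neg h, if_neg h, zero_mul]
      rw [Finset.sum_congr rfl fun c _ => e1 c, Finset.sum_comm]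
      refine Finset.sum_congr rfl fun χ _ => ?_
      by_cases h : χ ∈ blockOf M (χ₀ : G → ℂ) ∧ zet χ = ζ
      · simp only [if_pos h]
        rw [hRdef, Finset.sum_mul]
      · simp only [if_neg h, Finset.sum_const_zero]
    have hL2 : ∑ χ : IrrCharacter G, (if (χ ∈ blockOf M (χ₀ : G → ℂ) ∧ zet χ = ζ) then
        R χ χ₁ * starRingEnd ℂ ((χ : G → ℂ) c') else 0)
        = R χ₁ χ₁ * starRingEnd ℂ ((χ₁ : G → ℂ) c') := by
      rw [Finset.sum_eq_single χ₁]
      · rw [if_pos ⟨hχ₁, hζ.symm⟩]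
      · intro χ _ hne
        by_cases h : χ ∈ blockOf M (χ₀ : G → ℂ) ∧ zet χ = ζ
        · rw [if_pos h]
          have h' := horth χ h.1 χ₁ hχ₁ (by rw [h.2, hζ])
          rw [if_neg hne, zero_mul] at h'
          have hR0 : R χ χ₁ = 0 := by
            rcases mul_eq_zero.mp h' with h'' | h''
            · exact absurd h'' hP0
            · exact h''
          rw [hR0, zero_mul]
        · rw [if_neg h]
      · intro h; exact absurd (Finset.mem_univ _) h
    have hRr : ∑ c : G, (if p ∣ orderOf c then (0 : ℂ) else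
        ((ζ : P → ℂ) 1 ^ 2 * ((θ : G → ℂ) c * starRingEnd ℂ ((θ : G → ℂ) c')))
          * starRingEnd ℂ ((χ₁ : G → ℂ) c))
        = (ζ : P → ℂ) 1 ^ 2 * starRingEnd ℂ ((θ : G → ℂ) c') * R θ χ₁ := by
      rw [hRdef, Finset.mul_sum]
      refine Finset.sum_congr rfl fun c _ => ?_
      by_cases hc : p ∣ orderOf c
      · rw [if_pos hc, if_pos hc, mul_zero]
      · rw [if_neg hc, if_neg hc]; ring
    have hmain : R χ₁ χ₁ * starRingEnd ℂ ((χ₁ : G → ℂ) c')
        = (ζ : P → ℂ) 1 ^ 2 * starRingEnd ℂ ((θ : G → ℂ) c') * R θ χ₁ := by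
      rw [← hL2, ← hL, hA, hRr]
    have hK := horth χ₁ hχ₁ χ₁ hχ₁ rfl
    rw [if_pos rfl, one_mul, ← hζ] at hK
    have hζ2 : (ζ : P → ℂ) 1 ^ 2 ≠ 0 := pow_ne_zero 2 (hζ0 ζ)
    have h3 : (ζ : P → ℂ) 1 ^ 2 * ((Nat.card G : ℂ) * starRingEnd ℂ ((χ₁ : G → ℂ) c'))
        = (ζ : P → ℂ) 1 ^ 2
          * ((Nat.card P : ℂ) * R θ χ₁ * starRingEnd ℂ ((θ : G → ℂ) c')) := by
      linear_combination (Nat.card P : ℂ) * hmain - starRingEnd ℂ ((χ₁ : G → ℂ) c') * hK
    exact mul_left_cancel₀ hζ2 h3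
  have hmu : ∀ χ₁ ∈ blockOf M (χ₀ : G → ℂ), ∃ μ : ℂ, ∀ c' : G, ¬ p ∣ orderOf c' →
      (χ₁ : G → ℂ) c' = μ * (θ : G → ℂ) c' := by
    intro χ₁ hχ₁
    refine ⟨starRingEnd ℂ ((Nat.card P : ℂ) * R θ χ₁ / (Nat.card G : ℂ)), fun c' hc' => ?_⟩
    have h := hprop χ₁ hχ₁ c' hc'
    have h2 : starRingEnd ℂ ((χ₁ : G → ℂ) c')
        = (Nat.card P : ℂ) * R θ χ₁ / (Nat.card G : ℂ) * starRingEnd ℂ ((θ : G → ℂ) c') := by
      rw [div_mul_eq_mul_div, eq_div_iff hG0, mul_comm]; exact h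
    have h3 := congrArg (starRingEnd ℂ) h2
    rw [Complex.conj_conj, map_mul, Complex.conj_conj] at h3
    exact h3
  have h1reg : ¬ p ∣ orderOf (1 : G) := by
    rw [orderOf_one]
    exact hp.one_lt.ne' ∘ Nat.dvd_one.mp
  have hθ10 := Cfsg.Agent.Helper5.irr_one_ne_zero θ
  have hRmu : ∀ χa χb : IrrCharacter G, ∀ μa μb : ℂ,
      (∀ c : G, ¬ p ∣ orderOf c → (χa : G → ℂ) c = μa * (θ : G → ℂ) c) →
      (∀ c : G, ¬ p ∣ orderOf c → (χb : G → ℂ) c = μb * (θ : G → ℂ) c) →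
      R χa χb = μa * starRingEnd ℂ μb * R θ θ := by
    intro χa χb μa μb ha hb
    rw [hRdef, hRdef, Finset.mul_sum]
    refine Finset.sum_congr rfl fun c _ => ?_
    by_cases hc : p ∣ orderOf c
    · rw [if_pos hc, if_pos hc, mul_zero]
    · rw [if_neg hc, if_neg hc, ha c hc, hb c hc, map_mul]; ring
  have hmu0 : ∀ χ : IrrCharacter G, ∀ μ : ℂ,
      (∀ c : G, ¬ p ∣ orderOf c → (χ : G → ℂ) c = μ * (θ : G → ℂ) c) → μ ≠ 0 := by
    rintro χ μ hμ rfl
    have h := hμ 1 h1reg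
    rw [zero_mul] at h
    exact Cfsg.Agent.Helper5.irr_one_ne_zero χ h
  have huniqζ : ∀ χ ∈ blockOf M (χ₀ : G → ℂ), ∀ χ' ∈ blockOf M (χ₀ : G → ℂ),
      zet χ = zet χ' → χ = χ' := by
    intro χ hχ χ' hχ' hz
    by_contra hne
    obtain ⟨μ, hμ⟩ := hmu χ hχ
    obtain ⟨μ', hμ'⟩ := hmu χ' hχ'
    have hμ0 := hmu0 χ μ hμ
    have hμ'0 := hmu0 χ' μ' hμ'
    have h11 := horth χ hχ χ hχ rfl
    rw [if_pos rfl, one_mul, hRmu χ χ μ μ hμ hμ] at h11
    have hRθ : R θ θ ≠ 0 := by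
      intro h0
      rw [h0, mul_zero, mul_zero] at h11
      exact mul_ne_zero hG0 (pow_ne_zero 2 (hζ0 _)) h11.symm
    have h12 := horth χ hχ χ' hχ' hz
    rw [if_neg hne, zero_mul, hRmu χ χ' μ μ' hμ hμ'] at h12
    exact mul_ne_zero hP0
      (mul_ne_zero (mul_ne_zero hμ0 ((map_ne_zero _).mpr hμ'0)) hRθ) h12
  have hex : ∀ ζ : IrrCharacter P, ∃ χ ∈ blockOf M (χ₀ : G → ℂ), zet χ = ζ := by
    intro ζ
    by_contra hno
    push_neg at hno
    have h := hstar 1 1 h1reg h1reg ζ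
    rw [Finset.sum_eq_zero (fun χ _ => if_neg (fun hc => hno χ hc.1 hc.2))] at h
    exact mul_ne_zero (pow_ne_zero 2 (hζ0 ζ))
      (mul_ne_zero hθ10 ((map_ne_zero _).mpr hθ10)) h.symm
  have hformula : ∀ χ ∈ blockOf M (χ₀ : G → ℂ), ∀ (y : P) (c : G), ¬ p ∣ orderOf c →
      (χ : G → ℂ) ((y : G) * c) = (zet χ : P → ℂ) y * (θ : G → ℂ) c := by
    intro χ hχ y c hc
    obtain ⟨μ, hμ⟩ := hmu χ hχ
    have h := hstar 1 1 h1reg h1reg (zet χ)
    rw [Finset.sum_eq_single χ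
      (fun χ' _ hne => if_neg (fun hc' => hne (huniqζ χ' hc'.1 χ hχ hc'.2)))
      (fun h => absurd (Finset.mem_univ _) h), if_pos ⟨hχ, rfl⟩] at h
    obtain ⟨n, hn0, hn⟩ := irr_one_eq_natCast_pos χ
    obtain ⟨k, hk0, hk⟩ := irr_one_eq_natCast_pos θ
    obtain ⟨m, hm0, hm⟩ := irr_one_eq_natCast_pos (zet χ)
    rw [hn, hk, hm, Complex.conj_natCast, Complex.conj_natCast] at h
    have hnat : n * n = (m * k) * (m * k) := by
      have h' : ((n * n : ℕ) : ℂ) = (((m * k) * (m * k) : ℕ) : ℂ) := by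
        push_cast; rw [h]; ring
      exact_mod_cast h'
    have hnmk : n = m * k := Nat.mul_self_inj.mp hnat
    have hμ1 := hμ 1 h1reg
    rw [hn, hk, hnmk] at hμ1
    have hk0' : (k : ℂ) ≠ 0 := Nat.cast_ne_zero.mpr hk0.ne'
    have hμm : μ = (m : ℂ) := by
      have h' : (m : ℂ) * k = μ * k := by rw [← hμ1]; push_cast; ring
      exact (mul_right_cancel₀ hk0' h').symm
    rw [hzet χ y c (hregC c hc), hμ c hc, hμm, hm]
    have hm0' : (m : ℂ) ≠ 0 := Nat.cast_ne_zero.mpr hm0.ne'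
    field_simp
  exact ⟨zet, hformula, hex, huniqζ⟩

end Chars

end Cfsg.Agent.Helper5
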