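import Mathlib
import Cfsg.Agent.Helper5.KnGen

/-!
# Knörr's theorem for a given defect group

For a block `B` of `G` with defect group `P` and a normal subgroup `N`, there is a block of `N`
covered by `B`, stable under `P`, with defect group `P ∩ N`.
-/

set_option autoImplicit false

namespace Cfsg.Agent.Helper5

open Cfsg Cfsg.Agent.Helper24 Cfsg.Agent.Helper22

universe u

section Stb

variable {G : Type u} [Group G] [Fintype G] (N : Subgroup G) [hN : N.Normal] [Fintype N]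

theorem stabilizesBlock_of_mem_knStab (c : Set (IrrCharacter N)) (g : G)
    (hg : g ∈ knStab N c) : StabilizesBlock N c g := by
  refine ⟨?_, fun χ hχ => ⟨twIrr N g⁻¹ χ, ?_, ?_⟩⟩
  · rw [Subgroup.normalizer_eq_top]
    exact Subgroup.mem_top g
  · exact ((knStab N c).inv_mem hg χ).mpr hχ
  · intro k k' hkk'
    rw [twIrr_apply]
    refine congrArg (χ : N → ℂ) (Subtype.ext ?_)
    show g⁻¹ * (k' : G) * g⁻¹⁻¹ = k
    rw [hkk']
    group

theorem mem_knStab_of_stabilizesBlock {M : Ideal AlgInt} [hMp : M.IsPrime] (θ₀ : IrrCharacter N)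
    (g : G) (hg : StabilizesBlock N (blockOf M (θ₀ : N → ℂ)) g) :
    g ∈ knStab N (blockOf M (θ₀ : N → ℂ)) := by
  have h1 : g⁻¹ ∈ knStab N (blockOf M (θ₀ : N → ℂ)) := by
    rw [knStab_iff]
    intro θ hθ
    obtain ⟨χ', hχ', hconj⟩ := hg.2 θ hθ
    have e : twIrr N g⁻¹ θ = χ' := by
      apply Subtype.ext
      funext n
      rw [twIrr_apply]
      exact (hconj ⟨g⁻¹ * n * g⁻¹⁻¹, hN.conj_mem n n.2 g⁻¹⟩ n (by
        show (n : G) = g * (g⁻¹ * (n : G) * g⁻¹⁻¹) * g⁻¹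
        group)).symm
    rw [e]
    exact hχ'
  have h2 := (knStab N (blockOf M (θ₀ : N → ℂ))).inv_mem h1
  rwa [inv_inv] at h2

/-- **Knörr's theorem**, for a given defect group `P` of `B`: some block of `N` covered by
`B` is `P`-stable with defect group `P ∩ N`. -/
theorem knorr_defect {p : ℕ} [Fact p.Prime] {M : Ideal AlgInt} (hM : IsPModular p M)
    [hMp : M.IsPrime] (χ₀ : IrrCharacter G) (P : Subgroup G)
    (hP : IsDefectGroup p M (blockOf M (χ₀ : G → ℂ)) P) :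
    ∃ θ₁ : IrrCharacter N, P ≤ knStab N (blockOf M (θ₁ : N → ℂ)) ∧
      classInner (fun n : N => (χ₀ : G → ℂ) n) (θ₁ : N → ℂ) ≠ 0 ∧
      IsDefectGroup p M (blockOf M (θ₁ : N → ℂ)) ((P ⊓ N).subgroupOf N) := by
  classical
  obtain ⟨θ₀, hθ₀⟩ := exists_constituent_res N χ₀
  obtain ⟨D, hD, hDst, hDN⟩ := knorr_general N hM θ₀ χ₀
    ⟨χ₀, sameBlock_refl _, θ₀, sameBlock_refl _, hθ₀⟩
  obtain ⟨x, rfl⟩ := defect_groups_conj hM χ₀ D P hD hP
  obtain ⟨e, hedef⟩ : ∃ e : N ≃* N, e = conjEquivL N x (fun n hn => hN.conj_mem n hn x)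
      (fun n hn => by
        have h' := hN.conj_mem n hn x⁻¹
        rwa [inv_inv] at h') := ⟨_, rfl⟩
  have he : ∀ n : N, ((e n : N) : G) = x * n * x⁻¹ := by
    intro n
    rw [hedef]
    rfl
  have hes : ∀ n : N, ((e.symm n : N) : G) = x⁻¹ * n * x := by
    intro n
    rw [hedef]
    rfl
  have hθ₁ : irrEquivMap e.symm θ₀ = twIrr N x⁻¹ θ₀ := by
    apply Subtype.ext
    funext n
    show (θ₀ : N → ℂ) (e.symm n) = (θ₀ : N → ℂ) ⟨x⁻¹ * n * x⁻¹⁻¹, hN.conj_mem n n.2 x⁻¹⟩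
    refine congrArg (θ₀ : N → ℂ) (Subtype.ext ?_)
    rw [hes]
    show x⁻¹ * (n : G) * x = x⁻¹ * (n : G) * x⁻¹⁻¹
    rw [inv_inv]
  refine ⟨irrEquivMap e.symm θ₀, ?_, ?_, ?_⟩
  · rintro _ ⟨d, hd, rfl⟩
    have hd' := hDst hd
    rw [knStab_iff]
    intro θ hθ
    show twIrr N (x * d * x⁻¹) θ ∈ _
    rw [hθ₁] at hθ ⊢
    have h1 : twIrr N x θ ∈ blockOf M (θ₀ : N → ℂ) := by
      have h := twIrr_sameBlock N x _ _ hθ
      rwa [← twIrr_mul, inv_mul_cancel, twIrr_one] at h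
    have h2 : twIrr N d (twIrr N x θ) ∈ blockOf M (θ₀ : N → ℂ) := (hd' _).mpr h1
    have h3 := twIrr_sameBlock N x⁻¹ _ _ h2
    rw [← twIrr_mul, ← twIrr_mul, ← mul_assoc] at h3
    exact h3
  · rw [hθ₁]
    show classInner (fun n : N => (χ₀ : G → ℂ) n) (twist N (θ₀ : N → ℂ) x⁻¹) ≠ 0
    rw [classInner_res_twist N (χ₀ : G → ℂ) (irr_isClassFunction χ₀) (θ₀ : N → ℂ) x⁻¹]
    exact hθ₀
  · have h1 : IsDefectGroup p M (blockOf M (irrEquivMap e (irrEquivMap e.symm θ₀) : N → ℂ))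
        ((D ⊓ N).subgroupOf N) := by
      rw [irrEquivMap_symm' e θ₀]
      exact hDN
    have h2 := isDefectGroup_irrEquivMap hM e (irrEquivMap e.symm θ₀) _ h1
    have heq : ((D.map (MulAut.conj x).toMonoidHom) ⊓ N).subgroupOf N
        = ((D ⊓ N).subgroupOf N).map e.toMonoidHom := by
      ext n
      constructor
      · intro hn
        obtain ⟨⟨d, hd, hdn⟩, -⟩ := Subgroup.mem_subgroupOf.mp hn
        have hdn' : x * d * x⁻¹ = (n : G) := hdn
        have hdN : d ∈ N := by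
          have h := hN.conj_mem _ n.2 x⁻¹
          rw [← hdn'] at h
          have e' : x⁻¹ * (x * d * x⁻¹) * x⁻¹⁻¹ = d := by group
          rwa [e'] at h
        refine ⟨⟨d, hdN⟩, Subgroup.mem_subgroupOf.mpr ⟨hd, hdN⟩, ?_⟩
        apply Subtype.ext
        show ((e ⟨d, hdN⟩ : N) : G) = n
        rw [he]
        exact hdn'
      · rintro ⟨m, hm, rfl⟩
        have hm' : (m : G) ∈ D ⊓ N := Subgroup.mem_subgroupOf.mp hm
        rw [Subgroup.mem_subgroupOf]
        refine ⟨⟨m, hm'.1, ?_⟩, (e m).2⟩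
        show x * (m : G) * x⁻¹ = ((e m : N) : G)
        rw [he]
    rw [heq]
    exact h2

end Stb

end Cfsg.Agent.Helper5
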