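import Mathlib
import Cfsg.Agent.Helper5.KnStb
import Cfsg.Agent.Helper5.BlkStab
import Cfsg.Agent.Helper5.BlkFMT
import Cfsg.Agent.Helper5.BlkBr2
import Cfsg.Agent.Helper5.PRes

/-!
# The extended first main theorem: the index criterion (S4437)

`b` a block of `H = P C_G(P)` with defect group `P`, `B = b^G`, `T` the stabilizer of `b` in
`N_G(P)`: `B` has defect group `P` iff `p ∤ [T : H]`.
-/

set_option autoImplicit false

namespace Cfsg.Agent.Helper5

open Cfsg Cfsg.Agent.Helper24 Cfsg.Agent.Helper22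

universe u

section X

variable {G : Type u} [Group G] [Fintype G]

/-- transitivity of block induction through an intermediate group normalizing `P`. -/
theorem induced_of_over {p : ℕ} [Fact p.Prime] {M : Ideal AlgInt} (hM : IsPModular p M)
    [hMp : M.IsPrime] (P H L : Subgroup G) [Fintype H] [Fintype L] (hP : IsPGroup p P)
    (hPH : P ≤ H) (hHL : H ≤ L) [hn : (H.subgroupOf L).Normal] [Fintype (H.subgroupOf L)]
    (hCH : Subgroup.centralizer (P : Set G) ≤ H) (hLN : L ≤ Subgroup.normalizer (P : Set G))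
    (ξ₁ : IrrCharacter H) (ψ₁ : IrrCharacter L)
    (hover : classInner (fun a : H.subgroupOf L => (ψ₁ : L → ℂ) a)
      (resIrr hHL ξ₁ : H.subgroupOf L → ℂ) ≠ 0)
    (χ₀ : IrrCharacter G)
    (hind : IsInducedBlock M H (blockOf M (ξ₁ : H → ℂ)) (blockOf M (χ₀ : G → ℂ))) :
    IsInducedBlock M L (blockOf M (ψ₁ : L → ℂ)) (blockOf M (χ₀ : G → ℂ)) := by
  have h1 := (induced_iff_brauer hM P H hP hPH (hHL.trans hLN) _ ⟨ξ₁, rfl⟩ _ ⟨χ₀, rfl⟩).mp hind
    ξ₁ (sameBlock_refl _) χ₀ (sameBlock_refl _)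
  refine induced_of_brauer_congr hM P L hP (hPH.trans hHL) hLN ψ₁ χ₀ (fun g => ?_)
  rw [brauer_eq_of_over P H L hHL hCH hLN ξ₁ ψ₁ hover g]
  exact h1 g

omit [Fintype G] in
theorem normal_sup_centralizer_subgroupOf (P L : Subgroup G)
    (hLN : L ≤ Subgroup.normalizer (P : Set G)) :
    ((P ⊔ Subgroup.centralizer (P : Set G)).subgroupOf L).Normal := by
  constructor
  intro a ha l
  rw [Subgroup.mem_subgroupOf] at ha ⊢
  exact conj_mem_sup_centralizer P (l : G) (hLN l.2) (a : G) ha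

end X

section Conv

variable {G : Type u} [Group G] [Fintype G] (H L : Subgroup G) [Fintype H] [Fintype L]
  (hHL : H ≤ L) [hn : (H.subgroupOf L).Normal] [Fintype (H.subgroupOf L)]

omit [Fintype G] [Fintype H] [Fintype L] hn [Fintype (H.subgroupOf L)] in
theorem resIrr_surj (θ' : IrrCharacter (H.subgroupOf L)) :
    ∃ θ : IrrCharacter H, resIrr hHL θ = θ' := by
  refine ⟨⟨fun n => (θ' : H.subgroupOf L → ℂ) ((Subgroup.subgroupOfEquivOfLe hHL).symm n),
    isIrr_comp_mulEquiv_h5 _ θ'.2⟩, ?_⟩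
  apply Subtype.ext
  funext a
  show (θ' : H.subgroupOf L → ℂ) ((Subgroup.subgroupOfEquivOfLe hHL).symm
    (Subgroup.subgroupOfEquivOfLe hHL a)) = _
  rw [MulEquiv.symm_apply_apply]

/-- the stabilizer condition of the statements implies membership in `knStab`. -/
theorem mem_knStab_of_cond {M : Ideal AlgInt} [hMp : M.IsPrime] (θ₀ : IrrCharacter H) (l : L)
    (hl : ∀ θ ∈ blockOf M (θ₀ : H → ℂ), ∀ θ' : IrrCharacter H,
      (∀ h h' : H, (h' : G) = (l : G) * h * (l : G)⁻¹ → (θ' : H → ℂ) h' = (θ : H → ℂ) h) →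
      θ' ∈ blockOf M (θ₀ : H → ℂ)) :
    l ∈ knStab (H.subgroupOf L) (blockOf M (resIrr hHL θ₀ : H.subgroupOf L → ℂ)) := by
  have h1 : l⁻¹ ∈ knStab (H.subgroupOf L)
      (blockOf M (resIrr hHL θ₀ : H.subgroupOf L → ℂ)) := by
    rw [knStab_iff]
    intro ψ hψ
    obtain ⟨θ, rfl⟩ := resIrr_surj H L hHL ψ
    obtain ⟨θ', hθ'⟩ := resIrr_surj H L hHL (twIrr (H.subgroupOf L) l⁻¹ (resIrr hHL θ))
    rw [← hθ']
    apply (resIrr_sameBlock hHL θ₀ θ').mpr
    apply hl θ ((resIrr_sameBlock hHL θ₀ θ).mp hψ) θ'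
    intro h h' hh'
    have e1 : (θ' : H → ℂ) h' = (resIrr hHL θ' : H.subgroupOf L → ℂ)
        ((Subgroup.subgroupOfEquivOfLe hHL).symm h') := by
      rw [resIrr_apply, MulEquiv.apply_symm_apply]
    rw [e1, hθ', twIrr_apply, resIrr_apply]
    refine congrArg (θ : H → ℂ) (Subtype.ext ?_)
    show ((l⁻¹ : L) : G) * ((((Subgroup.subgroupOfEquivOfLe hHL).symm h' : H.subgroupOf L) : L) : G)
      * (((l⁻¹ : L)⁻¹ : L) : G) = (h : G)
    have e2 : ((((Subgroup.subgroupOfEquivOfLe hHL).symm h' : H.subgroupOf L) : L) : G)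
        = (h' : G) := rfl
    rw [e2, hh']
    push_cast
    group
  have h2 := (knStab (H.subgroupOf L)
    (blockOf M (resIrr hHL θ₀ : H.subgroupOf L → ℂ))).inv_mem h1
  rwa [inv_inv] at h2

/-- membership in `knStab` implies the stabilizer condition of the statements. -/
theorem cond_of_mem_knStab {M : Ideal AlgInt} [hMp : M.IsPrime] (θ₀ : IrrCharacter H) (l : L)
    (hl : l ∈ knStab (H.subgroupOf L) (blockOf M (resIrr hHL θ₀ : H.subgroupOf L → ℂ))) :
    ∀ θ ∈ blockOf M (θ₀ : H → ℂ), ∀ θ' : IrrCharacter H,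
      (∀ h h' : H, (h' : G) = (l : G) * h * (l : G)⁻¹ → (θ' : H → ℂ) h' = (θ : H → ℂ) h) →
      θ' ∈ blockOf M (θ₀ : H → ℂ) := by
  intro θ hθ θ' hrel
  have e : resIrr hHL θ' = twIrr (H.subgroupOf L) l⁻¹ (resIrr hHL θ) := by
    apply Subtype.ext
    funext a
    rw [twIrr_apply, resIrr_apply, resIrr_apply]
    apply hrel
    show ((a : L) : G) = (l : G) * (((l⁻¹ : L) : G) * ((a : L) : G) * (((l⁻¹ : L)⁻¹ : L) : G))
      * (l : G)⁻¹
    push_cast
    group
  apply (resIrr_sameBlock hHL θ₀ θ').mp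
  rw [e]
  exact ((knStab (H.subgroupOf L) (blockOf M (resIrr hHL θ₀ : H.subgroupOf L → ℂ))).inv_mem
    hl _).mpr ((resIrr_sameBlock hHL θ₀ θ).mpr hθ)

end Conv

section Main

variable {G : Type u} [Group G] [Fintype G]

/-- S4437, for `b = blockOf M θ₀`, `B = blockOf M χ₀`. -/
theorem ext_index {p : ℕ} [Fact p.Prime] {M : Ideal AlgInt} (hM : IsPModular p M)
    [hMp : M.IsPrime] (P : Subgroup G) (hP : IsPGroup p P) (H : Subgroup G) [Fintype H]
    (hH : H = P ⊔ Subgroup.centralizer (P : Set G)) (θ₀ : IrrCharacter H)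
    (hbP : IsDefectGroup p M (blockOf M (θ₀ : H → ℂ)) (P.subgroupOf H))
    (χ₀ : IrrCharacter G)
    (hind : IsInducedBlock M H (blockOf M (θ₀ : H → ℂ)) (blockOf M (χ₀ : G → ℂ)))
    (T : Subgroup G)
    (hT : ∀ g : G, g ∈ T ↔ (g ∈ Subgroup.normalizer (P : Set G) ∧
      ∀ θ ∈ blockOf M (θ₀ : H → ℂ), ∀ θ' : IrrCharacter H,
        (∀ h h' : H, (h' : G) = g * h * g⁻¹ → (θ' : H → ℂ) h' = (θ : H → ℂ) h) →
        θ' ∈ blockOf M (θ₀ : H → ℂ))) :
    IsDefectGroup p M (blockOf M (χ₀ : G → ℂ)) P ↔ ¬ p ∣ H.relIndex T := by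
  classical
  have hp : p.Prime := Fact.out
  have hPH : P ≤ H := by
    rw [hH]
    exact le_sup_left
  have hCH : Subgroup.centralizer (P : Set G) ≤ H := by
    rw [hH]
    exact le_sup_right
  have hHN : H ≤ Subgroup.normalizer (P : Set G) := by
    rw [hH]
    exact sup_le Subgroup.le_normalizer (Subgroup.centralizer_le_normalizer (P : Set G))
  have hTN : T ≤ Subgroup.normalizer (P : Set G) := fun g hg => ((hT g).mp hg).1
  have hHT : H ≤ T := by
    intro h hh
    rw [hT]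
    refine ⟨hHN hh, ?_⟩
    intro θ hθ θ' hrel
    have e : θ' = θ := by
      apply Subtype.ext
      funext a
      have h1 := hrel ((⟨h, hh⟩ : H)⁻¹ * a * ⟨h, hh⟩) a (by
        push_cast
        group)
      rw [h1]
      have h2 := irr_isClassFunction θ a (⟨h, hh⟩ : H)⁻¹
      rw [inv_inv] at h2
      exact h2
    rw [e]
    exact hθ
  have hcP : Nat.card P = p ^ blockDefect p (blockOf M (θ₀ : H → ℂ)) := by
    rw [← card_defect_group hM θ₀ _ hbP]
    exact (Nat.card_congr (Subgroup.subgroupOfEquivOfLe hPH).toEquiv).symm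
  constructor
  · intro hPB
    haveI : Fintype T := Fintype.ofFinite _
    haveI : Fintype (H.subgroupOf T) := Fintype.ofFinite _
    haveI hn : (H.subgroupOf T).Normal := by
      rw [hH]
      exact normal_sup_centralizer_subgroupOf P T hTN
    have hst' : ∀ (t : T) (ψ' : IrrCharacter (H.subgroupOf T)),
        twIrr (H.subgroupOf T) t ψ' ∈ blockOf M (resIrr hHT θ₀ : H.subgroupOf T → ℂ)
          ↔ ψ' ∈ blockOf M (resIrr hHT θ₀ : H.subgroupOf T → ℂ) :=
      fun t => mem_knStab_of_cond H T hHT θ₀ t ((hT (t : G)).mp t.2).2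
    obtain ⟨χ', ⟨θ', hθ', hne⟩, hdef⟩ :=
      exists_cover_defect_ge (H.subgroupOf T) hM (resIrr hHT θ₀) hst'
    obtain ⟨θ, rfl⟩ := resIrr_surj H T hHT θ'
    have hθb : θ ∈ blockOf M (θ₀ : H → ℂ) := (resIrr_sameBlock hHT θ₀ θ).mp hθ'
    have hind' : IsInducedBlock M H (blockOf M (θ : H → ℂ)) (blockOf M (χ₀ : G → ℂ)) := by
      rw [← blockOf_eq_of_sameBlock hθb]
      exact hind
    have hindT := induced_of_over hM P H T hP hPH hHT hCH hTN θ χ' hne χ₀ hind'
    obtain ⟨g₀, hg₀⟩ := exists_defect_class (M := M) χ'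
    obtain ⟨Q₀⟩ : Nonempty (Sylow p (Subgroup.centralizer ({g₀} : Set T))) := inferInstance
    obtain ⟨D', hD'def⟩ : ∃ D' : Subgroup T, D' = (Q₀ : Subgroup (Subgroup.centralizer
        ({g₀} : Set T))).map (Subgroup.centralizer ({g₀} : Set T)).subtype := ⟨_, rfl⟩
    have hD' : IsDefectGroup p M (blockOf M (χ' : T → ℂ)) D' := ⟨g₀, hg₀, Q₀, hD'def⟩
    obtain ⟨E, hE, hle⟩ := induced_defect_le hM T χ' χ₀ hindT D' hD'
    have hcD' := card_defect_group hM χ' D' hD'
    have hcE := card_defect_group hM χ₀ E hE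
    have hcPB := card_defect_group hM χ₀ P hPB
    have hle2 : Nat.card D' ≤ Nat.card E := by
      rw [← Subgroup.card_map_of_injective T.subtype_injective]
      exact Subgroup.card_le_of_le hle
    rw [hcD', hcE, ← hcPB, hcP] at hle2
    have hle3 := (Nat.pow_le_pow_iff_right hp.one_lt).mp hle2
    have hbd : blockDefect p (blockOf M (resIrr hHT θ₀ : H.subgroupOf T → ℂ))
        = blockDefect p (blockOf M (θ₀ : H → ℂ)) :=
      blockDefect_irrEquivMap (M := M) p (Subgroup.subgroupOfEquivOfLe hHT) θ₀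
    rw [hbd] at hdef
    intro hdvd
    have hne0 : (H.subgroupOf T).index ≠ 0 := Subgroup.index_ne_zero_of_finite
    have hpos : 0 < (H.subgroupOf T).index.factorization p :=
      hp.factorization_pos_of_dvd hne0 hdvd
    omega
  · intro hnd
    haveI : Fintype (Subgroup.normalizer (P : Set G)) := Fintype.ofFinite _
    have hNN : Subgroup.normalizer (P : Set G) ≤ Subgroup.normalizer (P : Set G) := le_refl _
    haveI : Fintype (H.subgroupOf (Subgroup.normalizer (P : Set G))) := Fintype.ofFinite _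
    haveI hn : (H.subgroupOf (Subgroup.normalizer (P : Set G))).Normal := by
      rw [hH]
      exact normal_sup_centralizer_subgroupOf P _ hNN
    obtain ⟨ψ₁, hψ₁⟩ := Cfsg.Agent.Helper5.exists_irr_over
      (H.subgroupOf (Subgroup.normalizer (P : Set G)))
      (resIrr hHN θ₀ : H.subgroupOf (Subgroup.normalizer (P : Set G)) → ℂ) (resIrr hHN θ₀).2
    obtain ⟨D₁, hD₁, hD₁st, hD₁H⟩ := knorr_general
      (H.subgroupOf (Subgroup.normalizer (P : Set G))) hM (resIrr hHN θ₀) ψ₁
      ⟨ψ₁, sameBlock_refl _, resIrr hHN θ₀, sameBlock_refl _, hψ₁⟩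
    have hD₁T : D₁ ≤ T.subgroupOf (Subgroup.normalizer (P : Set G)) := by
      intro n hn'
      rw [Subgroup.mem_subgroupOf, hT]
      exact ⟨n.2, cond_of_mem_knStab H _ hHN θ₀ n (hD₁st hn')⟩
    have hHsT : H.subgroupOf (Subgroup.normalizer (P : Set G))
        ≤ T.subgroupOf (Subgroup.normalizer (P : Set G)) :=
      fun a ha => Subgroup.mem_subgroupOf.mpr (hHT (Subgroup.mem_subgroupOf.mp ha))
    have hD₁le : D₁ ≤ H.subgroupOf (Subgroup.normalizer (P : Set G)) := by
      rw [← Subgroup.relIndex_eq_one]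
      have h1 : (H.subgroupOf (Subgroup.normalizer (P : Set G))).relIndex D₁ ∣ Nat.card D₁ :=
        Subgroup.relIndex_dvd_card _ _
      have h2 : (H.subgroupOf (Subgroup.normalizer (P : Set G))).relIndex D₁ ∣ H.relIndex T := by
        rw [← Subgroup.relIndex_subgroupOf hTN,
          ← Subgroup.relIndex_sup_left D₁ (H.subgroupOf (Subgroup.normalizer (P : Set G)))]
        have h3 := Subgroup.relIndex_mul_relIndex
          (H.subgroupOf (Subgroup.normalizer (P : Set G)))
          (H.subgroupOf (Subgroup.normalizer (P : Set G)) ⊔ D₁)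
          (T.subgroupOf (Subgroup.normalizer (P : Set G))) le_sup_left (sup_le hHsT hD₁T)
        exact Dvd.intro _ h3
      rw [card_defect_group hM ψ₁ D₁ hD₁] at h1
      obtain ⟨j, -, hj⟩ := (Nat.dvd_prime_pow hp).mp h1
      rw [hj] at h2 ⊢
      cases j with
      | zero => rfl
      | succ j => exact absurd (dvd_trans (dvd_pow_self p (Nat.succ_ne_zero j)) h2) hnd
    have hD₁eq : D₁ ⊓ H.subgroupOf (Subgroup.normalizer (P : Set G)) = D₁ :=
      inf_eq_left.mpr hD₁le
    rw [hD₁eq] at hD₁H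
    have htr := isDefectGroup_irrEquivMap hM (Subgroup.subgroupOfEquivOfLe hHN) θ₀ _ hD₁H
    obtain ⟨h, hh⟩ := defect_groups_conj hM θ₀ _ _ hbP htr
    have hD₁P : D₁ = P.subgroupOf (Subgroup.normalizer (P : Set G)) := by
      apply Subgroup.eq_of_le_of_card_ge
      · intro n hn'
        rw [Subgroup.mem_subgroupOf]
        have hnH : n ∈ H.subgroupOf (Subgroup.normalizer (P : Set G)) := hD₁le hn'
        have h1 : (Subgroup.subgroupOfEquivOfLe hHN ⟨n, hnH⟩ : H)
            ∈ (D₁.subgroupOf (H.subgroupOf (Subgroup.normalizer (P : Set G)))).map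
              (Subgroup.subgroupOfEquivOfLe hHN).toMonoidHom :=
          ⟨⟨n, hnH⟩, Subgroup.mem_subgroupOf.mpr hn', rfl⟩
        rw [hh] at h1
        obtain ⟨q, hq, hqn⟩ := h1
        have hqn' : (h : G) * (q : G) * (h : G)⁻¹ = (n : G) := congrArg Subtype.val hqn
        rw [← hqn']
        exact (Subgroup.mem_normalizer_iff.mp (hHN h.2) (q : G)).mp (Subgroup.mem_subgroupOf.mp hq)
      · have e1 : Nat.card (P.subgroupOf (Subgroup.normalizer (P : Set G))) = Nat.card P :=
          Nat.card_congr (Subgroup.subgroupOfEquivOfLe Subgroup.le_normalizer).toEquiv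
        have e2 := card_defect_group hM θ₀ _ htr
        rw [Subgroup.card_map_of_injective (Subgroup.subgroupOfEquivOfLe hHN).injective] at e2
        have e3 : Nat.card (D₁.subgroupOf (H.subgroupOf (Subgroup.normalizer (P : Set G))))
            = Nat.card D₁ := Nat.card_congr (Subgroup.subgroupOfEquivOfLe hD₁le).toEquiv
        rw [e1, hcP, ← e2, e3]
    rw [hD₁P] at hD₁
    obtain ⟨B', ⟨χ', rfl⟩, hB'P, hB'ind⟩ := (first_main hM P hP).1
      (blockOf M (ψ₁ : Subgroup.normalizer (P : Set G) → ℂ)) ⟨ψ₁, rfl⟩ hD₁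
    have hindN := induced_of_over hM P H (Subgroup.normalizer (P : Set G)) hP hPH hHN hCH hNN
      θ₀ ψ₁ hψ₁ χ₀ hind
    have hBB : blockOf M (χ' : G → ℂ) = blockOf M (χ₀ : G → ℂ) := by
      apply blockOf_eq_of_sameBlock
      intro g
      have h1 := hB'ind.2.2 ψ₁ (sameBlock_refl _) χ' (sameBlock_refl _) g
      have h2 := hindN.2.2 ψ₁ (sameBlock_refl _) χ₀ (sameBlock_refl _) g
      have h3 := memLocalIdeal_sub h2 h1
      have e : inducedCentralChar (Subgroup.normalizer (P : Set G))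
            (ψ₁ : Subgroup.normalizer (P : Set G) → ℂ) g - centralChar (χ₀ : G → ℂ) g
          - (inducedCentralChar (Subgroup.normalizer (P : Set G))
            (ψ₁ : Subgroup.normalizer (P : Set G) → ℂ) g - centralChar (χ' : G → ℂ) g)
          = centralChar (χ' : G → ℂ) g - centralChar (χ₀ : G → ℂ) g := by ring
      rwa [e] at h3
    rw [← hBB]
    exact hB'P

end Main

end Cfsg.Agent.Helper5
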