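import Mathlib
import Cfsg.Agent.Helper5.ExtIdx
import Cfsg.Agent.Helper5.BlkOp
import Cfsg.Agent.Helper5.BlkDef

/-!
# The inertial quotient of a block with cyclic defect group (S4633)
-/

set_option autoImplicit false

namespace Cfsg.Agent.Helper5

open Cfsg Cfsg.Agent.Helper24 Cfsg.Agent.Helper22

universe u

section NT

/-- `k ≡ 1 (mod p)`, `k ^ m ≡ 1 (mod p ^ a)`, `p ∤ m` imply `k ≡ 1 (mod p ^ a)`. -/
theorem int_sub_one_dvd_of_pow {p : ℕ} (hp : p.Prime) (a m : ℕ) (hm : ¬ p ∣ m) (k : ℤ)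
    (h1 : (p : ℤ) ∣ k - 1) (h2 : ((p : ℤ) ^ a) ∣ k ^ m - 1) : ((p : ℤ) ^ a) ∣ k - 1 := by
  haveI : Fact p.Prime := ⟨hp⟩
  have hgeom : (k - 1) * ∑ i ∈ Finset.range m, k ^ i = k ^ m - 1 := mul_geom_sum k m
  have hs : ¬ (p : ℤ) ∣ ∑ i ∈ Finset.range m, k ^ i := by
    intro hdvd
    have hk : ((k : ℤ) : ZMod p) = 1 := by
      have h3 := (ZMod.intCast_zmod_eq_zero_iff_dvd (k - 1) p).mpr h1
      push_cast at h3
      exact sub_eq_zero.mp h3
    have h3 := (ZMod.intCast_zmod_eq_zero_iff_dvd _ p).mpr hdvd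
    push_cast at h3
    rw [hk] at h3
    simp only [one_pow, Finset.sum_const, Finset.card_range, nsmul_eq_mul, mul_one] at h3
    exact hm ((ZMod.natCast_eq_zero_iff m p).mp h3)
  rw [← hgeom] at h2
  have hcop : IsCoprime ((p : ℤ) ^ a) (∑ i ∈ Finset.range m, k ^ i) :=
    IsCoprime.pow_left (((Nat.prime_iff_prime_int.mp hp).coprime_iff_not_dvd).mpr hs)
  exact hcop.dvd_of_dvd_mul_right h2

end NT

section Grp

variable {G : Type u} [Group G]

/-- a `p'`-automorphism (inner, from the normalizer) of a cyclic `p`-subgroup fixing a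
non-identity element is trivial. -/
theorem cyclic_free_action [Finite G] {p : ℕ} (hp : p.Prime) (P : Subgroup G)
    (hcyc : IsCyclic P) (a : ℕ) (hcard : Nat.card P = p ^ a)
    (g : G) (hgN : g ∈ Subgroup.normalizer (P : Set G)) (m : ℕ) (hm : ¬ p ∣ m)
    (hgm : g ^ m ∈ Subgroup.centralizer (P : Set G))
    (x : G) (hx : x ∈ P) (hx1 : x ≠ 1) (hfix : g * x * g⁻¹ = x) :
    g ∈ Subgroup.centralizer (P : Set G) := by
  obtain ⟨x₀, hx₀⟩ := hcyc.exists_generator
  have hord : orderOf (x₀ : G) = p ^ a := by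
    rw [Subgroup.orderOf_coe, orderOf_eq_card_of_forall_mem_zpowers hx₀, hcard]
  have hgen : ∀ y ∈ P, ∃ i : ℤ, (x₀ : G) ^ i = y := by
    intro y hy
    obtain ⟨i, hi⟩ := Subgroup.mem_zpowers_iff.mp (hx₀ ⟨y, hy⟩)
    refine ⟨i, ?_⟩
    have h := congrArg Subtype.val hi
    simpa using h
  have hconj : g * (x₀ : G) * g⁻¹ ∈ P := (Subgroup.mem_normalizer_iff.mp hgN x₀).mp x₀.2
  obtain ⟨k, hk⟩ := hgen _ hconj
  have hpow : ∀ i : ℕ, g ^ i * (x₀ : G) * (g ^ i)⁻¹ = (x₀ : G) ^ (k ^ i) := by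
    intro i
    induction i with
    | zero => simp
    | succ i ih =>
      have e : g ^ (i + 1) * (x₀ : G) * (g ^ (i + 1))⁻¹
          = g * (g ^ i * (x₀ : G) * (g ^ i)⁻¹) * g⁻¹ := by
        rw [pow_succ']
        group
      rw [e, ih, ← conj_zpow, ← hk, ← zpow_mul, pow_succ']
  have hcm : g ^ m * (x₀ : G) * (g ^ m)⁻¹ = (x₀ : G) := by
    have h := Subgroup.mem_centralizer_iff.mp hgm (x₀ : G) x₀.2
    rw [← h, mul_inv_cancel_right]
  have h2 : ((p : ℤ) ^ a) ∣ k ^ m - 1 := by
    have e : (x₀ : G) ^ (k ^ m - 1) = 1 := by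
      rw [zpow_sub, zpow_one, ← hpow m, hcm, mul_inv_cancel]
    have h := orderOf_dvd_iff_zpow_eq_one.mpr e
    rw [hord] at h
    exact_mod_cast h
  obtain ⟨j, hj⟩ := hgen x hx
  have hnj : ¬ ((p : ℤ) ^ a) ∣ j := by
    intro hdvd
    apply hx1
    rw [← hj]
    apply orderOf_dvd_iff_zpow_eq_one.mp
    rw [hord]
    exact_mod_cast hdvd
  have h3 : ((p : ℤ) ^ a) ∣ j * (k - 1) := by
    have e : (x₀ : G) ^ (j * (k - 1)) = 1 := by
      have e1 : (x₀ : G) ^ (k * j) = (x₀ : G) ^ j := by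
        rw [zpow_mul, hk, conj_zpow, hj, hfix]
      rw [mul_sub, mul_one, zpow_sub, mul_comm j k, e1, mul_inv_cancel]
    have h := orderOf_dvd_iff_zpow_eq_one.mpr e
    rw [hord] at h
    exact_mod_cast h
  have h1 : (p : ℤ) ∣ k - 1 := by
    by_contra hnd
    have hcop : IsCoprime ((p : ℤ) ^ a) (k - 1) :=
      IsCoprime.pow_left (((Nat.prime_iff_prime_int.mp hp).coprime_iff_not_dvd).mpr hnd)
    exact hnj (hcop.dvd_of_dvd_mul_right h3)
  have h4 := int_sub_one_dvd_of_pow hp a m hm k h1 h2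
  have h5 : g * (x₀ : G) * g⁻¹ = (x₀ : G) := by
    rw [← hk]
    have e : (x₀ : G) ^ (k - 1) = 1 := by
      apply orderOf_dvd_iff_zpow_eq_one.mp
      rw [hord]
      exact_mod_cast h4
    rw [zpow_sub, zpow_one] at e
    exact mul_inv_eq_one.mp e
  have hc : Commute g (x₀ : G) := by
    show g * (x₀ : G) = (x₀ : G) * g
    calc g * (x₀ : G) = g * (x₀ : G) * g⁻¹ * g := by group
      _ = (x₀ : G) * g := by rw [h5]
  rw [Subgroup.mem_centralizer_iff]
  intro y hy
  obtain ⟨i, hi⟩ := hgen y hy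
  rw [← hi]
  exact (hc.zpow_right i).symm.eq

end Grp

section Hom

variable {G : Type u} [Group G]

/-- the conjugation action of a subgroup of `N_G(P)` on `P`. -/
def conjHomL (P T : Subgroup G) (hTN : T ≤ Subgroup.normalizer (P : Set G)) : T →* MulAut P where
  toFun t := conjEquivL P (t : G)
    (fun q hq => (Subgroup.mem_normalizer_iff.mp (hTN t.2) q).mp hq)
    (fun q hq => (Subgroup.mem_normalizer_iff.mp (hTN t.2) ((t : G)⁻¹ * q * (t : G))).mpr (by
      have e : (t : G) * ((t : G)⁻¹ * q * (t : G)) * (t : G)⁻¹ = q := by group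
      rw [e]
      exact hq))
  map_one' := by
    apply MulEquiv.ext
    intro q
    apply Subtype.ext
    show ((1 : T) : G) * (q : G) * ((1 : T) : G)⁻¹ = (q : G)
    simp
  map_mul' := by
    intro s t
    apply MulEquiv.ext
    intro q
    apply Subtype.ext
    show ((s * t : T) : G) * (q : G) * ((s * t : T) : G)⁻¹
      = (s : G) * ((t : G) * (q : G) * (t : G)⁻¹) * (s : G)⁻¹
    push_cast
    group

theorem conjHomL_apply (P T : Subgroup G) (hTN : T ≤ Subgroup.normalizer (P : Set G)) (t : T)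
    (q : P) : ((conjHomL P T hTN t q : P) : G) = (t : G) * (q : G) * (t : G)⁻¹ := rfl

theorem conjHomL_ker (P T : Subgroup G) (hTN : T ≤ Subgroup.normalizer (P : Set G)) :
    (Subgroup.centralizer (P : Set G)).subgroupOf T = (conjHomL P T hTN).ker := by
  ext t
  rw [Subgroup.mem_subgroupOf, MonoidHom.mem_ker, Subgroup.mem_centralizer_iff]
  constructor
  · intro h
    apply MulEquiv.ext
    intro q
    apply Subtype.ext
    rw [conjHomL_apply]
    show (t : G) * (q : G) * (t : G)⁻¹ = (q : G)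
    rw [← h q q.2, mul_inv_cancel_right]
  · intro h q hq
    have h1 := congrArg (fun f : MulAut P => ((f ⟨q, hq⟩ : P) : G)) h
    have h2 : (t : G) * q * (t : G)⁻¹ = q := h1
    calc q * (t : G) = (t : G) * q * (t : G)⁻¹ * (t : G) := by rw [h2]
      _ = (t : G) * q := by group

end Hom

section Blk

variable {G : Type u} [Group G] [Fintype G]

/-- a block of `C_G(P)`, `P` abelian, inducing a block with defect group `P` has defect
group `P`. -/
theorem cent_block_defect {p : ℕ} [Fact p.Prime] {M : Ideal AlgInt} (hM : IsPModular p M)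
    [hMp : M.IsPrime] (P : Subgroup G) (hPab : ∀ x ∈ P, ∀ y ∈ P, x * y = y * x)
    [Fintype (Subgroup.centralizer (P : Set G))]
    (θ₀ : IrrCharacter (Subgroup.centralizer (P : Set G))) (χ₀ : IrrCharacter G)
    (hPD : IsDefectGroup p M (blockOf M (χ₀ : G → ℂ)) P)
    (hc : IsInducedBlock M (Subgroup.centralizer (P : Set G))
      (blockOf M (θ₀ : Subgroup.centralizer (P : Set G) → ℂ)) (blockOf M (χ₀ : G → ℂ))) :
    IsDefectGroup p M (blockOf M (θ₀ : Subgroup.centralizer (P : Set G) → ℂ))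
      (P.subgroupOf (Subgroup.centralizer (P : Set G))) := by
  classical
  have hPC : P ≤ Subgroup.centralizer (P : Set G) :=
    fun x hx => Subgroup.mem_centralizer_iff.mpr (fun y hy => hPab y hy x hx)
  have hcP := card_defect_group hM χ₀ P hPD
  have hPp : IsPGroup p P := IsPGroup.of_card hcP
  haveI hnorm : (P.subgroupOf (Subgroup.centralizer (P : Set G))).Normal := by
    constructor
    intro a ha c
    rw [Subgroup.mem_subgroupOf] at ha ⊢
    have e : ((c * a * c⁻¹ : Subgroup.centralizer (P : Set G)) : G) = (a : G) := by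
      push_cast
      have h := Subgroup.mem_centralizer_iff.mp c.2 (a : G) ha
      rw [← h, mul_inv_cancel_right]
    rw [e]
    exact ha
  obtain ⟨g₀, hg₀⟩ := exists_defect_class (M := M) θ₀
  obtain ⟨Q₀⟩ : Nonempty (Sylow p (Subgroup.centralizer
      ({g₀} : Set (Subgroup.centralizer (P : Set G))))) := inferInstance
  obtain ⟨Dc, hDcdef⟩ : ∃ Dc : Subgroup (Subgroup.centralizer (P : Set G)),
      Dc = (Q₀ : Subgroup (Subgroup.centralizer
        ({g₀} : Set (Subgroup.centralizer (P : Set G))))).map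
        (Subgroup.centralizer ({g₀} : Set (Subgroup.centralizer (P : Set G)))).subtype :=
    ⟨_, rfl⟩
  have hDc : IsDefectGroup p M (blockOf M (θ₀ : Subgroup.centralizer (P : Set G) → ℂ)) Dc :=
    ⟨g₀, hg₀, Q₀, hDcdef⟩
  have hle := normal_pGroup_le_defect hM θ₀ (P.subgroupOf (Subgroup.centralizer (P : Set G)))
    (hPp.comap_subtype (K := Subgroup.centralizer (P : Set G))) Dc hDc
  obtain ⟨E, hE, hDE⟩ := induced_defect_le hM _ θ₀ χ₀ hc Dc hDc
  have hcE := card_defect_group hM χ₀ E hE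
  have hcard : Nat.card Dc ≤ Nat.card (P.subgroupOf (Subgroup.centralizer (P : Set G))) := by
    rw [Nat.card_congr (Subgroup.subgroupOfEquivOfLe hPC).toEquiv, hcP, ← hcE,
      ← Subgroup.card_map_of_injective (Subgroup.centralizer (P : Set G)).subtype_injective]
    exact Subgroup.card_le_of_le hDE
  have heq := Subgroup.eq_of_le_of_card_ge hle hcard
  rw [heq]
  exact hDc

set_option maxHeartbeats 1000000 in
/-- S4633, for `B = blockOf M χ₀`, `c = blockOf M θ₀`. -/
theorem cyclic_inertial {p : ℕ} [Fact p.Prime] {M : Ideal AlgInt} (hM : IsPModular p M)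
    [hMp : M.IsPrime] (χ₀ : IrrCharacter G) (P : Subgroup G)
    (hPD : IsDefectGroup p M (blockOf M (χ₀ : G → ℂ)) P) (hP1 : P ≠ ⊥) (hcyc : IsCyclic P)
    [Fintype (Subgroup.centralizer (P : Set G))]
    (θ₀ : IrrCharacter (Subgroup.centralizer (P : Set G)))
    (hc : IsInducedBlock M (Subgroup.centralizer (P : Set G))
      (blockOf M (θ₀ : Subgroup.centralizer (P : Set G) → ℂ)) (blockOf M (χ₀ : G → ℂ)))
    (T : Subgroup G)
    (hT : ∀ g : G, g ∈ T ↔ (g ∈ Subgroup.normalizer (P : Set G) ∧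
      StabilizesBlock (Subgroup.centralizer (P : Set G))
        (blockOf M (θ₀ : Subgroup.centralizer (P : Set G) → ℂ)) g))
    [hn : ((Subgroup.centralizer (P : Set G)).subgroupOf T).Normal] :
    IsCyclic (T ⧸ (Subgroup.centralizer (P : Set G)).subgroupOf T) ∧
      (Subgroup.centralizer (P : Set G)).relIndex T ∣ p - 1 ∧
      ∀ g ∈ T, ∀ x ∈ P, x ≠ 1 → g * x * g⁻¹ = x → g ∈ Subgroup.centralizer (P : Set G) := by
  classical
  have hp : p.Prime := Fact.out
  have hPab : ∀ x ∈ P, ∀ y ∈ P, x * y = y * x := by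
    intro x hx y hy
    obtain ⟨x₀, hx₀⟩ := hcyc.exists_generator
    obtain ⟨i, hi⟩ := Subgroup.mem_zpowers_iff.mp (hx₀ ⟨x, hx⟩)
    obtain ⟨j, hj⟩ := Subgroup.mem_zpowers_iff.mp (hx₀ ⟨y, hy⟩)
    have h1 : (⟨x, hx⟩ : P) * ⟨y, hy⟩ = ⟨y, hy⟩ * ⟨x, hx⟩ := by
      rw [← hi, ← hj, ← zpow_add, ← zpow_add, add_comm]
    exact congrArg Subtype.val h1
  have hPC : P ≤ Subgroup.centralizer (P : Set G) :=
    fun x hx => Subgroup.mem_centralizer_iff.mpr (fun y hy => hPab y hy x hx)
  have hH : Subgroup.centralizer (P : Set G) = P ⊔ Subgroup.centralizer (P : Set G) :=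
    (sup_eq_right.mpr hPC).symm
  have hcP := card_defect_group hM χ₀ P hPD
  have hPp : IsPGroup p P := IsPGroup.of_card hcP
  have hbP := cent_block_defect hM P hPab θ₀ χ₀ hPD hc
  have hTN : T ≤ Subgroup.normalizer (P : Set G) := fun g hg => ((hT g).mp hg).1
  have hT' : ∀ g : G, g ∈ T ↔ (g ∈ Subgroup.normalizer (P : Set G) ∧
      ∀ θ ∈ blockOf M (θ₀ : Subgroup.centralizer (P : Set G) → ℂ),
        ∀ θ' : IrrCharacter (Subgroup.centralizer (P : Set G)),
        (∀ h h' : Subgroup.centralizer (P : Set G), (h' : G) = g * h * g⁻¹ →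
          (θ' : Subgroup.centralizer (P : Set G) → ℂ) h'
            = (θ : Subgroup.centralizer (P : Set G) → ℂ) h) →
        θ' ∈ blockOf M (θ₀ : Subgroup.centralizer (P : Set G) → ℂ)) := by
    intro g
    rw [hT g]
    constructor
    · rintro ⟨hgN, hgC, hst⟩
      refine ⟨hgN, ?_⟩
      intro θ hθ θ' hrel
      obtain ⟨χ', hχ', hconj⟩ := hst θ hθ
      have e : θ' = χ' := by
        apply Subtype.ext
        funext k'
        have hk : g⁻¹ * (k' : G) * g ∈ Subgroup.centralizer (P : Set G) := by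
          have h1 := conj_mem_centralizer_of_normalizer P
            ((Subgroup.normalizer (P : Set G)).inv_mem hgN) k'.2
          rwa [inv_inv] at h1
        have hrel' : (k' : G) = g * ((⟨g⁻¹ * (k' : G) * g, hk⟩ :
            Subgroup.centralizer (P : Set G)) : G) * g⁻¹ := by
          show (k' : G) = g * (g⁻¹ * (k' : G) * g) * g⁻¹
          group
        rw [hrel ⟨g⁻¹ * (k' : G) * g, hk⟩ k' hrel', hconj ⟨g⁻¹ * (k' : G) * g, hk⟩ k' hrel']
      rw [e]
      exact hχ'
    · rintro ⟨hgN, hcond⟩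
      have h1 : ∀ k ∈ Subgroup.centralizer (P : Set G),
          g⁻¹ * k * g⁻¹⁻¹ ∈ Subgroup.centralizer (P : Set G) := fun k hk =>
        conj_mem_centralizer_of_normalizer P ((Subgroup.normalizer (P : Set G)).inv_mem hgN) hk
      have h2 : ∀ k ∈ Subgroup.centralizer (P : Set G),
          g⁻¹⁻¹ * k * g⁻¹ ∈ Subgroup.centralizer (P : Set G) := fun k hk => by
        have h := conj_mem_centralizer_of_normalizer P hgN hk
        rwa [inv_inv]
      refine ⟨hgN, ?_, ?_⟩
      · rw [Subgroup.mem_normalizer_iff]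
        intro k
        exact (conj_mem_centralizer_iff_of_normalizer P hgN).symm
      · intro χ hχ
        refine ⟨irrEquivMap (conjEquivL (Subgroup.centralizer (P : Set G)) g⁻¹ h1 h2) χ, ?_, ?_⟩
        · apply hcond χ hχ
          intro k k' hkk'
          rw [irrEquivMap_apply]
          refine congrArg (χ : Subgroup.centralizer (P : Set G) → ℂ) (Subtype.ext ?_)
          show g⁻¹ * (k' : G) * g⁻¹⁻¹ = (k : G)
          rw [hkk']
          group
        · intro k k' hkk'
          rw [irrEquivMap_apply]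
          refine congrArg (χ : Subgroup.centralizer (P : Set G) → ℂ) (Subtype.ext ?_)
          show g⁻¹ * (k' : G) * g⁻¹⁻¹ = (k : G)
          rw [hkk']
          group
  have hidx := (ext_index hM P hPp (Subgroup.centralizer (P : Set G)) hH θ₀ hbP χ₀ hc T hT').mp hPD
  have hpowmem : ∀ g ∈ T, g ^ (Subgroup.centralizer (P : Set G)).relIndex T
      ∈ Subgroup.centralizer (P : Set G) := by
    intro g hg
    have h1 := Subgroup.pow_index_mem ((Subgroup.centralizer (P : Set G)).subgroupOf T)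
      (⟨g, hg⟩ : T)
    exact Subgroup.mem_subgroupOf.mp h1
  have hfree : ∀ g ∈ T, ∀ x ∈ P, x ≠ 1 → g * x * g⁻¹ = x →
      g ∈ Subgroup.centralizer (P : Set G) := fun g hg x hx hx1 hfix =>
    cyclic_free_action hp P hcyc _ hcP g (hTN hg) _ hidx (hpowmem g hg) x hx hx1 hfix
  have hker := conjHomL_ker P T hTN
  have e := (QuotientGroup.quotientMulEquivOfEq hker).trans
    (QuotientGroup.quotientKerEquivRange (conjHomL P T hTN))
  have hcardq : (Subgroup.centralizer (P : Set G)).relIndex T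
      = Nat.card (conjHomL P T hTN).range := Nat.card_congr e.toEquiv
  have hdpos : blockDefect p (blockOf M (χ₀ : G → ℂ)) ≠ 0 := by
    intro h0
    rw [h0, pow_zero] at hcP
    exact hP1 ((Subgroup.card_eq_one).mp hcP)
  have hdvd1 : (Subgroup.centralizer (P : Set G)).relIndex T
      ∣ p ^ (blockDefect p (blockOf M (χ₀ : G → ℂ)) - 1) * (p - 1) := by
    rw [hcardq, ← Nat.totient_prime_pow hp (Nat.pos_of_ne_zero hdpos), ← hcP,
      ← IsCyclic.card_mulAut P]
    exact Subgroup.card_subgroup_dvd_card _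
  have hcop : Nat.Coprime ((Subgroup.centralizer (P : Set G)).relIndex T)
      (p ^ (blockDefect p (blockOf M (χ₀ : G → ℂ)) - 1)) :=
    Nat.Coprime.pow_right _ ((Nat.Prime.coprime_iff_not_dvd hp).mpr hidx).symm
  have hdvd2 : (Subgroup.centralizer (P : Set G)).relIndex T ∣ p - 1 :=
    hcop.dvd_of_dvd_mul_left hdvd1
  refine ⟨?_, hdvd2, hfree⟩
  by_cases hp2 : p = 2
  · have h1 : (Subgroup.centralizer (P : Set G)).relIndex T = 1 := by
      rw [hp2] at hdvd2
      exact Nat.dvd_one.mp hdvd2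
    have h2 : Nat.card (T ⧸ (Subgroup.centralizer (P : Set G)).subgroupOf T) = 1 := h1
    haveI : Subsingleton (T ⧸ (Subgroup.centralizer (P : Set G)).subgroupOf T) :=
      (Nat.card_eq_one_iff_unique.mp h2).1
    exact isCyclic_of_subsingleton
  · haveI hcz : IsCyclic (ZMod (Nat.card P))ˣ := by
      rw [hcP]
      exact ZMod.isCyclic_units_of_prime_pow p hp hp2 _
    haveI hca : IsCyclic (MulAut P) := (IsCyclic.mulAutMulEquiv P).isCyclic.mpr hcz
    exact e.isCyclic.mpr inferInstance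

end Blk

end Cfsg.Agent.Helper5
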