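import Mathlib
import Cfsg.Agent.Helper5.GlSolv
import Cfsg.Agent.Helper5.PRes
import Cfsg.Agent.Helper24.CharGagola3
import Cfsg.Agent.Helper24.CharDecomp

/-!
helper5: relative version of the Glauberman correspondence (characters over a normal subgroup),
and invariant characters above invariant characters for solvable operator groups.
-/

set_option autoImplicit false

namespace Cfsg.Agent.Helper5

open Cfsg Cfsg.Agent.Helper24

universe u

section Rel

variable {Γ : Type u} [Group Γ]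

theorem rel_over (G N : Subgroup Γ) [Fintype G] [Fintype N] (hNG : N ≤ G) (θ : IrrCharacter N) :
    ∃ χ : IrrCharacter G,
      classInner (fun n : N => (χ : G → ℂ) ⟨n, hNG n.2⟩) (θ : N → ℂ) ≠ 0 := by
  classical
  have : Fintype (N.subgroupOf G) := Fintype.ofFinite _
  obtain ⟨χ, hχ⟩ := exists_irr_over (N.subgroupOf G) (resSub N G (θ : N → ℂ))
    (isIrrCharacter_resSub hNG _ θ.2)
  refine ⟨χ, ?_⟩
  have e : (fun n : N.subgroupOf G => (χ : G → ℂ) n) =
      resSub N G (fun n : N => (χ : G → ℂ) ⟨n, hNG n.2⟩) := by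
    funext x; rfl
  rw [e, classInner_resSub hNG] at hχ
  exact hχ

theorem rel_clifford_dvd (D E : Subgroup Γ) [Fintype D] [Fintype E] (hED : E ≤ D)
    (hnormal : ∀ d ∈ D, ∀ e ∈ E, d * e * d⁻¹ ∈ E) (ξ : IrrCharacter D) (φ : IrrCharacter E)
    (b : ℕ) (hb : classInner (fun e : E => (ξ : D → ℂ) ⟨e, hED e.2⟩) (φ : E → ℂ) = b)
    (hb0 : b ≠ 0) : b ∣ Nat.card D := by
  classical
  have : Fintype (E.subgroupOf D) := Fintype.ofFinite _
  have hN : (E.subgroupOf D).Normal := by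
    constructor
    intro n hn g
    exact hnormal g g.2 n hn
  have e : (fun n : E.subgroupOf D => (ξ : D → ℂ) n) =
      resSub E D (fun e : E => (ξ : D → ℂ) ⟨e, hED e.2⟩) := by
    funext x; rfl
  have hinner : classInner (fun n : E.subgroupOf D => (ξ : D → ℂ) n)
      (resSub E D (φ : E → ℂ)) = b := by
    rw [e, classInner_resSub hED]; exact hb
  have hne : classInner (fun n : E.subgroupOf D => (ξ : D → ℂ) n)
      (resSub E D (φ : E → ℂ)) ≠ 0 := by
    rw [hinner]; exact Nat.cast_ne_zero.mpr hb0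
  have hdeg := clifford_degree_inner (E.subgroupOf D) (ξ : D → ℂ) ξ.2 (resSub E D (φ : E → ℂ))
    (isIrrCharacter_resSub hED _ φ.2) hne
  rw [hinner] at hdeg
  obtain ⟨n, hn1, hn2⟩ := irr_degree_dvd_card ξ
  obtain ⟨d, hd, -⟩ := irr_degree_dvd_card
    (⟨resSub E D (φ : E → ℂ), isIrrCharacter_resSub hED _ φ.2⟩ : IrrCharacter (E.subgroupOf D))
  have hd' : resSub E D (φ : E → ℂ) 1 = d := hd
  rw [hn1, hd'] at hdeg
  have hnat : n = b * Set.ncard {ψ : E.subgroupOf D → ℂ |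
      ∃ g : D, ψ = twist (E.subgroupOf D) (resSub E D (φ : E → ℂ)) g} * d := by
    exact_mod_cast hdeg
  have hbn : b ∣ n := by
    rw [hnat, mul_assoc]
    exact Dvd.intro _ rfl
  exact hbn.trans hn2

/-- multiplicities through an intermediate subgroup. -/
theorem inner_res_trans (G D C : Subgroup Γ) [Fintype G] [Fintype D] [Fintype C] (hDG : D ≤ G)
    (hCD : C ≤ D) (χ : IrrCharacter G) (β : IrrCharacter C) :
    ∃ (a b : IrrCharacter D → ℕ),
      (∀ η : IrrCharacter D,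
        classInner (fun d : D => (χ : G → ℂ) ⟨d, hDG d.2⟩) (η : D → ℂ) = a η) ∧
      (∀ η : IrrCharacter D,
        classInner (fun c : C => (η : D → ℂ) ⟨c, hCD c.2⟩) (β : C → ℂ) = b η) ∧
      classInner (fun c : C => (χ : G → ℂ) ⟨c, (hCD.trans hDG) c.2⟩) (β : C → ℂ) =
        ((∑ η : IrrCharacter D, a η * b η : ℕ) : ℂ) := by
  classical
  have hF : IsCharacter D (fun d : D => (χ : G → ℂ) ⟨d, hDG d.2⟩) :=
    isCharacter_res_le G D hDG (isCharacter_of_isIrrCharacter χ.2)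
  choose a ha' using fun η : IrrCharacter D => isCharacter_inner_irr hF η
  choose b hb' using fun (η : IrrCharacter D) =>
    isCharacter_inner_irr (isCharacter_res_le D C hCD (isCharacter_of_isIrrCharacter η.2)) β
  have hdec := classFunction_eq_sum_irr (fun d : D => (χ : G → ℂ) ⟨d, hDG d.2⟩)
    (isCharacter_isClassFunction hF)
  have e : (fun c : C => (χ : G → ℂ) ⟨c, (hCD.trans hDG) c.2⟩) =
      ∑ η : IrrCharacter D, (a η : ℂ) • (fun c : C => (η : D → ℂ) ⟨c, hCD c.2⟩) := by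
    funext c
    have h := congrFun hdec ⟨c, hCD c.2⟩
    rw [Finset.sum_apply] at h ⊢
    refine h.trans (Finset.sum_congr rfl fun η _ => ?_)
    rw [Pi.smul_apply, Pi.smul_apply, ha' η]
  refine ⟨a, b, ha', hb', ?_⟩
  rw [e, classInner_sum_left]
  push_cast
  refine Finset.sum_congr rfl fun η _ => ?_
  rw [classInner_smul_left, hb' η]

theorem conjEquiv_val (H : Subgroup Γ) (s : Γ) (h1 : ∀ g ∈ H, s * g * s⁻¹ ∈ H)
    (h2 : ∀ g ∈ H, s⁻¹ * g * s ∈ H) (g : H) :
    ((conjEquiv H s h1 h2 g : H) : Γ) = s * g * s⁻¹ := rfl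

/-- the action of `P` on `Irr N` by conjugation. -/
@[instance_reducible] noncomputable def irrMulAction (N P : Subgroup Γ)
    (hP : ∀ y ∈ P, ∀ n ∈ N, y * n * y⁻¹ ∈ N) : MulAction ↥P (IrrCharacter N) where
  smul y φ := ⟨fun n => (φ : N → ℂ) (conjEquiv N (y : Γ)⁻¹
      (fun g hg => hP _ (P.inv_mem y.2) g hg)
      (fun g hg => by rw [inv_inv]; exact hP _ y.2 g hg) n),
    isIrrCharacter_comp_mulEquiv _ φ.2⟩
  one_smul φ := Subtype.ext (funext fun n => congrArg (φ : N → ℂ) (Subtype.ext (by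
    simp only [conjEquiv_val, Subgroup.coe_one, inv_one, one_mul, mul_one])))
  mul_smul a b φ := Subtype.ext (funext fun n => congrArg (φ : N → ℂ) (Subtype.ext (by
    simp only [conjEquiv_val, Subgroup.coe_mul, mul_inv_rev, inv_inv, mul_assoc])))

set_option maxHeartbeats 1600000 in
/-- The relative congruence: `[χ_N, θ]·[θ_E, θ*] ≡ [χ_D, χ*]·[χ*_E, θ*]` modulo `r`. -/
theorem rel_mod (r : ℕ) [hr : Fact r.Prime] (G N P D E : Subgroup Γ) [Fintype G] [Fintype N]
    [Fintype D] [Fintype E] (hP : IsPGroup r P)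
    (hnormN : ∀ y ∈ P, ∀ n ∈ N, y * n * y⁻¹ ∈ N)
    (hNG : N ≤ G) (hDG : D ≤ G) (hEN : E ≤ N) (hED : E ≤ D)
    (hEcent : ∀ e ∈ E, ∀ y ∈ P, y * e = e * y)
    (hN : GC r N E hEN (InvS P N)) (hG : GC r G D hDG (InvS P G))
    (χ : IrrCharacter G) (hχ : InvS P G χ) (θ : IrrCharacter N) (hθ : InvS P N θ)
    (ξ : IrrCharacter D) (m : ℕ)
    (hm : classInner (fun d : D => (χ : G → ℂ) ⟨d, hDG d.2⟩) (ξ : D → ℂ) = m) (hrm : ¬ r ∣ m)
    (θs : IrrCharacter E) (k : ℕ)
    (hk : classInner (fun e : E => (θ : N → ℂ) ⟨e, hEN e.2⟩) (θs : E → ℂ) = k)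
    (hrk : ¬ r ∣ k) :
    ∃ a b : ℕ, classInner (fun n : N => (χ : G → ℂ) ⟨n, hNG n.2⟩) (θ : N → ℂ) = a ∧
      classInner (fun e : E => (ξ : D → ℂ) ⟨e, hED e.2⟩) (θs : E → ℂ) = b ∧
      a * k ≡ m * b [MOD r] := by
  classical
  obtain ⟨a₁, b₁, ha₁, hb₁, hsum₁⟩ := inner_res_trans G D E hDG hED χ θs
  obtain ⟨a₂, b₂, ha₂, hb₂, hsum₂⟩ := inner_res_trans G N E hNG hEN χ θs
  have hsumeq : ∑ η : IrrCharacter D, a₁ η * b₁ η = ∑ φ : IrrCharacter N, a₂ φ * b₂ φ := by
    have h := hsum₁.symm.trans hsum₂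
    exact_mod_cast h
  have ha₁ξ : a₁ ξ = m := by
    have h := ha₁ ξ
    rw [hm] at h
    exact_mod_cast h.symm
  have ha₁η : ∀ η : IrrCharacter D, η ≠ ξ → r ∣ a₁ η := by
    intro η hne
    by_contra hnd
    exact hne (GC_unique hG χ hχ η ξ (a₁ η) m (ha₁ η) hnd hm hrm)
  have hDsum : ∑ η : IrrCharacter D, a₁ η * b₁ η ≡ m * b₁ ξ [MOD r] := by
    rw [← Finset.add_sum_erase Finset.univ (fun η => a₁ η * b₁ η) (Finset.mem_univ ξ), ha₁ξ]
    have hdvd : r ∣ ∑ η ∈ Finset.univ.erase ξ, a₁ η * b₁ η :=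
      Finset.dvd_sum fun η hη => Dvd.dvd.mul_right (ha₁η η (Finset.ne_of_mem_erase hη)) _
    obtain ⟨c, hc⟩ := hdvd
    rw [hc]
    exact Nat.add_mul_mod_self_left _ _ _
  let _ := irrMulAction N P hnormN
  have hmem : ∀ (y : P) (n : N), (y : Γ)⁻¹ * n * y ∈ N := by
    intro y n
    have h := hnormN _ (P.inv_mem y.2) n n.2
    rwa [inv_inv] at h
  have hsmul : ∀ (y : P) (φ : IrrCharacter N) (n : N),
      ((y • φ : IrrCharacter N) : N → ℂ) n = (φ : N → ℂ) ⟨(y : Γ)⁻¹ * n * y, hmem y n⟩ :=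
    fun y φ n => congrArg (φ : N → ℂ) (Subtype.ext (by rw [conjEquiv_val, inv_inv]))
  have ha₂inv : ∀ (y : P) (φ : IrrCharacter N), a₂ (y • φ) = a₂ φ := by
    intro y φ
    obtain ⟨e, he⟩ : ∃ e : ↥N ≃* ↥N, ∀ n : N, ((e n : N) : Γ) = (y : Γ)⁻¹ * n * y :=
      ⟨conjEquiv N (y : Γ)⁻¹ (fun g hg => hnormN _ (P.inv_mem y.2) g hg)
        (fun g hg => by rw [inv_inv]; exact hnormN _ y.2 g hg),
        fun n => by rw [conjEquiv_val, inv_inv]⟩
    obtain ⟨F, hF⟩ : ∃ F : N → ℂ, F = fun n : N => (χ : G → ℂ) ⟨n, hNG n.2⟩ := ⟨_, rfl⟩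
    have hFe : (fun n => F (e n)) = F := by
      funext n
      rw [hF]
      exact hχ (y : Γ)⁻¹ (P.inv_mem y.2) ⟨n, hNG n.2⟩ ⟨e n, hNG (e n).2⟩ (by rw [he, inv_inv])
    have hφe : ((y • φ : IrrCharacter N) : N → ℂ) = fun n => (φ : N → ℂ) (e n) := by
      funext n
      rw [hsmul]
      exact congrArg (φ : N → ℂ) (Subtype.ext (he n).symm)
    have h := classInner_mulEquiv e F (φ : N → ℂ)
    rw [hFe] at h
    have h1 := ha₂ (y • φ)
    rw [hφe, ← hF, h, hF, ha₂ φ] at h1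
    exact_mod_cast h1.symm
  have hb₂inv : ∀ (y : P) (φ : IrrCharacter N), b₂ (y • φ) = b₂ φ := by
    intro y φ
    have hres : (fun c : E => ((y • φ : IrrCharacter N) : N → ℂ) ⟨c, hEN c.2⟩) =
        fun c : E => (φ : N → ℂ) ⟨c, hEN c.2⟩ := by
      funext c
      rw [hsmul]
      refine congrArg (φ : N → ℂ) (Subtype.ext ?_)
      show (y : Γ)⁻¹ * (c : Γ) * y = c
      have h := hEcent c c.2 y y.2
      calc (y : Γ)⁻¹ * (c : Γ) * y = (y : Γ)⁻¹ * ((c : Γ) * y) := by group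
        _ = (y : Γ)⁻¹ * (y * c) := by rw [h]
        _ = c := by group
    have h1 := hb₂ (y • φ)
    rw [hres, hb₂ φ] at h1
    exact_mod_cast h1.symm
  obtain ⟨f, hf⟩ : ∃ f : IrrCharacter N → ℕ, f = fun φ => a₂ φ * b₂ φ := ⟨_, rfl⟩
  have hfv : ∀ φ : IrrCharacter N, f φ = a₂ φ * b₂ φ := by
    intro φ; rw [hf]
  have hfinv : ∀ (y : P) (φ : IrrCharacter N), f (y • φ) = f φ := by
    intro y φ
    rw [hfv, hfv, ha₂inv, hb₂inv]
  obtain ⟨F, hF⟩ : ∃ F : Finset (IrrCharacter N),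
    F = Finset.univ.filter (fun φ => ∀ y : P, y • φ = φ) := ⟨_, rfl⟩
  have hFmem : ∀ φ : IrrCharacter N, φ ∈ F ↔ ∀ y : P, y • φ = φ := by
    intro φ; rw [hF]; simp
  have hmod := sum_modEq_sum_fixed hP f hfinv F hFmem
  have hFinv : ∀ φ : IrrCharacter N, φ ∈ F → InvS P N φ := by
    intro φ hφ s hs g g' hgg'
    have h := congrArg (fun ψ : IrrCharacter N => (ψ : N → ℂ) g') ((hFmem φ).mp hφ ⟨s, hs⟩)
    have h' : (((⟨s, hs⟩ : P) • φ : IrrCharacter N) : N → ℂ) g' = (φ : N → ℂ) g' := h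
    rw [hsmul] at h'
    rw [← h']
    refine congrArg (φ : N → ℂ) (Subtype.ext ?_)
    show s⁻¹ * (g' : Γ) * s = (g : Γ)
    rw [hgg']; group
  have hθF : θ ∈ F := by
    rw [hFmem]
    intro y
    apply Subtype.ext
    funext n
    rw [hsmul]
    exact hθ (y : Γ)⁻¹ (P.inv_mem y.2) n ⟨_, hmem y n⟩ (by rw [inv_inv])
  have hb₂θ : b₂ θ = k := by
    have h := hb₂ θ
    rw [hk] at h
    exact_mod_cast h.symm
  have hb₂φ : ∀ φ ∈ F, φ ≠ θ → r ∣ b₂ φ := by
    intro φ hφ hne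
    by_contra hnd
    exact hne (hN.2.1 φ θ (hFinv φ hφ) hθ θs (b₂ φ) k (hb₂ φ) hnd hk hrk)
  have hNsum : ∑ φ ∈ F, f φ ≡ a₂ θ * k [MOD r] := by
    rw [← Finset.add_sum_erase F f hθF]
    have hdvd : r ∣ ∑ φ ∈ F.erase θ, f φ := by
      refine Finset.dvd_sum fun φ hφ => ?_
      rw [hfv]
      exact Dvd.dvd.mul_left
        (hb₂φ φ (Finset.mem_of_mem_erase hφ) (Finset.ne_of_mem_erase hφ)) _
    obtain ⟨c, hc⟩ := hdvd
    rw [hc, hfv, hb₂θ]
    exact Nat.add_mul_mod_self_left _ _ _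
  refine ⟨a₂ θ, b₁ ξ, ha₂ θ, hb₁ ξ, ?_⟩
  have hfsum : ∑ φ, f φ = ∑ φ : IrrCharacter N, a₂ φ * b₂ φ :=
    Finset.sum_congr rfl fun φ _ => hfv φ
  refine hNsum.symm.trans (hmod.symm.trans ?_)
  rw [hfsum, ← hsumeq]
  exact hDsum

set_option maxHeartbeats 1600000 in
/-- **Invariant characters above invariant characters**, solvable operator group. -/
theorem solv_over [Fintype Γ] : ∀ (n : ℕ) (G S N : Subgroup Γ) [Fintype G] [Fintype N],
    Nat.card G = n → (∀ s ∈ S, ∀ g ∈ G, s * g * s⁻¹ ∈ G) → ∀ (hNG : N ≤ G),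
    (∀ g ∈ G, ∀ n ∈ N, g * n * g⁻¹ ∈ N) → (∀ s ∈ S, ∀ n ∈ N, s * n * s⁻¹ ∈ N) →
    (Nat.card G).Coprime (Nat.card S) → Group.IsSolvable S →
    ∀ θ : IrrCharacter N, InvS S N θ →
    ∃ χ : IrrCharacter G,
      classInner (fun n : N => (χ : G → ℂ) ⟨n, hNG n.2⟩) (θ : N → ℂ) ≠ 0 ∧ InvS S G χ := by
  classical
  intro n
  induction n using Nat.strong_induction_on with
  | _ n ih =>
    intro G S N instG instN hn hnorm hNG hNnormal hNS hcop hsolv θ hinv
    by_cases hcent : ∀ s ∈ S, ∀ g ∈ G, s * g = g * s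
    · obtain ⟨χ, hχ⟩ := rel_over G N hNG θ
      refine ⟨χ, hχ, ?_⟩
      intro s hs g g' hgg'
      have e : g' = g := by
        apply Subtype.ext
        rw [hgg', hcent s hs g g.2, mul_inv_cancel_right]
      rw [e]
    · have hcent' : ∃ s ∈ S, ∃ g ∈ G, s * g ≠ g * s := by
        by_contra hno
        push Not at hno
        exact hcent hno
      obtain ⟨r, P, hr, hPS, hP, ⟨y₀, hy₀, g₀, hg₀, hyg₀⟩, hstar⟩ :=
        solv_step G S hsolv hnorm hcent'
      have hrf : Fact r.Prime := ⟨hr⟩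
      obtain ⟨D, hD⟩ : ∃ D : Subgroup Γ, D = G ⊓ Subgroup.centralizer (P : Set Γ) := ⟨_, rfl⟩
      obtain ⟨E, hE⟩ : ∃ E : Subgroup Γ, E = N ⊓ Subgroup.centralizer (P : Set Γ) := ⟨_, rfl⟩
      have hDG : D ≤ G := by rw [hD]; exact inf_le_left
      have hEN : E ≤ N := by rw [hE]; exact inf_le_left
      have hED : E ≤ D := by
        intro e he
        rw [hE] at he
        rw [hD]
        exact Subgroup.mem_inf.mpr ⟨hNG he.1, he.2⟩
      have instD : Fintype D := Fintype.ofFinite _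
      have instE : Fintype E := Fintype.ofFinite _
      have hnormP : ∀ y ∈ P, ∀ g ∈ G, y * g * y⁻¹ ∈ G := fun y hy => hnorm y (hPS hy)
      have hnormPN : ∀ y ∈ P, ∀ n ∈ N, y * n * y⁻¹ ∈ N := fun y hy => hNS y (hPS hy)
      have hcopP : (Nat.card G).Coprime (Nat.card P) :=
        Nat.Coprime.coprime_dvd_right (Subgroup.card_dvd_of_le hPS) hcop
      have hcopN : (Nat.card N).Coprime (Nat.card S) :=
        Nat.Coprime.coprime_dvd_left (Subgroup.card_dvd_of_le hNG) hcop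
      have hcopPN : (Nat.card N).Coprime (Nat.card P) :=
        Nat.Coprime.coprime_dvd_right (Subgroup.card_dvd_of_le hPS) hcopN
      have hy₀1 : y₀ ≠ 1 := by
        intro h; apply hyg₀; rw [h, one_mul, mul_one]
      have hrG : ¬ r ∣ Nat.card G := not_dvd_of_pgroup hr G S P hPS hP hcop y₀ hy₀ hy₀1
      have hstarN : ∀ s ∈ S, ∀ y ∈ P, ∃ z ∈ P, ∃ k ∈ S, (∀ g ∈ N, g * k = k * g) ∧
          s * y * s⁻¹ = z * k := by
        intro s hs y hy
        obtain ⟨z, hz, k, hk, hkc, e⟩ := hstar s hs y hy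
        exact ⟨z, hz, k, hk, fun g hg => hkc g (hNG hg), e⟩
      have hnormD := star_normD G S P D hnorm hstar hD
      have hnormE := star_normD N S P E hNS hstarN hE
      have baseG := glauberman_p r (Nat.card G) G P rfl hnormP hcopP hP D hD hDG
      have baseN := glauberman_p r (Nat.card N) N P rfl hnormPN hcopPN hP E hE hEN
      have hθP : InvS P N θ := fun y hy => hinv y (hPS hy)
      obtain ⟨θs, k, hk, hkmod, -⟩ := baseN.1 θ hθP
      have hrk : ¬ r ∣ k := not_dvd_of_pm_one hr hkmod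
      have hθsS : InvS S E θs :=
        step_hb N E S hEN (InvS P N) baseN hnormE θ hinv hθP θs k hk hrk
      have hlt : Nat.card D < n := by
        rw [← hn]
        by_contra hge
        push Not at hge
        have hDeq : D = G := Subgroup.eq_of_le_of_card_ge hDG hge
        have h1 : g₀ ∈ D := by rw [hDeq]; exact hg₀
        rw [hD] at h1
        exact hyg₀ ((Subgroup.mem_centralizer_iff.mp h1.2) y₀ hy₀)
      have hcopD : (Nat.card D).Coprime (Nat.card S) :=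
        Nat.Coprime.coprime_dvd_left (Subgroup.card_dvd_of_le hDG) hcop
      have hEnormal : ∀ d ∈ D, ∀ e ∈ E, d * e * d⁻¹ ∈ E := by
        intro d hd e he
        rw [hD] at hd
        rw [hE] at he ⊢
        refine Subgroup.mem_inf.mpr ⟨hNnormal d hd.1 e he.1, ?_⟩
        exact (Subgroup.centralizer (P : Set Γ)).mul_mem
          ((Subgroup.centralizer (P : Set Γ)).mul_mem hd.2 he.2)
          ((Subgroup.centralizer (P : Set Γ)).inv_mem hd.2)
      obtain ⟨ξ, hξ, hξS⟩ :=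
        ih (Nat.card D) hlt D S E rfl hnormD hED hEnormal hnormE hcopD hsolv θs hθsS
      obtain ⟨b, hb⟩ := isCharacter_inner_irr
        (isCharacter_res_le D E hED (isCharacter_of_isIrrCharacter ξ.2)) θs
      have hb0 : b ≠ 0 := by
        intro h0
        apply hξ
        rw [hb, h0]; simp
      have hbdvd : b ∣ Nat.card D := rel_clifford_dvd D E hED hEnormal ξ θs b hb hb0
      have hrb : ¬ r ∣ b := fun h =>
        hrG ((h.trans hbdvd).trans (Subgroup.card_dvd_of_le hDG))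
      obtain ⟨χ, hχP, m, hm, hrm⟩ := baseG.2.2 ξ
      have hχS : InvS S G χ := step_hc G D S hDG (InvS P G) baseG hnorm hnormD
        (star_conj G S P hnorm hstar) χ hχP ξ m hξS hm hrm
      have hEcent : ∀ e ∈ E, ∀ y ∈ P, y * e = e * y := by
        intro e he y hy
        rw [hE] at he
        exact (Subgroup.mem_centralizer_iff.mp he.2) y hy
      obtain ⟨a, b', ha, hb', hmod⟩ := rel_mod r G N P D E hP hnormPN hNG hDG hEN hED hEcent
        baseN baseG χ hχP θ hθP ξ m hm hrm θs k hk hrk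
      have hbb : b' = b := by
        rw [hb] at hb'
        exact_mod_cast hb'.symm
      refine ⟨χ, ?_, hχS⟩
      rw [ha]
      intro h0
      have ha0 : a = 0 := by exact_mod_cast h0
      rw [ha0, zero_mul, hbb] at hmod
      have hdvd : r ∣ m * b := (Nat.modEq_zero_iff_dvd).mp hmod.symm
      rcases (Nat.Prime.dvd_mul hr).mp hdvd with h | h
      · exact hrm h
      · exact hrb h

end Rel

end Cfsg.Agent.Helper5
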