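import Mathlib
import Cfsg.Agent.Helper5.GlRel
import Cfsg.Agent.Helper5.GlCoset
import Cfsg.Agent.Helper5.DegRatio
import Cfsg.Agent.Helper22.Brauer2
import Cfsg.Agent.S0001

/-!
helper5: Dade's detection theorem for invariant characters of normal subgroups of `p`-power index
(Isaacs 8.24), via local Brauer induction.
-/

set_option autoImplicit false

namespace Cfsg.Agent.Helper5

open Cfsg Cfsg.Agent.Helper24 Cfsg.Agent.Helper22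

universe u

section Dade

open scoped ComplexConjugate

variable {G : Type u} [Group G] [Fintype G]

/-- Pairing an induced function with an invariant function on a normal subgroup. -/
theorem ind_res_sum (N : Subgroup G) [hN : N.Normal] (E : Subgroup G) (f : E → ℂ) (F : N → ℂ)
    (hF : ∀ (g : G) (n : N), F ⟨g * n * g⁻¹, hN.conj_mem (n : G) n.2 g⟩ = F n) :
    ∑ᶠ n : N, indFun E f (n : G) * F n =
      (Nat.card G : ℂ) * (Nat.card E : ℂ)⁻¹ *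
        ∑ᶠ d : ↥(E ⊓ N), f ⟨(d : G), d.2.1⟩ * F ⟨(d : G), d.2.2⟩ := by
  classical
  rw [finsum_eq_sum_of_fintype, finsum_eq_sum_of_fintype]
  have key : ∀ x : G, ∑ n : N, extendByZero E f (x⁻¹ * (n : G) * x) * F n =
      ∑ d : ↥(E ⊓ N), f ⟨(d : G), d.2.1⟩ * F ⟨(d : G), d.2.2⟩ := by
    intro x
    have e1 : ∑ n : N, extendByZero E f (x⁻¹ * (n : G) * x) * F n =
        ∑ n : N, extendByZero E f (n : G) * F n := by
      have hmem : ∀ n : N, x⁻¹ * (n : G) * x ∈ N := fun n => by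
        have := hN.conj_mem (n : G) n.2 x⁻¹
        rwa [inv_inv] at this
      let σ : N ≃ N :=
        { toFun := fun n => ⟨x⁻¹ * (n : G) * x, hmem n⟩
          invFun := fun n => ⟨x * (n : G) * x⁻¹, hN.conj_mem (n : G) n.2 x⟩
          left_inv := fun n => Subtype.ext (by simp [mul_assoc])
          right_inv := fun n => Subtype.ext (by simp [mul_assoc]) }
      refine Fintype.sum_equiv σ _ _ (fun n => ?_)
      have h1 : F (σ n) = F n := by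
        rw [← hF x⁻¹ n]
        exact congrArg F (Subtype.ext (by
          show x⁻¹ * (n : G) * x = x⁻¹ * (n : G) * x⁻¹⁻¹
          rw [inv_inv]))
      rw [h1]
      rfl
    have e2 : ∑ n : N, extendByZero E f (n : G) * F n =
        ∑ g : G, extendByZero E f g * extendByZero N F g := by
      have h := sum_extendByZero_mul N F (extendByZero E f)
      have h' : ∑ g : G, extendByZero E f g * extendByZero N F g =
          ∑ g : G, extendByZero N F g * extendByZero E f g :=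
        Finset.sum_congr rfl fun g _ => mul_comm _ _
      rw [h', h]
      exact Finset.sum_congr rfl fun n _ => mul_comm _ _
    have e3 : ∑ g : G, extendByZero E f g * extendByZero N F g =
        ∑ e : E, f e * extendByZero N F (e : G) := sum_extendByZero_mul E f (extendByZero N F)
    have e4 : ∑ d : ↥(E ⊓ N), f ⟨(d : G), d.2.1⟩ * F ⟨(d : G), d.2.2⟩ =
        ∑ e : E, f e * extendByZero N F (e : G) := by
      refine Fintype.sum_of_injective (fun d : ↥(E ⊓ N) => (⟨(d : G), d.2.1⟩ : E)) ?_ _ _ ?_ ?_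
      · intro a b hab
        exact Subtype.ext (congrArg (fun e : E => (e : G)) hab)
      · intro e he
        have : (e : G) ∉ N := fun hn => he ⟨⟨(e : G), ⟨e.2, hn⟩⟩, rfl⟩
        rw [extendByZero_apply_not_mem N F this, mul_zero]
      · intro d
        rw [extendByZero_apply_mem N F d.2.2]
    rw [e1, e2, e3, e4]
  have e5 : ∀ n : N, indFun E f (n : G) * F n =
      (Nat.card E : ℂ)⁻¹ * ∑ x : G, extendByZero E f (x⁻¹ * (n : G) * x) * F n := by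
    intro n
    show ((Nat.card E : ℂ)⁻¹ * ∑ x : G, extendByZero E f (x⁻¹ * (n : G) * x)) * F n = _
    rw [mul_assoc, Finset.sum_mul]
  have e6 : ∑ n : N, indFun E f (n : G) * F n =
      ∑ n : N, (Nat.card E : ℂ)⁻¹ * ∑ x : G, extendByZero E f (x⁻¹ * (n : G) * x) * F n :=
    Finset.sum_congr rfl fun n _ => e5 n
  have e7 : ∑ x : G, ∑ n : N, extendByZero E f (x⁻¹ * (n : G) * x) * F n =
      ∑ x : G, ∑ d : ↥(E ⊓ N), f ⟨(d : G), d.2.1⟩ * F ⟨(d : G), d.2.2⟩ :=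
    Finset.sum_congr rfl fun x _ => key x
  rw [e6, ← Finset.mul_sum, Finset.sum_comm, e7, Finset.sum_const, Finset.card_univ, nsmul_eq_mul,
    ← Nat.card_eq_fintype_card]
  ring

omit [Fintype G] in
theorem card_sup_inf (E N : Subgroup G) [N.Normal] :
    Nat.card G * Nat.card ↥(E ⊓ N) = (E ⊔ N).index * Nat.card N * Nat.card E := by
  have h1 : Nat.card ↥(E ⊓ N) * N.relIndex E = Nat.card E := by
    have := Subgroup.relIndex_mul_relIndex ⊥ (E ⊓ N) E bot_le inf_le_left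
    rwa [Subgroup.relIndex_bot_left, Subgroup.relIndex_bot_left, Subgroup.inf_relIndex_left]
      at this
  have h2 : Nat.card N * N.relIndex E = Nat.card ↥(E ⊔ N) := by
    have := Subgroup.relIndex_mul_relIndex ⊥ N (E ⊔ N) bot_le le_sup_right
    rwa [Subgroup.relIndex_bot_left, Subgroup.relIndex_bot_left, Subgroup.relIndex_sup_right]
      at this
  have h3 := Subgroup.card_mul_index (E ⊔ N)
  rw [← h3, ← h2, ← h1]
  ring

theorem sup_eq_top_of_index {X : Type*} [Group X] (p : ℕ) [hp : Fact p.Prime]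
    (H K : Subgroup X) (hH : ¬ p ∣ H.index) (hK : ∃ k : ℕ, K.index = p ^ k) : H ⊔ K = ⊤ := by
  obtain ⟨k, hk⟩ := hK
  have h1 : (H ⊔ K).index ∣ H.index := Subgroup.index_dvd_of_le le_sup_left
  have h2 : (H ⊔ K).index ∣ p ^ k := hk ▸ Subgroup.index_dvd_of_le le_sup_right
  obtain ⟨j, -, hj⟩ := (Nat.dvd_prime_pow hp.out).mp h2
  rcases Nat.eq_zero_or_pos j with rfl | hpos
  · rw [pow_zero] at hj
    exact Subgroup.index_eq_one.mp hj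
  · exact absurd ((hj ▸ dvd_pow_self p hpos.ne').trans h1) hH

theorem classInner_unitHom_mul_left {X : Type u} [Group X] [Fintype X] (ν : X →* ℂˣ)
    (F F' : X → ℂ) :
    classInner (fun x => ((ν x : ℂˣ) : ℂ) * F x) F' =
      classInner F (fun x => ((ν⁻¹ x : ℂˣ) : ℂ) * F' x) := by
  rw [classInner_def', classInner_def']
  congr 1
  refine Finset.sum_congr rfl fun x _ => ?_
  have h1 := unitHom_mul_conj ν x
  have h2 : starRingEnd ℂ (((ν⁻¹ x : ℂˣ) : ℂ)) = ((ν x : ℂˣ) : ℂ) := by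
    have h3 : ((ν⁻¹ x : ℂˣ) : ℂ) = starRingEnd ℂ ((ν x : ℂˣ) : ℂ) := by
      rw [MonoidHom.inv_apply, Units.val_inv_eq_inv_val]
      exact inv_eq_of_mul_eq_one_right h1
    rw [h3, Complex.conj_conj]
  rw [map_mul, h2]
  ring

/-- The core of Dade's theorem, for an abstract invariant weight function `W` on `N`. -/
theorem dade_core (p : ℕ) [hp : Fact p.Prime] (N : Subgroup G) [hN : N.Normal]
    (hind : ∃ k : ℕ, N.index = p ^ k) (W : N → ℂ)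
    (hW : ∀ (g : G) (n : N), W ⟨g * n * g⁻¹, hN.conj_mem (n : G) n.2 g⟩ = W n)
    (hsum : ∑ᶠ n : N, W n = (Nat.card N : ℂ))
    (hint : ∀ (E : Subgroup G) (lam : E →* ℂˣ), ∃ w : ℕ,
      ∑ᶠ d : ↥(E ⊓ N), ((lam ⟨(d : G), d.2.1⟩ : ℂˣ) : ℂ) * W ⟨(d : G), d.2.2⟩ =
        (Nat.card ↥(E ⊓ N) : ℂ) * w) :
    ∃ (E : Subgroup G) (lam : E →* ℂˣ) (w : ℕ), IsElementary p E ∧ E ⊔ N = ⊤ ∧ ¬ p ∣ w ∧
      ∑ᶠ d : ↥(E ⊓ N), ((lam ⟨(d : G), d.2.1⟩ : ℂˣ) : ℂ) * W ⟨(d : G), d.2.2⟩ =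
        (Nat.card ↥(E ⊓ N) : ℂ) * w := by
  classical
  obtain ⟨k, hk⟩ := hind
  obtain ⟨m, hm, hmem⟩ := solomon_mem_brauerSpan p G
  have hN0 : (Nat.card N : ℂ) ≠ 0 := Nat.cast_ne_zero.mpr Nat.card_pos.ne'
  have main : ∀ ψ : G → ℂ, ψ ∈ brauerSpan p G →
      ∃ v : ℤ, ∑ᶠ n : N, ψ (n : G) * W n = (Nat.card N : ℂ) * v ∧
        (¬ (p : ℤ) ∣ v → ∃ (E : Subgroup G) (lam : E →* ℂˣ) (w : ℕ), IsElementary p E ∧
          E ⊔ N = ⊤ ∧ ¬ p ∣ w ∧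
          ∑ᶠ d : ↥(E ⊓ N), ((lam ⟨(d : G), d.2.1⟩ : ℂˣ) : ℂ) * W ⟨(d : G), d.2.2⟩ =
            (Nat.card ↥(E ⊓ N) : ℂ) * w) := by
    intro ψ hψ
    refine AddSubgroup.closure_induction (p := fun ψ _ =>
      ∃ v : ℤ, ∑ᶠ n : N, ψ (n : G) * W n = (Nat.card N : ℂ) * v ∧
        (¬ (p : ℤ) ∣ v → ∃ (E : Subgroup G) (lam : E →* ℂˣ) (w : ℕ), IsElementary p E ∧
          E ⊔ N = ⊤ ∧ ¬ p ∣ w ∧
          ∑ᶠ d : ↥(E ⊓ N), ((lam ⟨(d : G), d.2.1⟩ : ℂˣ) : ℂ) * W ⟨(d : G), d.2.2⟩ =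
            (Nat.card ↥(E ⊓ N) : ℂ) * w)) ?_ ?_ ?_ ?_ hψ
    · rintro ψ ⟨E, lam, hE, rfl⟩
      obtain ⟨w, hw⟩ := hint E lam
      have h1 := ind_res_sum N E (fun e => ((lam e : ℂˣ) : ℂ)) W hW
      have hcardC : (Nat.card G : ℂ) * (Nat.card ↥(E ⊓ N) : ℂ) =
          ((E ⊔ N).index : ℂ) * (Nat.card N : ℂ) * (Nat.card E : ℂ) := by
        exact_mod_cast card_sup_inf E N
      have hE0 : (Nat.card E : ℂ) ≠ 0 := Nat.cast_ne_zero.mpr Nat.card_pos.ne'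
      refine ⟨(((E ⊔ N).index * w : ℕ) : ℤ), ?_, ?_⟩
      · rw [h1, hw]
        calc (Nat.card G : ℂ) * (Nat.card E : ℂ)⁻¹ * ((Nat.card ↥(E ⊓ N) : ℂ) * (w : ℂ))
            = ((Nat.card G : ℂ) * (Nat.card ↥(E ⊓ N) : ℂ)) * (Nat.card E : ℂ)⁻¹ * (w : ℂ) := by
              ring
          _ = (Nat.card N : ℂ) * ((((E ⊔ N).index * w : ℕ) : ℤ) : ℂ) := by
              rw [hcardC]
              push_cast
              field_simp
      · intro hv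
        have hv' : ¬ p ∣ (E ⊔ N).index * w := fun h => hv (Int.natCast_dvd_natCast.mpr h)
        have ht : ¬ p ∣ (E ⊔ N).index := fun h => hv' (Dvd.dvd.mul_right h w)
        have hw' : ¬ p ∣ w := fun h => hv' (Dvd.dvd.mul_left h _)
        have htop : E ⊔ N = ⊤ := by
          have hd : (E ⊔ N).index ∣ p ^ k := by
            rw [← hk]
            exact Subgroup.index_dvd_of_le le_sup_right
          obtain ⟨j, -, hj⟩ := (Nat.dvd_prime_pow hp.out).mp hd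
          rcases Nat.eq_zero_or_pos j with rfl | hpos
          · rw [pow_zero] at hj
            exact Subgroup.index_eq_one.mp hj
          · exact absurd (hj ▸ dvd_pow_self p hpos.ne') ht
        exact ⟨E, lam, w, hE, htop, hw', hw⟩
    · refine ⟨0, ?_, fun h => absurd (dvd_zero _) h⟩
      simp
    · rintro x y _ _ ⟨v1, h1, q1⟩ ⟨v2, h2, q2⟩
      refine ⟨v1 + v2, ?_, ?_⟩
      · rw [finsum_eq_sum_of_fintype] at h1 h2 ⊢
        simp only [Pi.add_apply, add_mul, Finset.sum_add_distrib, h1, h2]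
        push_cast
        ring
      · intro hv
        by_cases hv1 : (p : ℤ) ∣ v1
        · exact q2 fun hv2 => hv (dvd_add hv1 hv2)
        · exact q1 hv1
    · rintro x _ ⟨v, h1, q⟩
      refine ⟨-v, ?_, ?_⟩
      · rw [finsum_eq_sum_of_fintype] at h1 ⊢
        simp only [Pi.neg_apply, neg_mul, Finset.sum_neg_distrib, h1]
        push_cast
        ring
      · intro hv
        exact q fun h => hv ((dvd_neg).mpr h)
  obtain ⟨v, hv, hq⟩ := main _ hmem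
  have hvm : v = m := by
    rw [finsum_eq_sum_of_fintype] at hsum hv
    have h2 : (Nat.card N : ℂ) * (m : ℂ) = (Nat.card N : ℂ) * (v : ℂ) := by
      rw [← hv, ← Finset.mul_sum, hsum, mul_comm]
    exact_mod_cast (mul_left_cancel₀ hN0 h2).symm
  exact hq (hvm ▸ hm)

set_option maxHeartbeats 1600000 in
/-- **Dade's detection theorem** (Isaacs 8.24). -/
theorem dade_detect (p : ℕ) (hp : p.Prime) (N : Subgroup G) [hN : N.Normal]
    (hind : ∃ k : ℕ, N.index = p ^ k) (ϑ : N → ℂ) (hϑ : IsIrrCharacter N ϑ)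
    (hinv : ∀ (g : G) (n : N), ϑ ⟨g * n * g⁻¹, hN.conj_mem (n : G) n.2 g⟩ = ϑ n) :
    ∃ (E : Subgroup G) (φ : ↥(E ⊓ N) → ℂ), IsElementary p E ∧ E ⊔ N = ⊤ ∧
      IsIrrCharacter ↥(E ⊓ N) φ ∧
      (∀ (g : G) (hg : g ∈ E) (x : ↥(E ⊓ N)),
        φ ⟨g * x * g⁻¹, ⟨(E.mul_mem (E.mul_mem hg x.2.1) (E.inv_mem hg)),
          hN.conj_mem (x : G) x.2.2 g⟩⟩ = φ x) ∧
      ∃ m : ℕ, ¬ p ∣ m ∧ (Nat.card ↥(E ⊓ N) : ℂ)⁻¹ *
        ∑ᶠ x : ↥(E ⊓ N), ϑ ⟨(x : G), x.2.2⟩ * conj (φ x) = (m : ℂ) := by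
  classical
  have hpF : Fact p.Prime := ⟨hp⟩
  obtain ⟨W, hWdef⟩ : ∃ W : N → ℂ, W = fun n => ϑ n * conj (ϑ n) := ⟨_, rfl⟩
  have hW : ∀ (g : G) (n : N), W ⟨g * n * g⁻¹, hN.conj_mem (n : G) n.2 g⟩ = W n := by
    intro g n
    rw [hWdef]
    show ϑ _ * conj (ϑ _) = _
    rw [hinv g n]
  have hN0 : (Nat.card N : ℂ) ≠ 0 := Nat.cast_ne_zero.mpr Nat.card_pos.ne'
  have hsum : ∑ᶠ n : N, W n = (Nat.card N : ℂ) := by
    rw [finsum_eq_sum_of_fintype, hWdef]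
    have h := irr_inner_self (⟨ϑ, hϑ⟩ : IrrCharacter N)
    rw [classInner_def'] at h
    exact ((inv_mul_eq_one₀ hN0).mp h).symm
  have hint : ∀ (E : Subgroup G) (lam : E →* ℂˣ), ∃ w : ℕ,
      ∑ᶠ d : ↥(E ⊓ N), ((lam ⟨(d : G), d.2.1⟩ : ℂˣ) : ℂ) * W ⟨(d : G), d.2.2⟩ =
        (Nat.card ↥(E ⊓ N) : ℂ) * w := by
    intro E lam
    have hθD : IsCharacter ↥(E ⊓ N) (fun d : ↥(E ⊓ N) => ϑ ⟨(d : G), d.2.2⟩) :=
      isCharacter_comp_hom (Subgroup.inclusion (inf_le_right : E ⊓ N ≤ N))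
        (isCharacter_of_isIrrCharacter hϑ)
    have hl := isCharacter_mul
      (isCharacter_unitHom (lam.comp (Subgroup.inclusion (inf_le_left : E ⊓ N ≤ E)))) hθD
    obtain ⟨w, hw⟩ := classInner_isCharacter_natCast hl hθD
    refine ⟨w, ?_⟩
    rw [finsum_eq_sum_of_fintype, hWdef]
    rw [classInner_def'] at hw
    have hD0 : (Nat.card ↥(E ⊓ N) : ℂ) ≠ 0 := Nat.cast_ne_zero.mpr Nat.card_pos.ne'
    rw [inv_mul_eq_iff_eq_mul₀ hD0] at hw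
    rw [← hw]
    exact Finset.sum_congr rfl fun d _ => (mul_assoc _ _ _).symm
  obtain ⟨E, lam, w, hE, htop, hw, hsumE⟩ := dade_core p N hind W hW hsum hint
  obtain ⟨k, hk⟩ := hind
  have hD0 : (Nat.card ↥(E ⊓ N) : ℂ) ≠ 0 := Nat.cast_ne_zero.mpr Nat.card_pos.ne'
  -- the restriction of ϑ to D = E ⊓ N
  obtain ⟨θD, hθDdef⟩ : ∃ θD : ↥(E ⊓ N) → ℂ, θD = fun d : ↥(E ⊓ N) => ϑ ⟨(d : G), d.2.2⟩ :=
    ⟨_, rfl⟩
  have hθD : IsCharacter ↥(E ⊓ N) θD := by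
    rw [hθDdef]
    exact isCharacter_comp_hom (Subgroup.inclusion (inf_le_right : E ⊓ N ≤ N))
      (isCharacter_of_isIrrCharacter hϑ)
  obtain ⟨lamD, hlamD⟩ : ∃ lamD : ↥(E ⊓ N) →* ℂˣ,
      lamD = lam.comp (Subgroup.inclusion (inf_le_left : E ⊓ N ≤ E)) := ⟨_, rfl⟩
  choose c hc using fun φ : IrrCharacter ↥(E ⊓ N) => isCharacter_inner_irr hθD φ
  obtain ⟨τ, hτ⟩ : ∃ τ : Equiv.Perm (IrrCharacter ↥(E ⊓ N)), τ = nuMul lamD⁻¹ := ⟨_, rfl⟩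
  -- the key formula for w
  have hwsum : w = ∑ φ : IrrCharacter ↥(E ⊓ N), c (τ φ) * c φ := by
    have h1 : classInner (fun d : ↥(E ⊓ N) => ((lamD d : ℂˣ) : ℂ) * θD d) θD = (w : ℂ) := by
      rw [classInner_def', inv_mul_eq_iff_eq_mul₀ hD0, ← hsumE, finsum_eq_sum_of_fintype, hWdef,
        hθDdef, hlamD]
      exact Finset.sum_congr rfl fun d _ => (mul_assoc _ _ _)
    have hcl : IsClassFunction ↥(E ⊓ N) (fun d : ↥(E ⊓ N) => ((lamD d : ℂˣ) : ℂ) * θD d) :=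
      isCharacter_isClassFunction (isCharacter_mul (isCharacter_unitHom lamD) hθD)
    rw [classInner_eq_sum_irr hcl θD] at h1
    have h2 : ∀ φ : IrrCharacter ↥(E ⊓ N),
        classInner (fun d : ↥(E ⊓ N) => ((lamD d : ℂˣ) : ℂ) * θD d) (φ : ↥(E ⊓ N) → ℂ) *
          classInner (φ : ↥(E ⊓ N) → ℂ) θD = ((c (τ φ) * c φ : ℕ) : ℂ) := by
      intro φ
      have h3 : classInner (φ : ↥(E ⊓ N) → ℂ) θD = (c φ : ℂ) := by
        rw [classInner_conj_symm, hc φ, Complex.conj_natCast]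
      have h4 : classInner (fun d : ↥(E ⊓ N) => ((lamD d : ℂˣ) : ℂ) * θD d)
          (φ : ↥(E ⊓ N) → ℂ) = (c (τ φ) : ℂ) := by
        rw [classInner_unitHom_mul_left, ← hc (τ φ), hτ]
        rfl
      rw [h3, h4]
      push_cast
      rfl
    have h5 : ∑ φ : IrrCharacter ↥(E ⊓ N),
        classInner (fun d : ↥(E ⊓ N) => ((lamD d : ℂˣ) : ℂ) * θD d) (φ : ↥(E ⊓ N) → ℂ) *
          classInner (φ : ↥(E ⊓ N) → ℂ) θD =
        ∑ φ : IrrCharacter ↥(E ⊓ N), ((c (τ φ) * c φ : ℕ) : ℂ) :=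
      Finset.sum_congr rfl fun φ _ => h2 φ
    rw [h5] at h1
    exact_mod_cast h1.symm
  -- the Sylow subgroup of E
  obtain ⟨Qs⟩ : Nonempty (Sylow p ↥E) := inferInstance
  obtain ⟨P, hPdef⟩ : ∃ P : Subgroup G, P = (Qs : Subgroup ↥E).map E.subtype := ⟨_, rfl⟩
  have hP : IsPGroup p ↥P := by
    rw [hPdef]
    exact Qs.isPGroup'.map E.subtype
  have hPE : ∀ y ∈ P, y ∈ E := by
    rw [hPdef]
    rintro _ ⟨q, _, rfl⟩
    exact q.2
  have hPD : ∀ y ∈ P, ∀ n ∈ E ⊓ N, y * n * y⁻¹ ∈ E ⊓ N := fun y hy n hn =>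
    ⟨E.mul_mem (E.mul_mem (hPE y hy) hn.1) (E.inv_mem (hPE y hy)), hN.conj_mem n hn.2 y⟩
  let _ := irrMulAction (E ⊓ N) P hPD
  have hsmul : ∀ (y : ↥P) (φ : IrrCharacter ↥(E ⊓ N)) (d : ↥(E ⊓ N)),
      ((y • φ : IrrCharacter ↥(E ⊓ N)) : ↥(E ⊓ N) → ℂ) d =
        (φ : ↥(E ⊓ N) → ℂ) ⟨(y : G)⁻¹ * (d : G) * (y : G),
          by have := hPD _ (P.inv_mem y.2) d d.2; rwa [inv_inv] at this⟩ := by
    intro y φ d
    show (φ : ↥(E ⊓ N) → ℂ) _ = _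
    refine congrArg (φ : ↥(E ⊓ N) → ℂ) (Subtype.ext ?_)
    show (y : G)⁻¹ * (d : G) * (y : G)⁻¹⁻¹ = (y : G)⁻¹ * (d : G) * (y : G)
    rw [inv_inv]
  have hc_inv : ∀ (y : ↥P) (φ : IrrCharacter ↥(E ⊓ N)), c (y • φ) = c φ := by
    intro y φ
    have h1 : classInner θD ((y • φ : IrrCharacter ↥(E ⊓ N)) : ↥(E ⊓ N) → ℂ) =
        classInner θD (φ : ↥(E ⊓ N) → ℂ) := by
      have h2 := classInner_mulEquiv (conjEquiv (E ⊓ N) (y : G)⁻¹
        (fun g hg => hPD _ (P.inv_mem y.2) g hg)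
        (fun g hg => by rw [inv_inv]; exact hPD _ y.2 g hg)) θD (φ : ↥(E ⊓ N) → ℂ)
      rw [← h2]
      congr 1
      funext d
      rw [hθDdef]
      show ϑ _ = ϑ _
      have h3 := hinv (y : G)⁻¹ ⟨(d : G), d.2.2⟩
      rw [← h3]
      exact congrArg ϑ (Subtype.ext rfl)
    rw [hc, hc] at h1
    exact_mod_cast h1
  have hτ_comm : ∀ (y : ↥P) (φ : IrrCharacter ↥(E ⊓ N)), τ (y • φ) = y • τ φ := by
    intro y φ
    apply Subtype.ext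
    funext d
    rw [hsmul, hτ]
    show ((lamD⁻¹ d : ℂˣ) : ℂ) * ((y • φ : IrrCharacter ↥(E ⊓ N)) : ↥(E ⊓ N) → ℂ) d =
      ((lamD⁻¹ _ : ℂˣ) : ℂ) * (φ : ↥(E ⊓ N) → ℂ) _
    rw [hsmul]
    congr 2
    rw [MonoidHom.inv_apply, MonoidHom.inv_apply, hlamD]
    congr 1
    show lam _ = lam _
    have h1 : (Subgroup.inclusion (inf_le_left : E ⊓ N ≤ E)
        (⟨(y : G)⁻¹ * (d : G) * (y : G),
          by have := hPD _ (P.inv_mem y.2) d d.2; rwa [inv_inv] at this⟩ : ↥(E ⊓ N))) =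
        (⟨(y : G), hPE y y.2⟩ : E)⁻¹ * (Subgroup.inclusion (inf_le_left : E ⊓ N ≤ E) d) *
          ⟨(y : G), hPE y y.2⟩ := Subtype.ext rfl
    rw [h1, map_mul, map_mul, map_inv, mul_comm, ← mul_assoc, mul_inv_cancel, one_mul]
  obtain ⟨F, hFdef⟩ : ∃ F : Finset (IrrCharacter ↥(E ⊓ N)),
      F = Finset.univ.filter (fun φ => ∀ y : ↥P, y • φ = φ) := ⟨_, rfl⟩
  have hmod := sum_modEq_sum_fixed hP (fun φ : IrrCharacter ↥(E ⊓ N) => c (τ φ) * c φ)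
    (fun y φ => by
      show c (τ (y • φ)) * c (y • φ) = c (τ φ) * c φ
      rw [hτ_comm, hc_inv, hc_inv]) F
    (fun φ => by rw [hFdef, Finset.mem_filter]; simp)
  have hex : ∃ φ ∈ F, ¬ p ∣ c (τ φ) * c φ := by
    by_contra hcon
    push Not at hcon
    have h1 : p ∣ ∑ φ ∈ F, c (τ φ) * c φ := Finset.dvd_sum hcon
    have h2 : p ∣ ∑ φ : IrrCharacter ↥(E ⊓ N), c (τ φ) * c φ :=
      Nat.modEq_zero_iff_dvd.mp (hmod.trans (Nat.modEq_zero_iff_dvd.mpr h1))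
    exact hw (hwsum ▸ h2)
  obtain ⟨φ, hφF, hφ⟩ := hex
  have hφfix : ∀ y : ↥P, y • φ = φ := by
    rw [hFdef, Finset.mem_filter] at hφF
    exact hφF.2
  have hcφ : ¬ p ∣ c φ := fun h => hφ (Dvd.dvd.mul_left h _)
  -- E = Qs · (N ∩ E)
  have hNE : (N.subgroupOf E).Normal := inferInstance
  have hsup : (Qs : Subgroup ↥E) ⊔ N.subgroupOf E = ⊤ := by
    refine sup_eq_top_of_index p _ _ Qs.not_dvd_index ?_
    have h1 : (N.subgroupOf E).index ∣ p ^ k := by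
      rw [← hk]
      exact Subgroup.relIndex_dvd_index_of_normal N E
    obtain ⟨j, -, hj⟩ := (Nat.dvd_prime_pow hp).mp h1
    exact ⟨j, hj⟩
  refine ⟨E, (φ : ↥(E ⊓ N) → ℂ), hE, htop, φ.2, ?_, c φ, hcφ, ?_⟩
  · intro g hg x
    have hg' : (⟨g, hg⟩ : E) ∈ (Qs : Subgroup ↥E) ⊔ N.subgroupOf E := by
      rw [hsup]
      exact Subgroup.mem_top _
    obtain ⟨q, hq, n, hn, hgqn⟩ :=
      (Cfsg.Agent.S0001.mem_sup_normal (Qs : Subgroup ↥E) (N.subgroupOf E) _).mp hg'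
    have hgqn' : g = (q : G) * (n : G) := congrArg (fun e : E => (e : G)) hgqn
    have hnN : (n : G) ∈ N := Subgroup.mem_subgroupOf.mp hn
    have hqP : (q : G)⁻¹ ∈ P := by
      rw [hPdef]
      exact Subgroup.inv_mem _ ⟨q, hq, rfl⟩
    -- conjugate by n first
    have hx1 : (n : G) * (x : G) * (n : G)⁻¹ ∈ E ⊓ N :=
      ⟨E.mul_mem (E.mul_mem n.2 x.2.1) (E.inv_mem n.2), hN.conj_mem (x : G) x.2.2 _⟩
    have e1 : (φ : ↥(E ⊓ N) → ℂ) ⟨(n : G) * (x : G) * (n : G)⁻¹, hx1⟩ =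
        (φ : ↥(E ⊓ N) → ℂ) x := irr_conj φ x ⟨(n : G), ⟨n.2, hnN⟩⟩
    have e2 := hsmul ⟨(q : G)⁻¹, hqP⟩ φ ⟨(n : G) * (x : G) * (n : G)⁻¹, hx1⟩
    rw [hφfix] at e2
    rw [← e1, e2]
    refine congrArg (φ : ↥(E ⊓ N) → ℂ) (Subtype.ext ?_)
    show g * (x : G) * g⁻¹ = ((q : G)⁻¹)⁻¹ * ((n : G) * (x : G) * (n : G)⁻¹) * (q : G)⁻¹
    rw [hgqn']
    group
  · rw [finsum_eq_sum_of_fintype]
    have h := hc φ
    rw [classInner_def', hθDdef] at h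
    exact h

/-- gluing a linear character of `Q` and one of a central subgroup `D` when `E = Q D`. -/
theorem hom_ext_central {Γ : Type*} [Group Γ] (E Q D : Subgroup Γ) (hQE : Q ≤ E) (hDE : D ≤ E)
    (hdec : ∀ e ∈ E, ∃ q ∈ Q, ∃ d ∈ D, e = q * d)
    (hcen : ∀ d ∈ D, ∀ e ∈ E, e * d = d * e)
    (α : ↥Q →* ℂˣ) (lam : ↥D →* ℂˣ)
    (hag : ∀ (z : Γ) (hq : z ∈ Q) (hd : z ∈ D), α ⟨z, hq⟩ = lam ⟨z, hd⟩) :
    ∃ Λ : ↥E →* ℂˣ, ∀ (d : Γ) (hd : d ∈ D), Λ ⟨d, hDE hd⟩ = lam ⟨d, hd⟩ := by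
  classical
  have hwd : ∀ (q q' : Γ) (hq : q ∈ Q) (hq' : q' ∈ Q) (d d' : Γ) (hd : d ∈ D) (hd' : d' ∈ D),
      q * d = q' * d' → α ⟨q, hq⟩ * lam ⟨d, hd⟩ = α ⟨q', hq'⟩ * lam ⟨d', hd'⟩ := by
    intro q q' hq hq' d d' hd hd' h
    have hz : q'⁻¹ * q = d' * d⁻¹ := by
      rw [inv_mul_eq_iff_eq_mul, ← mul_assoc, ← h, mul_inv_cancel_right]
    have hzQ : q'⁻¹ * q ∈ Q := Q.mul_mem (Q.inv_mem hq') hq
    have hzD : q'⁻¹ * q ∈ D := by
      rw [hz]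
      exact D.mul_mem hd' (D.inv_mem hd)
    have h1 := hag _ hzQ hzD
    have h2 : (⟨q'⁻¹ * q, hzQ⟩ : Q) = (⟨q', hq'⟩ : Q)⁻¹ * ⟨q, hq⟩ := rfl
    have h3 : (⟨q'⁻¹ * q, hzD⟩ : D) = (⟨d', hd'⟩ : D) * (⟨d, hd⟩ : D)⁻¹ := Subtype.ext hz
    rw [h2, h3, map_mul, map_mul, map_inv, map_inv] at h1
    calc α ⟨q, hq⟩ * lam ⟨d, hd⟩
        = α ⟨q', hq'⟩ * ((α ⟨q', hq'⟩)⁻¹ * α ⟨q, hq⟩) * lam ⟨d, hd⟩ := by
          rw [mul_inv_cancel_left]
      _ = α ⟨q', hq'⟩ * lam ⟨d', hd'⟩ := by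
          rw [h1, mul_assoc, inv_mul_cancel_right]
  choose qf hqf df hdf hqd using fun e : ↥E => hdec (e : Γ) e.2
  have hval : ∀ (e : ↥E) (q d : Γ) (hq : q ∈ Q) (hd : d ∈ D), (e : Γ) = q * d →
      α ⟨qf e, hqf e⟩ * lam ⟨df e, hdf e⟩ = α ⟨q, hq⟩ * lam ⟨d, hd⟩ := by
    intro e q d hq hd h
    exact hwd _ _ _ _ _ _ _ _ ((hqd e).symm.trans h)
  refine ⟨MonoidHom.mk' (fun e => α ⟨qf e, hqf e⟩ * lam ⟨df e, hdf e⟩) ?_, ?_⟩
  · intro a b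
    have h1 : ((a * b : ↥E) : Γ) = (qf a * qf b) * (df a * df b) := by
      have ha := hqd a
      have hb := hqd b
      have hc := hcen (df a) (hdf a) (qf b) (hQE (hqf b))
      calc ((a * b : ↥E) : Γ) = (a : Γ) * (b : Γ) := rfl
        _ = qf a * df a * (qf b * df b) := by rw [← ha, ← hb]
        _ = qf a * (df a * qf b) * df b := by simp only [mul_assoc]
        _ = qf a * (qf b * df a) * df b := by rw [hc]
        _ = (qf a * qf b) * (df a * df b) := by simp only [mul_assoc]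
    have h2 := hval (a * b) (qf a * qf b) (df a * df b) (Q.mul_mem (hqf a) (hqf b))
      (D.mul_mem (hdf a) (hdf b)) h1
    have h3 : (⟨qf a * qf b, Q.mul_mem (hqf a) (hqf b)⟩ : Q) = ⟨qf a, hqf a⟩ * ⟨qf b, hqf b⟩ :=
      rfl
    have h4 : (⟨df a * df b, D.mul_mem (hdf a) (hdf b)⟩ : D) = ⟨df a, hdf a⟩ * ⟨df b, hdf b⟩ :=
      rfl
    show α ⟨qf (a * b), hqf (a * b)⟩ * lam ⟨df (a * b), hdf (a * b)⟩ =
      (α ⟨qf a, hqf a⟩ * lam ⟨df a, hdf a⟩) * (α ⟨qf b, hqf b⟩ * lam ⟨df b, hdf b⟩)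
    rw [h2, h3, h4, map_mul, map_mul, mul_mul_mul_comm]
  · intro d hd
    show α ⟨qf ⟨d, hDE hd⟩, hqf _⟩ * lam ⟨df ⟨d, hDE hd⟩, hdf _⟩ = lam ⟨d, hd⟩
    have h1 := hval ⟨d, hDE hd⟩ 1 d Q.one_mem hd (one_mul d).symm
    have h2 : (⟨1, Q.one_mem⟩ : Q) = 1 := rfl
    rw [h1, h2, map_one, one_mul]

/-- linear characters of subgroups of abelian groups extend. -/
theorem lin_ext_abelian {Γ : Type u} [Group Γ] [Finite Γ] (A R : Subgroup Γ) (hRA : R ≤ A)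
    (hab : ∀ a ∈ A, ∀ b ∈ A, a * b = b * a) (lam : ↥R →* ℂˣ) :
    ∃ χ : ↥A → ℂ, IsCharacter ↥A χ ∧ χ 1 = 1 ∧
      ∀ r : ↥R, χ ⟨(r : Γ), hRA r.2⟩ = ((lam r : ℂˣ) : ℂ) := by
  classical
  have : Fintype Γ := Fintype.ofFinite Γ
  obtain ⟨χ, hχ⟩ := rel_over A R hRA ⟨fun r => ((lam r : ℂˣ) : ℂ), isIrrCharacter_of_hom lam⟩
  have hab' : ∀ a b : ↥A, a * b = b * a := fun a b => Subtype.ext (hab a a.2 b b.2)
  have h1 : (χ : ↥A → ℂ) 1 = 1 := irr_one_of_comm hab' χ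
  obtain ⟨χh, hχh⟩ := linChar_exists_hom (isCharacter_of_isIrrCharacter χ.2) h1
  refine ⟨χ, isCharacter_of_isIrrCharacter χ.2, h1, ?_⟩
  have hres : (fun r : ↥R => (χ : ↥A → ℂ) ⟨(r : Γ), hRA r.2⟩) =
      fun r : ↥R => ((χh.comp (Subgroup.inclusion hRA) r : ℂˣ) : ℂ) := by
    funext r
    exact (hχh _).symm
  have hirr : IsIrrCharacter ↥R (fun r : ↥R => (χ : ↥A → ℂ) ⟨(r : Γ), hRA r.2⟩) := by
    rw [hres]
    exact isIrrCharacter_of_hom _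
  have heq : (⟨_, hirr⟩ : IrrCharacter ↥R) =
      ⟨fun r => ((lam r : ℂˣ) : ℂ), isIrrCharacter_of_hom lam⟩ := by
    by_contra hne
    have h0 := irr_inner_ne hne
    exact hχ h0
  intro r
  exact congrFun (congrArg Subtype.val heq) r

omit [Fintype G] in
theorem cent_hyp_conj (P P' N : Subgroup G) [hN : N.Normal] (g : G)
    (hg : ∀ y, y ∈ P' ↔ g⁻¹ * y * g ∈ P)
    (hcent : ∀ x ∈ P ⊓ N, ∀ y ∈ P, x * y = y * x) :
    ∀ x ∈ P' ⊓ N, ∀ y ∈ P', x * y = y * x := by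
  intro x hx y hy
  have hx' : g⁻¹ * x * g ∈ P ⊓ N := ⟨(hg _).mp hx.1, by
    have := hN.conj_mem _ hx.2 g⁻¹
    rwa [inv_inv] at this⟩
  have h := hcent _ hx' _ ((hg _).mp hy)
  have h2 : g * (g⁻¹ * x * g * (g⁻¹ * y * g)) * g⁻¹ =
      g * (g⁻¹ * y * g * (g⁻¹ * x * g)) * g⁻¹ := by rw [h]
  have e1 : g * (g⁻¹ * x * g * (g⁻¹ * y * g)) * g⁻¹ = x * y := by group
  have e2 : g * (g⁻¹ * y * g * (g⁻¹ * x * g)) * g⁻¹ = y * x := by group
  rw [e1, e2] at h2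
  exact h2

omit [Fintype G] in
theorem lin_hyp_conj (P P' N : Subgroup G) [hN : N.Normal] (g : G)
    (hg : ∀ y, y ∈ P' ↔ g⁻¹ * y * g ∈ P)
    (hlin : ∀ lam : ↥(P ⊓ N) → ℂ, IsCharacter ↥(P ⊓ N) lam → lam 1 = 1 →
      ∃ μ : ↥P → ℂ, IsCharacter ↥P μ ∧ μ 1 = 1 ∧ ∀ x : ↥(P ⊓ N), μ ⟨(x : G), x.2.1⟩ = lam x) :
    ∀ lam : ↥(P' ⊓ N) → ℂ, IsCharacter ↥(P' ⊓ N) lam → lam 1 = 1 →
      ∃ μ : ↥P' → ℂ, IsCharacter ↥P' μ ∧ μ 1 = 1 ∧
        ∀ x : ↥(P' ⊓ N), μ ⟨(x : G), x.2.1⟩ = lam x := by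
  intro lam' hlam' hlam'1
  have hmem1 : ∀ x : ↥(P ⊓ N), g * (x : G) * g⁻¹ ∈ P' ⊓ N := fun x =>
    ⟨(hg _).mpr (by
      have : g⁻¹ * (g * (x : G) * g⁻¹) * g = (x : G) := by group
      rw [this]
      exact x.2.1), hN.conj_mem _ x.2.2 g⟩
  let j : ↥(P ⊓ N) →* ↥(P' ⊓ N) :=
    { toFun := fun x => ⟨g * (x : G) * g⁻¹, hmem1 x⟩
      map_one' := Subtype.ext (by simp)
      map_mul' := fun a b => Subtype.ext (by simp [mul_assoc]) }
  let j' : ↥P' →* ↥P :=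
    { toFun := fun y => ⟨g⁻¹ * (y : G) * g, (hg _).mp y.2⟩
      map_one' := Subtype.ext (by simp)
      map_mul' := fun a b => Subtype.ext (by simp [mul_assoc]) }
  obtain ⟨μ, hμ, hμ1, hμres⟩ := hlin (fun x => lam' (j x)) (isCharacter_comp_hom j hlam') (by
    show lam' (j 1) = 1
    rw [map_one]
    exact hlam'1)
  refine ⟨fun y => μ (j' y), isCharacter_comp_hom j' hμ, ?_, ?_⟩
  · show μ (j' 1) = 1
    rw [map_one]
    exact hμ1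
  · intro x
    have hx : g⁻¹ * (x : G) * g ∈ P ⊓ N := ⟨(hg _).mp x.2.1, by
      have := hN.conj_mem _ x.2.2 g⁻¹
      rwa [inv_inv] at this⟩
    have h1 := hμres ⟨g⁻¹ * (x : G) * g, hx⟩
    show μ (j' ⟨(x : G), x.2.1⟩) = lam' x
    have h2 : j' ⟨(x : G), x.2.1⟩ = ⟨((⟨g⁻¹ * (x : G) * g, hx⟩ : ↥(P ⊓ N)) : G), hx.1⟩ := rfl
    rw [h2, h1]
    show lam' (j ⟨g⁻¹ * (x : G) * g, hx⟩) = lam' x
    congr 1
    apply Subtype.ext
    show g * (g⁻¹ * (x : G) * g) * g⁻¹ = (x : G)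
    group

set_option maxHeartbeats 1600000 in
/-- from a detecting linear character on `E` to an extension of `ϑ`. -/
theorem ext_of_detect (p : ℕ) [hp : Fact p.Prime] (N : Subgroup G) [hN : N.Normal]
    (hind : ∃ k : ℕ, N.index = p ^ k) (ϑ : N → ℂ) (hϑ : IsIrrCharacter N ϑ)
    (hinv : ∀ (g : G) (n : N), ϑ ⟨g * n * g⁻¹, hN.conj_mem (n : G) n.2 g⟩ = ϑ n)
    (E : Subgroup G) (htop : E ⊔ N = ⊤) (Λ : ↥E →* ℂˣ) (m : ℕ) (hm : ¬ p ∣ m)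
    (hmeq : (Nat.card ↥(E ⊓ N) : ℂ)⁻¹ * ∑ᶠ x : ↥(E ⊓ N),
      ϑ ⟨(x : G), x.2.2⟩ * conj ((Λ ⟨(x : G), x.2.1⟩ : ℂˣ) : ℂ) = (m : ℂ)) :
    ∃ χ : G → ℂ, IsIrrCharacter G χ ∧ ∀ n : N, χ n = ϑ n := by
  classical
  obtain ⟨k, hk⟩ := hind
  obtain ⟨Φ, hΦdef⟩ : ∃ Φ : G → ℂ, Φ = indFun E (fun e => ((Λ e : ℂˣ) : ℂ)) := ⟨_, rfl⟩
  have hΦ : IsCharacter G Φ := by
    rw [hΦdef]
    exact isCharacter_induced E _ (isCharacter_unitHom Λ)
  have hF : ∀ (g : G) (n : N),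
      conj (ϑ ⟨g * n * g⁻¹, hN.conj_mem (n : G) n.2 g⟩) = conj (ϑ n) := fun g n => by
    rw [hinv g n]
  have h1 := ind_res_sum N E (fun e => ((Λ e : ℂˣ) : ℂ)) (fun n => conj (ϑ n)) hF
  have hD0 : (Nat.card ↥(E ⊓ N) : ℂ) ≠ 0 := Nat.cast_ne_zero.mpr Nat.card_pos.ne'
  have hN0 : (Nat.card N : ℂ) ≠ 0 := Nat.cast_ne_zero.mpr Nat.card_pos.ne'
  have hE0 : (Nat.card E : ℂ) ≠ 0 := Nat.cast_ne_zero.mpr Nat.card_pos.ne'
  have h2 : ∑ᶠ d : ↥(E ⊓ N), ((Λ ⟨(d : G), d.2.1⟩ : ℂˣ) : ℂ) * conj (ϑ ⟨(d : G), d.2.2⟩) =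
      (Nat.card ↥(E ⊓ N) : ℂ) * m := by
    rw [finsum_eq_sum_of_fintype] at hmeq ⊢
    rw [inv_mul_eq_iff_eq_mul₀ hD0] at hmeq
    have h3 := congrArg (starRingEnd ℂ) hmeq
    rw [map_sum, map_mul, Complex.conj_natCast, Complex.conj_natCast] at h3
    rw [← h3]
    refine Finset.sum_congr rfl fun d _ => ?_
    rw [map_mul, Complex.conj_conj, mul_comm]
  have hcard : (Nat.card G : ℂ) * (Nat.card ↥(E ⊓ N) : ℂ) =
      (Nat.card N : ℂ) * (Nat.card E : ℂ) := by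
    have h := card_sup_inf E N
    rw [htop, Subgroup.index_top, one_mul] at h
    exact_mod_cast h
  have hinner : classInner (fun n : N => Φ n) ϑ = (m : ℂ) := by
    rw [classInner_def', hΦdef]
    rw [finsum_eq_sum_of_fintype] at h1
    rw [h1, h2]
    calc (Nat.card N : ℂ)⁻¹ * ((Nat.card G : ℂ) * (Nat.card E : ℂ)⁻¹ *
          ((Nat.card ↥(E ⊓ N) : ℂ) * m))
        = (Nat.card N : ℂ)⁻¹ * (Nat.card E : ℂ)⁻¹ *
          ((Nat.card G : ℂ) * (Nat.card ↥(E ⊓ N) : ℂ)) * m := by ring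
      _ = m := by
          rw [hcard]
          field_simp
  have hdec := classFunction_eq_sum_irr Φ (isCharacter_isClassFunction hΦ)
  choose a ha using fun χ : IrrCharacter G => isCharacter_inner_irr hΦ χ
  have hresχ : ∀ χ : IrrCharacter G, IsCharacter N (fun n : N => (χ : G → ℂ) n) := fun χ =>
    isCharacter_comp_hom N.subtype (isCharacter_of_isIrrCharacter χ.2)
  choose b hb using fun χ : IrrCharacter G =>
    isCharacter_inner_irr (hresχ χ) (⟨ϑ, hϑ⟩ : IrrCharacter N)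
  have e : (fun n : N => Φ n) =
      ∑ χ : IrrCharacter G, (a χ : ℂ) • (fun n : N => (χ : G → ℂ) n) := by
    funext n
    have h := congrFun hdec (n : G)
    rw [Finset.sum_apply] at h ⊢
    refine h.trans (Finset.sum_congr rfl fun χ _ => ?_)
    rw [Pi.smul_apply, Pi.smul_apply, ha χ]
  have hm' : (m : ℂ) = ((∑ χ : IrrCharacter G, a χ * b χ : ℕ) : ℂ) := by
    rw [← hinner, e, classInner_sum_left]
    push_cast
    refine Finset.sum_congr rfl fun χ _ => ?_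
    rw [classInner_smul_left]
    exact congrArg (fun z => (a χ : ℂ) * z) (hb χ)
  have hm'' : m = ∑ χ : IrrCharacter G, a χ * b χ := by exact_mod_cast hm'
  obtain ⟨χ, hχ⟩ : ∃ χ : IrrCharacter G, ¬ p ∣ a χ * b χ := by
    by_contra hcon
    push Not at hcon
    exact hm (hm'' ▸ Finset.dvd_sum fun χ _ => hcon χ)
  have hbχ : ¬ p ∣ b χ := fun h => hχ (Dvd.dvd.mul_left h _)
  have hb0 : b χ ≠ 0 := fun h => hbχ (h ▸ dvd_zero p)
  have hbχ' : classInner (fun n : N => (χ : G → ℂ) n) ϑ = (b χ : ℂ) := hb χ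
  have hcon : classInner (fun n : N => (χ : G → ℂ) n) ϑ ≠ 0 := by
    rw [hbχ']
    exact Nat.cast_ne_zero.mpr hb0
  have hcl := clifford_restrict N hN (χ : G → ℂ) χ.2 ϑ hϑ hcon
  have hset : {ψ : N → ℂ | ∃ g : G, ψ = fun n : N =>
      ϑ ⟨g * n * g⁻¹, hN.conj_mem n n.2 g⟩} = {ϑ} := by
    ext ψ
    constructor
    · rintro ⟨g, rfl⟩
      exact funext fun n => hinv g n
    · intro hψ
      rw [Set.mem_singleton_iff] at hψ
      rw [hψ]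
      exact ⟨1, funext fun n => (hinv 1 n).symm⟩
  rw [hset, finsum_mem_singleton, hbχ'] at hcl
  have hϑ' := hϑ
  obtain ⟨d, ρ, hρ, hρϑ⟩ := hϑ'
  obtain ⟨b', hb'1, hb'2⟩ := degree_dvd_of_invariant N ρ hρ (by rw [hρϑ]; exact hinv)
    (χ : G → ℂ) χ.2 (by rw [hρϑ]; exact hcon)
  have hϑ1 : ϑ 1 = (d : ℂ) := by
    rw [← hρϑ, Representation.char_one]
    simp
  have hd0 : 0 < d := pos_of_irreducible N ρ hρ
  have hχ1 : (χ : G → ℂ) 1 = (b χ : ℂ) * (d : ℂ) := by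
    have h := congrFun hcl 1
    rw [Pi.smul_apply, smul_eq_mul, hϑ1] at h
    exact h
  have hbb : b χ = b' := by
    have h : ((b χ * d : ℕ) : ℂ) = ((b' * d : ℕ) : ℂ) := by
      rw [← hb'1, hχ1]
      push_cast
      rfl
    have h' : b χ * d = b' * d := by exact_mod_cast h
    exact Nat.eq_of_mul_eq_mul_right hd0 h'
  have hb1 : b χ = 1 := by
    rw [← hbb, hk] at hb'2
    obtain ⟨j, -, hj⟩ := (Nat.dvd_prime_pow hp.out).mp hb'2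
    rcases Nat.eq_zero_or_pos j with rfl | hpos
    · rw [pow_zero] at hj
      exact hj
    · exact absurd (hj ▸ dvd_pow_self p hpos.ne') hbχ
  refine ⟨χ, χ.2, fun n => ?_⟩
  have h := congrFun hcl n
  rw [hb1, Nat.cast_one, one_smul] at h
  exact h

set_option maxHeartbeats 1600000 in
/-- Isaacs 8.26: invariant characters extend when the Sylow intersection is central and its
linear characters extend. -/
theorem dade_extends (p : ℕ) [hp : Fact p.Prime] (N : Subgroup G) [hN : N.Normal]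
    (hind : ∃ k : ℕ, N.index = p ^ k) (P : Sylow p G)
    (hcent : ∀ x ∈ (P : Subgroup G) ⊓ N, ∀ y ∈ (P : Subgroup G), x * y = y * x)
    (hlin : ∀ lam : ↥((P : Subgroup G) ⊓ N) → ℂ, IsCharacter ↥((P : Subgroup G) ⊓ N) lam →
      lam 1 = 1 → ∃ μ : ↥(P : Subgroup G) → ℂ, IsCharacter ↥(P : Subgroup G) μ ∧ μ 1 = 1 ∧
        ∀ x : ↥((P : Subgroup G) ⊓ N), μ ⟨(x : G), x.2.1⟩ = lam x)
    (ϑ : N → ℂ) (hϑ : IsIrrCharacter N ϑ)
    (hinv : ∀ (g : G) (n : N), ϑ ⟨g * n * g⁻¹, hN.conj_mem (n : G) n.2 g⟩ = ϑ n) :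
    ∃ χ : G → ℂ, IsIrrCharacter G χ ∧ ∀ n : N, χ n = ϑ n := by
  classical
  obtain ⟨E, φ, hE, htop, hφ, hφinv, m, hm, hmeq⟩ := dade_detect p hp.out N hind ϑ hϑ hinv
  obtain ⟨k, hk⟩ := hind
  obtain ⟨Qs⟩ : Nonempty (Sylow p ↥E) := inferInstance
  obtain ⟨Q, hQdef⟩ : ∃ Q : Subgroup G, Q = (Qs : Subgroup ↥E).map E.subtype := ⟨_, rfl⟩
  have hQp : IsPGroup p ↥Q := by
    rw [hQdef]
    exact Qs.isPGroup'.map E.subtype
  have hQE : Q ≤ E := by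
    rw [hQdef]
    rintro _ ⟨q, _, rfl⟩
    exact q.2
  have hQmem : ∀ q : ↥E, q ∈ (Qs : Subgroup ↥E) → (q : G) ∈ Q := fun q hq => by
    rw [hQdef]
    exact ⟨q, hq, rfl⟩
  obtain ⟨P', hQP'⟩ := hQp.exists_le_sylow
  obtain ⟨g, hg⟩ := MulAction.exists_smul_eq G P P'
  have hgmem : ∀ y, y ∈ (P' : Subgroup G) ↔ g⁻¹ * y * g ∈ (P : Subgroup G) := by
    intro y
    rw [← hg, Sylow.coe_subgroup_smul, Subgroup.mem_pointwise_smul_iff_inv_smul_mem]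
    simp [MulAut.smul_def]
  have hcent' := cent_hyp_conj (P : Subgroup G) (P' : Subgroup G) N g hgmem hcent
  have hlin' := lin_hyp_conj (P : Subgroup G) (P' : Subgroup G) N g hgmem hlin
  obtain ⟨x, hxc, hxo, k', hk'⟩ := hE
  have hCc : ∀ c ∈ Subgroup.zpowers x, ∀ e : ↥E, e * c = c * e := fun c hc e =>
    Subgroup.mem_center_iff.mp ((Subgroup.zpowers_le.mpr hxc) hc) e
  have hCn : (Subgroup.zpowers x).Normal := ⟨fun n hn g => by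
    rw [hCc n hn g, mul_inv_cancel_right]
    exact hn⟩
  have hsup1 : (Qs : Subgroup ↥E) ⊔ Subgroup.zpowers x = ⊤ :=
    sup_eq_top_of_index p _ _ Qs.not_dvd_index ⟨k', hk'⟩
  have hxN : (x : G) ∈ N := by
    have h1 : (x : G) ^ N.index ∈ N := Subgroup.pow_index_mem N (x : G)
    have hcop : (N.index).Coprime (orderOf (x : G)) := by
      rw [hk, Subgroup.orderOf_coe]
      exact (Nat.Coprime.pow_right k hxo).symm
    obtain ⟨i, hi⟩ := exists_pow_eq_self_of_coprime hcop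
    rw [← hi]
    exact N.pow_mem h1 i
  have hCN : ∀ c ∈ Subgroup.zpowers x, (c : G) ∈ N := by
    intro c hc
    obtain ⟨i, rfl⟩ := Subgroup.mem_zpowers_iff.mp hc
    rw [Subgroup.coe_zpow]
    exact N.zpow_mem hxN i
  have hF1 : ∀ q ∈ Q ⊓ N, ∀ q' ∈ Q, q * q' = q' * q := fun q hq q' hq' =>
    hcent' q ⟨hQP' hq.1, hq.2⟩ q' (hQP' hq')
  have hDc : ∀ d ∈ E ⊓ N, ∀ e ∈ E, e * d = d * e := by
    intro d hd e he
    have hd' : (⟨d, hd.1⟩ : ↥E) ∈ (Qs : Subgroup ↥E) ⊔ Subgroup.zpowers x := by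
      rw [hsup1]
      exact Subgroup.mem_top _
    have he' : (⟨e, he⟩ : ↥E) ∈ (Qs : Subgroup ↥E) ⊔ Subgroup.zpowers x := by
      rw [hsup1]
      exact Subgroup.mem_top _
    obtain ⟨q1, hq1, c1, hc1, h1⟩ := (Cfsg.Agent.S0001.mem_sup_normal _ _ _).mp hd'
    obtain ⟨q2, hq2, c2, hc2, h2⟩ := (Cfsg.Agent.S0001.mem_sup_normal _ _ _).mp he'
    have hq1N : (q1 : G) ∈ N := by
      have h3 : d = (q1 : G) * (c1 : G) := congrArg (fun z : ↥E => (z : G)) h1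
      have h4 : (q1 : G) = d * (c1 : G)⁻¹ := by
        rw [h3, mul_inv_cancel_right]
      rw [h4]
      exact N.mul_mem hd.2 (N.inv_mem (hCN c1 hc1))
    have hq12 : (q1 : G) * (q2 : G) = (q2 : G) * (q1 : G) :=
      hF1 _ ⟨hQmem q1 hq1, hq1N⟩ _ (hQmem q2 hq2)
    have hq12' : q1 * q2 = q2 * q1 := Subtype.ext hq12
    have b1 : (⟨e, he⟩ : ↥E) * q1 = q1 * ⟨e, he⟩ := by
      rw [h2, mul_assoc, ← hCc c2 hc2 q1, ← mul_assoc, ← hq12', mul_assoc]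
    have b2 : (⟨e, he⟩ : ↥E) * c1 = c1 * ⟨e, he⟩ := hCc c1 hc1 _
    have key : (⟨e, he⟩ : ↥E) * ⟨d, hd.1⟩ = ⟨d, hd.1⟩ * ⟨e, he⟩ := by
      rw [h1, ← mul_assoc, b1, mul_assoc, b2, ← mul_assoc]
    exact congrArg (fun z : ↥E => (z : G)) key
  have hDab : ∀ a b : ↥(E ⊓ N), a * b = b * a := fun a b =>
    Subtype.ext (hDc b b.2 a a.2.1)
  have hφ1 : φ 1 = 1 := irr_one_of_comm hDab ⟨φ, hφ⟩
  obtain ⟨lam, hlam⟩ := linChar_exists_hom (isCharacter_of_isIrrCharacter hφ) hφ1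
  have hRA : Q ⊓ N ≤ (P' : Subgroup G) ⊓ N := fun r hr => ⟨hQP' hr.1, hr.2⟩
  have hRD : Q ⊓ N ≤ E ⊓ N := fun r hr => ⟨hQE hr.1, hr.2⟩
  obtain ⟨χA, hχA, hχA1, hχAres⟩ := lin_ext_abelian ((P' : Subgroup G) ⊓ N) (Q ⊓ N) hRA
    (fun a ha b hb => hcent' a ha b hb.1) (lam.comp (Subgroup.inclusion hRD))
  obtain ⟨μ, hμ, hμ1, hμres⟩ := hlin' χA hχA hχA1
  obtain ⟨μh, hμh⟩ := linChar_exists_hom hμ hμ1
  obtain ⟨α, hα⟩ : ∃ α : ↥Q →* ℂˣ, α = μh.comp (Subgroup.inclusion hQP') := ⟨_, rfl⟩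
  have hag : ∀ (z : G) (hq : z ∈ Q) (hd : z ∈ E ⊓ N), α ⟨z, hq⟩ = lam ⟨z, hd⟩ := by
    intro z hq hd
    apply Units.ext
    rw [hα]
    show ((μh ⟨z, hQP' hq⟩ : ℂˣ) : ℂ) = _
    rw [hμh]
    have h1 := hμres ⟨z, ⟨hQP' hq, hd.2⟩⟩
    have h2 := hχAres ⟨z, ⟨hq, hd.2⟩⟩
    exact h1.trans h2
  have hsup2 : (Qs : Subgroup ↥E) ⊔ N.subgroupOf E = ⊤ := by
    refine sup_eq_top_of_index p _ _ Qs.not_dvd_index ?_
    have h1 : (N.subgroupOf E).index ∣ p ^ k := by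
      rw [← hk]
      exact Subgroup.relIndex_dvd_index_of_normal N E
    obtain ⟨j, -, hj⟩ := (Nat.dvd_prime_pow hp.out).mp h1
    exact ⟨j, hj⟩
  have hdec : ∀ e ∈ E, ∃ q ∈ Q, ∃ d ∈ E ⊓ N, e = q * d := by
    intro e he
    have he' : (⟨e, he⟩ : ↥E) ∈ (Qs : Subgroup ↥E) ⊔ N.subgroupOf E := by
      rw [hsup2]
      exact Subgroup.mem_top _
    obtain ⟨q, hq, n, hn, h⟩ := (Cfsg.Agent.S0001.mem_sup_normal _ _ _).mp he'
    exact ⟨q, hQmem q hq, n, ⟨n.2, Subgroup.mem_subgroupOf.mp hn⟩,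
      congrArg (fun z : ↥E => (z : G)) h⟩
  obtain ⟨Λ, hΛ⟩ := hom_ext_central E Q (E ⊓ N) hQE inf_le_left hdec hDc α lam hag
  refine ext_of_detect p N ⟨k, hk⟩ ϑ hϑ hinv E htop Λ m hm ?_
  rw [← hmeq]
  congr 1
  refine finsum_congr fun d => ?_
  rw [hΛ d d.2, hlam]

end Dade

end Cfsg.Agent.Helper5
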