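import Mathlib
import Cfsg.Agent.Helper5.GlCyc

/-!
helper5: cyclic coprime action with all non-identity elements having the same centraliser:
the restriction of the canonical extension to `C × S` (variance argument on `S`).
-/

set_option autoImplicit false

namespace Cfsg.Agent.Helper5

open Cfsg Cfsg.Agent.Helper24

universe u

theorem one_hot {ι : Type*} [Fintype ι] (e : ι → ℤ) (h1 : ∑ l, e l = 1)
    (h2 : ∑ l, e l * e l = 1) : ∃ l₀, e l₀ = 1 ∧ ∀ l, l ≠ l₀ → e l = 0 := by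
  classical
  obtain ⟨l₀, hl₀⟩ : ∃ l₀, e l₀ ≠ 0 := by
    by_contra hno
    push Not at hno
    rw [Finset.sum_eq_zero (fun l _ => by rw [hno l, mul_zero])] at h2
    exact zero_ne_one h2
  have hsplit := Finset.add_sum_erase Finset.univ (fun l => e l * e l) (Finset.mem_univ l₀)
  have hsplit' : e l₀ * e l₀ + ∑ l ∈ Finset.univ.erase l₀, e l * e l = 1 := hsplit.trans h2
  have hnn : 0 ≤ ∑ l ∈ Finset.univ.erase l₀, e l * e l :=
    Finset.sum_nonneg fun l _ => mul_self_nonneg _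
  have hge : 1 ≤ e l₀ * e l₀ := by
    rcases lt_trichotomy (e l₀) 0 with h | h | h
    · nlinarith
    · exact absurd h hl₀
    · nlinarith
  have hrest : ∑ l ∈ Finset.univ.erase l₀, e l * e l = 0 := by linarith
  have hz0 : ∀ l, l ≠ l₀ → e l = 0 := by
    intro l hl
    have h := (Finset.sum_eq_zero_iff_of_nonneg (fun l _ => mul_self_nonneg (e l))).mp hrest l
      (Finset.mem_erase.mpr ⟨hl, Finset.mem_univ l⟩)
    exact mul_self_eq_zero.mp h
  refine ⟨l₀, ?_, hz0⟩
  have hs1 := Finset.add_sum_erase Finset.univ e (Finset.mem_univ l₀)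
  have hr0 : ∑ l ∈ Finset.univ.erase l₀, e l = 0 :=
    Finset.sum_eq_zero fun l hl => hz0 l (Finset.ne_of_mem_erase hl)
  rw [hr0, add_zero] at hs1
  rw [hs1]; exact h1

/-- Natural multiplicities `k` on `n` points with `n ∑ k² = (∑ k)² + a`, `0 ≤ a ≤ n - 1`:
either all equal, or all equal but one which differs by `±1`. -/
theorem var_num {ι : Type*} [Fintype ι] (n : ℕ) (hn : Fintype.card ι = n) (hn2 : 2 ≤ n)
    (k : ι → ℕ) (a : ℤ) (ha : a ≤ (n : ℤ) - 1)
    (hsq : (n : ℤ) * ∑ l, (k l : ℤ) * (k l : ℤ) = (∑ l, (k l : ℤ)) * (∑ l, (k l : ℤ)) + a) :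
    (a = 0 ∧ ∃ m : ℕ, ∀ l, k l = m) ∨
    (a = (n : ℤ) - 1 ∧ ∃ (l₀ : ι) (ε : ℤ) (m : ℕ), (ε = 1 ∨ ε = -1) ∧
      (∀ l, l ≠ l₀ → k l = m) ∧ (k l₀ : ℤ) = (m : ℤ) + ε) := by
  classical
  obtain ⟨D, hD⟩ : ∃ D : ℕ, D = ∑ l, k l := ⟨_, rfl⟩
  have hDz : (∑ l, (k l : ℤ)) = (D : ℤ) := by rw [hD]; push_cast; rfl
  obtain ⟨A2, hA2⟩ : ∃ A2 : ℤ, A2 = ∑ l, (k l : ℤ) * (k l : ℤ) := ⟨_, rfl⟩
  rw [hDz, ← hA2] at hsq
  obtain ⟨m₀, hm₀⟩ : ∃ m₀ : ℕ, m₀ = D / n := ⟨_, rfl⟩
  obtain ⟨r, hr⟩ : ∃ r : ℕ, r = D % n := ⟨_, rfl⟩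
  have hDmr : D = n * m₀ + r := by rw [hm₀, hr]; exact (Nat.div_add_mod D n).symm
  have hrn : r < n := by rw [hr]; exact Nat.mod_lt _ (by omega)
  have hDmr' : (D : ℤ) = (n : ℤ) * m₀ + r := by exact_mod_cast hDmr
  have hn0 : (0 : ℤ) < n := by exact_mod_cast (by omega : 0 < n)
  have hcard : ∑ _l : ι, (1 : ℤ) = (n : ℤ) := by
    rw [Finset.sum_const, Finset.card_univ, hn]; simp
  obtain ⟨b, hb⟩ : ∃ b : ι → ℤ, b = fun l => (k l : ℤ) - m₀ := ⟨_, rfl⟩
  have hbl : ∀ l, b l = (k l : ℤ) - m₀ := fun l => by rw [hb]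
  have hb1 : ∑ l, b l = (r : ℤ) := by
    simp only [hbl]
    rw [Finset.sum_sub_distrib, hDz, Finset.sum_const, Finset.card_univ, hn, nsmul_eq_mul, hDmr']
    ring
  have hb2sum : ∑ l, b l * b l = A2 - 2 * m₀ * D + n * ((m₀ : ℤ) * m₀) := by
    have e : ∀ l, b l * b l = (k l : ℤ) * (k l : ℤ) - 2 * m₀ * (k l : ℤ) + (m₀ : ℤ) * m₀ := by
      intro l; rw [hbl]; ring
    simp only [e]
    rw [Finset.sum_add_distrib, Finset.sum_sub_distrib, ← Finset.mul_sum, hDz, ← hA2,
      Finset.sum_const, Finset.card_univ, hn, nsmul_eq_mul]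
  have hb2 : (n : ℤ) * ∑ l, b l * b l = (r : ℤ) * r + a := by
    rw [hb2sum]
    linear_combination hsq + ((D : ℤ) - n * m₀ + r) * hDmr'
  have hbb : ∀ l, b l ≤ b l * b l := by
    intro l
    rcases le_or_gt (b l) 0 with h | h
    · nlinarith [mul_self_nonneg (b l)]
    · nlinarith
  have hsumle : (r : ℤ) ≤ ∑ l, b l * b l := by
    rw [← hb1]; exact Finset.sum_le_sum fun l _ => hbb l
  have hnr : (n : ℤ) * r ≤ r * r + a := by
    rw [← hb2]; exact mul_le_mul_of_nonneg_left hsumle hn0.le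
  have hSnn : 0 ≤ ∑ l, b l * b l := Finset.sum_nonneg fun l _ => mul_self_nonneg _
  rcases Nat.eq_zero_or_pos r with hr0 | hrpos
  · left
    rw [hr0] at hb2
    simp only [Nat.cast_zero, zero_mul, zero_add] at hb2
    have hS0 : ∑ l, b l * b l = 0 := by
      by_contra hne
      have h1 : 1 ≤ ∑ l, b l * b l := by omega
      nlinarith
    have hb0 : ∀ l, b l = 0 := fun l => mul_self_eq_zero.mp
      ((Finset.sum_eq_zero_iff_of_nonneg (fun l _ => mul_self_nonneg (b l))).mp hS0 l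
        (Finset.mem_univ l))
    refine ⟨?_, m₀, fun l => ?_⟩
    · rw [hS0, mul_zero] at hb2; exact hb2.symm
    · have h := hb0 l
      rw [hbl] at h
      exact_mod_cast sub_eq_zero.mp h
  · right
    have hr1 : (1 : ℤ) ≤ r := by exact_mod_cast hrpos
    have hrn' : (r : ℤ) + 1 ≤ n := by exact_mod_cast hrn
    have hprod : 0 ≤ ((r : ℤ) - 1) * ((n : ℤ) - 1 - r) :=
      mul_nonneg (by linarith) (by linarith)
    have haeq : a = (n : ℤ) - 1 := by nlinarith
    have hprod0 : ((r : ℤ) - 1) * ((n : ℤ) - 1 - r) = 0 := le_antisymm (by nlinarith) hprod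
    refine ⟨haeq, ?_⟩
    rcases mul_eq_zero.mp hprod0 with h | h
    · have hr1' : (r : ℤ) = 1 := by linarith
      rw [hr1'] at hb1 hb2
      have hS1 : ∑ l, b l * b l = 1 := by
        have h3 : (n : ℤ) * ∑ l, b l * b l = (n : ℤ) * 1 := by rw [hb2, haeq]; ring
        exact mul_left_cancel₀ hn0.ne' h3
      obtain ⟨l₀, hl₀, hrest⟩ := one_hot b hb1 hS1
      refine ⟨l₀, 1, m₀, Or.inl rfl, fun l hl => ?_, ?_⟩
      · have h := hrest l hl
        rw [hbl] at h
        exact_mod_cast sub_eq_zero.mp h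
      · rw [hbl] at hl₀
        linarith
    · have hr1' : (r : ℤ) = n - 1 := by linarith
      rw [hr1'] at hb1 hb2
      have hS1 : ∑ l, b l * b l = (n : ℤ) - 1 := by
        have h3 : (n : ℤ) * ∑ l, b l * b l = (n : ℤ) * ((n : ℤ) - 1) := by rw [hb2, haeq]; ring
        exact mul_left_cancel₀ hn0.ne' h3
      obtain ⟨e, he⟩ : ∃ e : ι → ℤ, e = fun l => 1 - b l := ⟨_, rfl⟩
      have hel : ∀ l, e l = 1 - b l := fun l => by rw [he]
      have he1 : ∑ l, e l = 1 := by
        simp only [hel]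
        rw [Finset.sum_sub_distrib, hb1, hcard]; ring
      have he2 : ∑ l, e l * e l = 1 := by
        have e' : ∀ l, e l * e l = 1 - 2 * b l + b l * b l := by intro l; rw [hel]; ring
        simp only [e']
        rw [Finset.sum_add_distrib, Finset.sum_sub_distrib, ← Finset.mul_sum, hb1, hS1, hcard]
        ring
      obtain ⟨l₀, hl₀, hrest⟩ := one_hot e he1 he2
      refine ⟨l₀, -1, m₀ + 1, Or.inr rfl, fun l hl => ?_, ?_⟩
      · have h := hrest l hl
        rw [hel, hbl] at h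
        have h'' : (k l : ℤ) = ((m₀ + 1 : ℕ) : ℤ) := by push_cast; linarith
        exact_mod_cast h''
      · rw [hel, hbl] at hl₀
        push_cast; linarith

set_option maxHeartbeats 1600000 in
/-- A character of a finite abelian group with integer values in `{0, ±1}` off the identity is
a multiple of the regular character, or a multiple of it plus or minus a linear character. -/
theorem reg_var {X : Type u} [Group X] [Fintype X] (hcomm : ∀ a b : X, a * b = b * a)
    (hn2 : 2 ≤ Nat.card X) (z : X → ℤ) (hf : IsCharacter X (fun x => (z x : ℂ)))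
    (hz : ∀ x : X, x ≠ 1 → z x * z x ≤ 1) :
    ((∀ x : X, x ≠ 1 → z x = 0) ∧ ∃ m : ℕ, z 1 = (Nat.card X : ℤ) * m) ∨
    (∃ (ε : ℤ) (μ : IrrCharacter X) (m : ℕ), (ε = 1 ∨ ε = -1) ∧
      (∀ x : X, x ≠ 1 → (z x : ℂ) = (ε : ℂ) * (μ : X → ℂ) x) ∧
      z 1 = (Nat.card X : ℤ) * m + ε) := by
  classical
  have hX0 : (Nat.card X : ℂ) ≠ 0 := Nat.cast_ne_zero.mpr Nat.card_pos.ne'
  obtain ⟨f, hfdef⟩ : ∃ f : X → ℂ, f = fun x => (z x : ℂ) := ⟨_, rfl⟩
  rw [← hfdef] at hf
  have hfx : ∀ x, f x = (z x : ℂ) := fun x => by rw [hfdef]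
  choose k hk using fun l : IrrCharacter X => isCharacter_inner_irr hf l
  have hl1 : ∀ l : IrrCharacter X, (l : X → ℂ) 1 = 1 := fun l => irr_one_of_comm hcomm l
  have hcf : IsClassFunction X f := isCharacter_isClassFunction hf
  have hdec : f = ∑ l : IrrCharacter X, (k l : ℂ) • (l : X → ℂ) := by
    have h := classFunction_eq_sum_irr f hcf
    simp only [hk] at h
    exact h
  have hfval : ∀ x, f x = ∑ l : IrrCharacter X, (k l : ℂ) * (l : X → ℂ) x := by
    intro x
    have h := congrFun hdec x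
    rw [Finset.sum_apply] at h
    rw [h]
    exact Finset.sum_congr rfl fun l _ => by rw [Pi.smul_apply, smul_eq_mul]
  have hcard : Fintype.card (IrrCharacter X) = Nat.card X := by
    have h := (sum_irr_mul_conj (1 : X) 1).1 (IsConj.refl 1)
    have hcent : Subgroup.centralizer ({(1 : X)} : Set X) = ⊤ := by
      refine top_le_iff.mp fun g _ => Subgroup.mem_centralizer_iff.mpr fun h _ => ?_
      exact hcomm h g
    rw [hcent, Subgroup.card_top] at h
    have h2 : ∑ χ : IrrCharacter X, (χ : X → ℂ) 1 * starRingEnd ℂ ((χ : X → ℂ) 1) =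
        (Fintype.card (IrrCharacter X) : ℂ) := by
      have h3 : ∑ χ : IrrCharacter X, (χ : X → ℂ) 1 * starRingEnd ℂ ((χ : X → ℂ) 1) =
          ∑ _χ : IrrCharacter X, (1 : ℂ) :=
        Finset.sum_congr rfl fun χ _ => by rw [hl1 χ, map_one, mul_one]
      rw [h3, Finset.sum_const, Finset.card_univ, nsmul_eq_mul, mul_one]
    rw [h2] at h
    exact_mod_cast h
  have hreg : ∀ x : X, x ≠ 1 → ∑ l : IrrCharacter X, (l : X → ℂ) x = 0 := by
    intro x hx
    have hnc : ¬ IsConj x 1 := by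
      intro hc
      obtain ⟨c, hc'⟩ := isConj_iff.mp hc
      apply hx
      have e : x = c⁻¹ * (c * x * c⁻¹) * c := by group
      rw [e, hc']; group
    have h := (sum_irr_mul_conj x 1).2 hnc
    rw [← h]
    exact Finset.sum_congr rfl fun l _ => by rw [hl1 l, map_one, mul_one]
  have hd : (z 1 : ℂ) = ((∑ l, (k l : ℤ) : ℤ) : ℂ) := by
    rw [← hfx, hfval 1]
    push_cast
    exact Finset.sum_congr rfl fun l _ => by rw [hl1 l, mul_one]
  have hd' : z 1 = ∑ l, (k l : ℤ) := by exact_mod_cast hd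
  have hpars : ∑ x : X, f x * starRingEnd ℂ (f x) =
      (Nat.card X : ℂ) * ∑ l, (k l : ℂ) * (k l : ℂ) := by
    have h := classInner_eq_sum_irr hcf f
    rw [classInner_def'] at h
    have h2 : ∑ l : IrrCharacter X, classInner f (l : X → ℂ) * classInner (l : X → ℂ) f =
        ∑ l, (k l : ℂ) * (k l : ℂ) := by
      refine Finset.sum_congr rfl fun l _ => ?_
      rw [classInner_conj_symm (l : X → ℂ), hk l, Complex.conj_natCast]
    rw [h2] at h
    rw [← h, ← mul_assoc, mul_inv_cancel₀ hX0, one_mul]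
  obtain ⟨a, ha⟩ : ∃ a : ℤ, a = ∑ x ∈ Finset.univ.erase (1 : X), z x * z x := ⟨_, rfl⟩
  have ha1 : a ≤ (Nat.card X : ℤ) - 1 := by
    rw [ha]
    have h := Finset.sum_le_sum (s := Finset.univ.erase (1 : X)) (f := fun x => z x * z x)
      (g := fun _ => (1 : ℤ)) (fun x hx => hz x (Finset.ne_of_mem_erase hx))
    refine h.trans ?_
    rw [Finset.sum_const, Finset.card_erase_of_mem (Finset.mem_univ _), Finset.card_univ,
      ← Nat.card_eq_fintype_card, nsmul_eq_mul, mul_one]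
    omega
  have hsumz : ∑ x : X, z x * z x = z 1 * z 1 + a := by
    rw [ha]
    exact (Finset.add_sum_erase Finset.univ (fun x => z x * z x) (Finset.mem_univ 1)).symm
  have hsq : (Nat.card X : ℤ) * ∑ l, (k l : ℤ) * (k l : ℤ) =
      (∑ l, (k l : ℤ)) * (∑ l, (k l : ℤ)) + a := by
    rw [← hd', ← hsumz]
    have h : ((∑ x : X, z x * z x : ℤ) : ℂ) =
        (((Nat.card X : ℤ) * ∑ l, (k l : ℤ) * (k l : ℤ) : ℤ) : ℂ) := by
      push_cast
      rw [← hpars]
      exact Finset.sum_congr rfl fun x _ => by rw [hfx, map_intCast]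
    exact_mod_cast h.symm
  rcases var_num (Nat.card X) hcard hn2 k a ha1 hsq with
    ⟨ha00, m, hm⟩ | ⟨-, l₀, ε, m, hε, hrest, hl₀⟩
  · left
    refine ⟨fun x hx => ?_, m, ?_⟩
    · rw [ha00] at ha
      have h := (Finset.sum_eq_zero_iff_of_nonneg (fun x _ => mul_self_nonneg (z x))).mp ha.symm x
        (Finset.mem_erase.mpr ⟨hx, Finset.mem_univ x⟩)
      exact mul_self_eq_zero.mp h
    · have e3 : ∑ l : IrrCharacter X, (k l : ℤ) = ∑ _l : IrrCharacter X, (m : ℤ) :=
        Finset.sum_congr rfl fun l _ => by rw [hm l]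
      rw [hd', e3, Finset.sum_const, Finset.card_univ, hcard, nsmul_eq_mul]
  · right
    refine ⟨ε, l₀, m, hε, fun x hx => ?_, ?_⟩
    · rw [← hfx, hfval x]
      have e1 : ∑ l : IrrCharacter X, (k l : ℂ) * (l : X → ℂ) x =
          ∑ l : IrrCharacter X, ((m : ℂ) * (l : X → ℂ) x +
            (if l = l₀ then (ε : ℂ) * (l : X → ℂ) x else 0)) := by
        refine Finset.sum_congr rfl fun l _ => ?_
        by_cases h : l = l₀
        · rw [if_pos h, h]
          have h4 : (k l₀ : ℂ) = (m : ℂ) + (ε : ℂ) := by exact_mod_cast hl₀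
          rw [h4]; ring
        · rw [if_neg h, add_zero, hrest l h]
      rw [e1, Finset.sum_add_distrib, ← Finset.mul_sum, hreg x hx, mul_zero, zero_add,
        Finset.sum_ite_eq' Finset.univ l₀, if_pos (Finset.mem_univ _)]
    · have e2 : ∑ l : IrrCharacter X, (k l : ℤ) =
          ∑ l : IrrCharacter X, ((m : ℤ) + (if l = l₀ then ε else 0)) := by
        refine Finset.sum_congr rfl fun l _ => ?_
        by_cases h : l = l₀
        · rw [if_pos h, h]; exact hl₀
        · rw [if_neg h, add_zero, hrest l h]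
      rw [hd', e2, Finset.sum_add_distrib, Finset.sum_const, Finset.card_univ, hcard,
        Finset.sum_ite_eq' Finset.univ l₀, if_pos (Finset.mem_univ _), nsmul_eq_mul]


set_option maxHeartbeats 1600000 in
/-- The integer-valued "multiplicity functions" of the canonical extension on `C × S`, and their
norm at the elements whose centraliser in `G` is `C`. -/
theorem cyc_struct {Γ : Type u} [Group Γ] [Fintype Γ] (G S : Subgroup Γ) [hG : G.Normal]
    [Fintype G] (hcop : (Nat.card G).Coprime (Nat.card S)) (htop : G ⊔ S = ⊤) (s₀ : Γ)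
    (hs₀ : Subgroup.zpowers s₀ = S) (C : Subgroup Γ) [Fintype C]
    (hC : C = G ⊓ Subgroup.centralizer (S : Set Γ)) (hCG : C ≤ G)
    (hfpf : ∀ x ∈ S, x ≠ 1 → G ⊓ Subgroup.centralizer ({x} : Set Γ) = C)
    (χh : IrrCharacter Γ) (hirr : IsIrrCharacter G (fun g : G => (χh : Γ → ℂ) g))
    (hdet : (detOrder (χh : Γ → ℂ)).Coprime (Nat.card S)) :
    ∃ z : IrrCharacter C → ↥S → ℤ,
      (∀ (β : IrrCharacter C) (x : ↥S),
        classInner (fun c : C => (χh : Γ → ℂ) ((c : Γ) * (x : Γ))) (β : C → ℂ) = (z β x : ℂ)) ∧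
      (∀ β : IrrCharacter C, IsCharacter ↥S (fun x => (z β x : ℂ))) ∧
      (∀ x : ↥S, x ≠ 1 → ∑ β : IrrCharacter C, z β x * z β x = 1) := by
  classical
  have hC0 : (Nat.card C : ℂ) ≠ 0 := Nat.cast_ne_zero.mpr Nat.card_pos.ne'
  have hG0 : (Nat.card G : ℂ) ≠ 0 := Nat.cast_ne_zero.mpr Nat.card_pos.ne'
  have hSfin : Fintype ↥S := Fintype.ofFinite _
  have hs₀S : s₀ ∈ S := by rw [← hs₀]; exact Subgroup.mem_zpowers s₀
  have hScomm : ∀ a b : S, a * b = b * a := comm_of_zpowers S s₀ hs₀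
  have hab := hab_of_gen G s₀ (by rw [hs₀]; exact htop)
  have hDX : ∀ c ∈ C, ∀ x ∈ S, c * x = x * c := by
    intro c hc x hx
    rw [hC] at hc
    exact ((Subgroup.mem_centralizer_iff.mp hc.2) x hx).symm
  have hC' : C = G ⊓ Subgroup.centralizer (Subgroup.zpowers s₀ : Set Γ) := by
    rw [hs₀]; exact hC
  have hcops₀ : (orderOf s₀).Coprime (Nat.card G) := by
    rw [← Nat.card_zpowers, hs₀]; exact hcop.symm
  have hK1 := canon_pow G S hcop htop hScomm χh hirr hdet
  have hinvgen : ∀ (y y' : Γ), y ∈ S → Subgroup.zpowers y = Subgroup.zpowers y' → ∀ c : C,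
      (χh : Γ → ℂ) ((c : Γ) * y') = (χh : Γ → ℂ) ((c : Γ) * y) := by
    intro y y' hy hyy' c
    have hyS : orderOf y ∣ Nat.card S := by
      have h := orderOf_dvd_natCard (⟨y, hy⟩ : S)
      rwa [Subgroup.orderOf_mk] at h
    obtain ⟨k, hk1, hkS, hky⟩ :=
      exists_pow_gen y y' hyy' (Nat.card G) (Nat.card S) Nat.card_pos hyS hcop
    have hck : (c : Γ) ^ k = c := pow_eq_self_of_modEq G (c : Γ) (hCG c.2) k hk1
    have hcomm : Commute (c : Γ) y := hDX c c.2 y hy
    have h1 := hK1 k hk1 hkS ((c : Γ) * y)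
    rw [hcomm.mul_pow, hck, hky] at h1
    exact h1
  obtain ⟨Ff, hFf⟩ : ∃ Ff : IrrCharacter C → ↥S → ℂ, Ff = fun (β : IrrCharacter C) (x : ↥S) =>
      classInner (fun c : C => (χh : Γ → ℂ) ((c : Γ) * (x : Γ))) (β : C → ℂ) := ⟨_, rfl⟩
  have hFf_apply : ∀ β x, Ff β x =
      classInner (fun c : C => (χh : Γ → ℂ) ((c : Γ) * (x : Γ))) (β : C → ℂ) := by
    intro β x; rw [hFf]
  have hΞ : IsCharacter (↥C × ↥S) (fun y => (χh : Γ → ℂ) (muHom C S hDX y)) :=
    isCharacter_comp_hom _ (isCharacter_of_isIrrCharacter χh.2)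
  have hnat : ∀ (β : IrrCharacter C) (l : IrrCharacter ↥S),
      ∃ k : ℕ, classInner (Ff β) (l : ↥S → ℂ) = k := by
    intro β l
    have hβl : IsCharacter (↥C × ↥S)
        ((fun y => (β : C → ℂ) y.1) * (fun y => (l : ↥S → ℂ) y.2)) :=
      isCharacter_mul
        (isCharacter_comp_hom (MonoidHom.fst ↥C ↥S)
          (isCharacter_of_isIrrCharacter β.2))
        (isCharacter_comp_hom (MonoidHom.snd ↥C ↥S)
          (isCharacter_of_isIrrCharacter l.2))
    obtain ⟨k, hk⟩ := classInner_isCharacter_natCast hΞ hβl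
    refine ⟨k, ?_⟩
    rw [← hk]
    have hx : ∀ x : ↥S,
        Ff β x * starRingEnd ℂ ((l : ↥S → ℂ) x) =
        (Nat.card C : ℂ)⁻¹ * ∑ c : C, (χh : Γ → ℂ) ((c : Γ) * (x : Γ)) *
          starRingEnd ℂ ((β : C → ℂ) c * (l : ↥S → ℂ) x) := by
      intro x
      rw [hFf_apply, classInner_def', mul_assoc, Finset.sum_mul]
      congr 1
      refine Finset.sum_congr rfl fun c _ => ?_
      rw [map_mul]; ring
    rw [classInner_def', classInner_def', Nat.card_prod, Fintype.sum_prod_type, Finset.sum_comm]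
    simp only [hx]
    rw [← Finset.mul_sum, Nat.cast_mul, mul_inv]
    have hS : ∑ i : ↥S, ∑ c : C, (χh : Γ → ℂ) ((c : Γ) * (i : Γ)) *
          starRingEnd ℂ ((β : C → ℂ) c * (l : ↥S → ℂ) i) =
        ∑ y : ↥S, ∑ x : C,
          (χh : Γ → ℂ) (muHom C S hDX (x, y)) *
            starRingEnd ℂ (((fun y : ↥C × ↥S => (β : C → ℂ) y.1) *
              fun y : ↥C × ↥S =>
                (l : ↥S → ℂ) y.2) (x, y)) := rfl
    rw [hS]
    ring
  have hFchar : ∀ β : IrrCharacter C, IsCharacter ↥S (Ff β) := by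
    intro β
    refine isCharacter_of_classFunction_of_inner_nat (fun g h => ?_) (hnat β)
    rw [hScomm h g, mul_inv_cancel_right]
  have hFgen : ∀ (β : IrrCharacter C) (y y' : ↥S),
      Subgroup.zpowers y = Subgroup.zpowers y' → Ff β y = Ff β y' := by
    intro β y y' h
    have h1 : Subgroup.zpowers (y : Γ) = Subgroup.zpowers (y' : Γ) := by
      have h2 := congrArg (Subgroup.map S.subtype) h
      rw [MonoidHom.map_zpowers, MonoidHom.map_zpowers] at h2
      exact h2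
    rw [hFf_apply, hFf_apply]
    congr 1
    funext c
    exact (hinvgen (y : Γ) (y' : Γ) y.2 h1 c).symm
  have hint : ∀ (β : IrrCharacter C) (x : ↥S), ∃ z : ℤ, Ff β x = (z : ℂ) := by
    intro β x
    obtain ⟨q, hq⟩ := cyc_rat (Ff β) (hFchar β) (hFgen β) x
    obtain ⟨n, ρ, hρ⟩ := hFchar β
    have hi : IsIntegral ℤ ((q : ℚ) : ℂ) := by
      rw [← hq, ← hρ]; exact char_isIntegral ρ x
    obtain ⟨z, hz⟩ := exists_int_of_isIntegral_ratCast hi
    refine ⟨z, ?_⟩
    rw [hq, ← hz, Rat.cast_intCast]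
  choose z hz using hint
  refine ⟨z, fun β x => ?_, fun β => ?_, fun x hx => ?_⟩
  · rw [← hFf_apply, hz]
  · have e : (fun x => (z β x : ℂ)) = Ff β := funext fun x => (hz β x).symm
    rw [e]; exact hFchar β
  · have hxΓ : (x : Γ) ≠ 1 := fun h => hx (Subtype.ext h)
    have hCx := hfpf (x : Γ) x.2 hxΓ
    have hcopx : (orderOf (x : Γ)).Coprime (Nat.card G) := by
      have h1 : orderOf (x : Γ) ∣ Nat.card S := by
        have h := orderOf_dvd_natCard x
        rwa [← Subgroup.orderOf_coe] at h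
      exact Nat.Coprime.coprime_dvd_left h1 hcop.symm
    have hconj : ∀ g ∈ G, ∃ k ∈ G, ∃ c ∈ C, g * (x : Γ) = k * (c * (x : Γ)) * k⁻¹ := by
      intro g hg
      obtain ⟨k, hk, c, hc, hcs, h⟩ := coset_conj_exists G (x : Γ) hcopx g hg
      refine ⟨k, hk, c, ?_, h⟩
      rw [← hCx]
      refine Subgroup.mem_inf.mpr ⟨hc, Subgroup.mem_centralizer_iff.mpr ?_⟩
      intro y hy
      rw [Set.mem_singleton_iff] at hy
      rw [hy]; exact hcs.symm
    have hcf : IsClassFunction C (fun c : C => (χh : Γ → ℂ) ((c : Γ) * (x : Γ))) :=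
      res_shift_classFunction C (x : Γ) (fun c hc => hDX c hc _ x.2) _ (irr_isClassFunction χh)
    have hfib : (Nat.card C : ℂ) * ∑ g : G, (χh : Γ → ℂ) ((g : Γ) * (x : Γ)) *
          starRingEnd ℂ ((χh : Γ → ℂ) ((g : Γ) * (x : Γ))) =
        (Nat.card G : ℂ) * ∑ c : C, (χh : Γ → ℂ) ((c : Γ) * (x : Γ)) *
          starRingEnd ℂ ((χh : Γ → ℂ) ((c : Γ) * (x : Γ))) :=
      coset_fibration G C (x : Γ) hCG (fun c hc => hDX c hc _ x.2) hconj
        (fun γ => (χh : Γ → ℂ) γ * starRingEnd ℂ ((χh : Γ → ℂ) γ)) (fun g h => by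
          show (χh : Γ → ℂ) (h * g * h⁻¹) * starRingEnd ℂ ((χh : Γ → ℂ) (h * g * h⁻¹)) = _
          rw [irr_conj])
    rw [coset_norm G hab χh hirr (x : Γ)] at hfib
    have hnorm1 : classInner (fun c : C => (χh : Γ → ℂ) ((c : Γ) * (x : Γ)))
        (fun c : C => (χh : Γ → ℂ) ((c : Γ) * (x : Γ))) = 1 := by
      rw [classInner_def']
      have h3 : ∑ c : C, (χh : Γ → ℂ) ((c : Γ) * (x : Γ)) *
          starRingEnd ℂ ((χh : Γ → ℂ) ((c : Γ) * (x : Γ))) = (Nat.card C : ℂ) := by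
        have h4 : (Nat.card G : ℂ) * ∑ c : C, (χh : Γ → ℂ) ((c : Γ) * (x : Γ)) *
            starRingEnd ℂ ((χh : Γ → ℂ) ((c : Γ) * (x : Γ))) =
            (Nat.card G : ℂ) * (Nat.card C : ℂ) := by
          rw [← hfib]; ring
        exact mul_left_cancel₀ hG0 h4
      rw [h3, inv_mul_cancel₀ hC0]
    have hpars : ∑ β : IrrCharacter C, (z β x : ℂ) * (z β x : ℂ) = 1 := by
      have h := classInner_eq_sum_irr hcf (fun c : C => (χh : Γ → ℂ) ((c : Γ) * (x : Γ)))
      rw [hnorm1] at h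
      refine Eq.trans ?_ h.symm
      refine Finset.sum_congr rfl fun β _ => ?_
      rw [classInner_conj_symm (β : C → ℂ), ← hFf_apply, hz β x, map_intCast]
    have h : ((∑ β : IrrCharacter C, z β x * z β x : ℤ) : ℂ) = ((1 : ℤ) : ℂ) := by
      push_cast; exact hpars
    exact_mod_cast h

set_option maxHeartbeats 1600000 in
/-- Cyclic coprime action in which all non-identity elements of `S` have the same centraliser
in `G`: the values of the canonical extension on `C × S`. -/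
theorem cyc_fpf {Γ : Type u} [Group Γ] [Fintype Γ] (G S : Subgroup Γ) [Fintype G] (hnorm : ∀ s ∈ S, ∀ g ∈ G, s * g * s⁻¹ ∈ G) (hcop : (Nat.card G).Coprime (Nat.card S)) (htop : G ⊔ S = ⊤) (hcyc : IsCyclic S) (C : Subgroup Γ) [Fintype C] (hC : C = G ⊓ Subgroup.centralizer (S : Set Γ)) (hCG : C ≤ G) (hfpf : ∀ x ∈ S, x ≠ 1 → G ⊓ Subgroup.centralizer ({x} : Set Γ) = C) (χ : Cfsg.IrrCharacter G) (hinv : (∀ s ∈ S, ∀ g g' : G, (g' : Γ) = s * g * s⁻¹ → (χ : G → ℂ) g' = (χ : G → ℂ) g)) (χh : Cfsg.IrrCharacter Γ) (hext : (∀ g : G, (χh : Γ → ℂ) g = (χ : G → ℂ) g)) (hdet : (Cfsg.detOrder (χh : Γ → ℂ)).Coprime (Nat.card S)) (β : Cfsg.IrrCharacter C) (ε₀ : ℤ) (hε₀ : ε₀ = 1 ∨ ε₀ = -1) (hβ : ∀ c : C, ∀ s : Γ, Subgroup.zpowers s = S → (χh : Γ → ℂ) ((c : Γ) * s) = (ε₀ : ℂ) * (β : C → ℂ) c) : ∃ ε : ℤ, (ε = 1 ∨ ε = -1) ∧ (∃ μ : S → ℂ, Cfsg.IsCharacter S μ ∧ μ 1 = 1 ∧ (∀ x : S, μ x * μ x = 1) ∧ ∀ c : C, ∀ x : S, x ≠ 1 → (χh : Γ → ℂ) ((c : Γ) * x) = (ε :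 ℂ) * (β : C → ℂ) c * μ x) ∧ (∃ ϑ : C → ℂ, Cfsg.IsCharacter C ϑ ∧ (fun c : C => (χ : G → ℂ) ⟨c, hCG c.2⟩) = fun c => (Nat.card S : ℂ) * ϑ c + (ε : ℂ) * (β : C → ℂ) c) ∧ (Nat.card S : ℤ) ∣ (Cfsg.charDegree (χ : G → ℂ) : ℤ) - ε * (Cfsg.charDegree (β : C → ℂ) : ℤ) := by
  classical
  have hG : G.Normal := by
    refine Subgroup.normalizer_eq_top_iff.mp (top_le_iff.mp ?_)
    rw [← htop]
    refine sup_le Subgroup.le_normalizer fun s hs => ?_
    refine Subgroup.mem_normalizer_iff.mpr fun h => ⟨fun hh => hnorm s hs h hh, fun hh => ?_⟩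
    have h1 := hnorm s⁻¹ (S.inv_mem hs) _ hh
    have e : s⁻¹ * (s * h * s⁻¹) * s⁻¹⁻¹ = h := by group
    rwa [e] at h1
  obtain ⟨s₀, hs₀⟩ : ∃ s₀ : Γ, Subgroup.zpowers s₀ = S := by
    obtain ⟨g, hg⟩ := IsCyclic.exists_generator (α := ↥S)
    refine ⟨(g : Γ), le_antisymm ?_ ?_⟩
    · rw [Subgroup.zpowers_le]; exact g.2
    · intro x hx
      obtain ⟨k, hk⟩ := Subgroup.mem_zpowers_iff.mp (hg ⟨x, hx⟩)
      have h1 : (g : Γ) ^ k = x := congrArg Subtype.val hk
      rw [← h1]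
      exact Subgroup.zpow_mem_zpowers (g : Γ) k
  have hs₀S : s₀ ∈ S := by rw [← hs₀]; exact Subgroup.mem_zpowers s₀
  have hSfin : Fintype ↥S := Fintype.ofFinite _
  have hScomm : ∀ a b : S, a * b = b * a := comm_of_zpowers S s₀ hs₀
  have hirr : IsIrrCharacter G (fun g : G => (χh : Γ → ℂ) g) := by
    have e : (fun g : G => (χh : Γ → ℂ) g) = (χ : G → ℂ) := funext hext
    rw [e]; exact χ.2
  have hDX : ∀ c ∈ C, ∀ x ∈ S, c * x = x * c := by
    intro c hc x hx
    rw [hC] at hc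
    exact ((Subgroup.mem_centralizer_iff.mp hc.2) x hx).symm
  have hε0 : (ε₀ : ℂ) ≠ 0 := by
    rcases hε₀ with h | h <;> rw [h] <;> simp
  have hchiC : (fun c : C => (χ : G → ℂ) ⟨c, hCG c.2⟩) = fun c : C => (χh : Γ → ℂ) c :=
    funext fun c => (hext ⟨c, hCG c.2⟩).symm
  obtain ⟨dχ, hdχ, -⟩ := irr_degree_dvd_card χ
  obtain ⟨dβ, hdβ, -⟩ := irr_degree_dvd_card β
  rw [charDegree_of_eq hdχ, charDegree_of_eq hdβ]
  by_cases hn1 : Nat.card S = 1
  · have hsub : ∀ x : S, x = 1 := by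
      intro x
      have h := (Nat.card_eq_one_iff_unique.mp hn1).1
      exact Subsingleton.elim x 1
    have hs1 : Subgroup.zpowers (1 : Γ) = S := by
      have h1 : (⟨s₀, hs₀S⟩ : S) = 1 := hsub _
      have h2 : s₀ = 1 := congrArg Subtype.val h1
      rw [← h2]; exact hs₀
    have hval : ∀ c : C, (χh : Γ → ℂ) c = (ε₀ : ℂ) * (β : C → ℂ) c := by
      intro c
      have h := hβ c 1 hs1
      rwa [mul_one] at h
    refine ⟨ε₀, hε₀, ⟨fun _ => 1,
      isCharacter_of_isIrrCharacter Cfsg.Agent.Helper24.isIrrCharacter_one, rfl,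
      fun x => mul_one 1, fun c x hx => absurd (hsub x) hx⟩, ⟨0, isCharacter_zero, ?_⟩, ?_⟩
    · rw [hchiC]
      funext c
      rw [hval c]; simp
    · rw [hn1, Nat.cast_one]; exact one_dvd _
  · have hn2 : 2 ≤ Nat.card S := by
      have := Nat.card_pos (α := S)
      omega
    have hs₀1 : (⟨s₀, hs₀S⟩ : S) ≠ 1 := by
      intro h
      have h2 : s₀ = 1 := congrArg Subtype.val h
      apply hn1
      rw [← hs₀, h2, Subgroup.zpowers_one_eq_bot]; exact Subgroup.card_bot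
    obtain ⟨z, hz, hzchar, hznorm⟩ :=
      cyc_struct G S hcop htop s₀ hs₀ C hC hCG hfpf χh hirr hdet
    obtain ⟨s₀S, hs₀Sdef⟩ : ∃ s₀S : ↥S, s₀S = ⟨s₀, hs₀S⟩ := ⟨_, rfl⟩
    have hs₀S1 : s₀S ≠ 1 := by rw [hs₀Sdef]; exact hs₀1
    have hzs : ∀ β' : IrrCharacter C,
        (z β' s₀S : ℂ) = (ε₀ : ℂ) * classInner (β : C → ℂ) (β' : C → ℂ) := by
      intro β'
      rw [← hz β' s₀S, hs₀Sdef]
      have e : (fun c : C => (χh : Γ → ℂ) ((c : Γ) * s₀)) =
          fun c : C => (ε₀ : ℂ) * (β : C → ℂ) c := funext fun c => hβ c s₀ hs₀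
      show classInner (fun c : C => (χh : Γ → ℂ) ((c : Γ) * s₀)) (β' : C → ℂ) = _
      rw [e]
      simp only [classInner_def', Finset.mul_sum]
      refine Finset.sum_congr rfl fun c _ => ?_
      ring
    have hzle : ∀ (β' : IrrCharacter C) (x : ↥S), x ≠ 1 → z β' x * z β' x ≤ 1 := by
      intro β' x hx
      rw [← hznorm x hx]
      exact Finset.single_le_sum (f := fun β'' => z β'' x * z β'' x)
        (fun β'' _ => mul_self_nonneg _) (Finset.mem_univ β')
    have hvar := fun β' : IrrCharacter C =>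
      reg_var hScomm hn2 (z β') (hzchar β') (hzle β')
    have hI : ∀ β' : IrrCharacter C, β' ≠ β → (∀ x : ↥S, x ≠ 1 → z β' x = 0) ∧
        ∃ m : ℕ, z β' 1 = (Nat.card S : ℤ) * m := by
      intro β' hne
      rcases hvar β' with h | ⟨ε, μ, m, hε, hμ, -⟩
      · exact h
      · exfalso
        have h1 := hμ s₀S hs₀S1
        rw [hzs β', irr_inner_ne (Ne.symm hne), mul_zero] at h1
        have hμ0 : (μ : ↥S → ℂ) s₀S ≠ 0 :=
          linChar_ne_zero (isCharacter_of_isIrrCharacter μ.2) (irr_one_of_comm hScomm μ) s₀S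
        have hεc : (ε : ℂ) ≠ 0 := by
          rcases hε with h | h <;> rw [h] <;> simp
        exact mul_ne_zero hεc hμ0 h1.symm
    have hII : ∃ (ε : ℤ) (μ : IrrCharacter ↥S) (m : ℕ), (ε = 1 ∨ ε = -1) ∧
        (∀ x : ↥S, x ≠ 1 → (z β x : ℂ) = (ε : ℂ) * (μ : ↥S → ℂ) x) ∧
        z β 1 = (Nat.card S : ℤ) * m + ε := by
      rcases hvar β with ⟨h, -⟩ | h
      · exfalso
        have h1 := h s₀S hs₀S1
        have h2 := hzs β
        rw [h1, irr_inner_self, mul_one, Int.cast_zero] at h2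
        exact hε0 h2.symm
      · exact h
    obtain ⟨ε, μ, mβ, hε, hμ, hz1⟩ := hII
    have hμ1 : (μ : ↥S → ℂ) 1 = 1 := irr_one_of_comm hScomm μ
    have hm : ∀ β' : IrrCharacter C, ∃ m : ℕ,
        z β' 1 = (Nat.card S : ℤ) * m + (if β' = β then ε else 0) := by
      intro β'
      by_cases h : β' = β
      · refine ⟨mβ, ?_⟩
        rw [if_pos h, h]; exact hz1
      · obtain ⟨m, hm⟩ := (hI β' h).2
        refine ⟨m, ?_⟩
        rw [if_neg h, add_zero]; exact hm
    choose m hm using hm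
    have hdec : ∀ (x : ↥S) (c : C), (χh : Γ → ℂ) ((c : Γ) * (x : Γ)) =
        ∑ β' : IrrCharacter C, (z β' x : ℂ) * (β' : C → ℂ) c := by
      intro x c
      have hcf : IsClassFunction C (fun c : C => (χh : Γ → ℂ) ((c : Γ) * (x : Γ))) :=
        res_shift_classFunction C (x : Γ) (fun c hc => hDX c hc _ x.2) _
          (irr_isClassFunction χh)
      have h := congrFun (classFunction_eq_sum_irr _ hcf) c
      rw [Finset.sum_apply] at h
      refine h.trans (Finset.sum_congr rfl fun β' _ => ?_)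
      rw [Pi.smul_apply, smul_eq_mul, hz β' x]
    refine ⟨ε, hε, ⟨(μ : ↥S → ℂ), isCharacter_of_isIrrCharacter μ.2, hμ1, ?_, ?_⟩,
      ⟨∑ β' : IrrCharacter C, (m β' : ℂ) • (β' : C → ℂ), ?_, ?_⟩, ?_⟩
    · intro x
      by_cases hx : x = 1
      · rw [hx, hμ1, mul_one]
      · have h1 := hμ x hx
        have hsq : z β x * z β x = 1 := by
          have h2 := hznorm x hx
          rw [Finset.sum_eq_single β] at h2
          · exact h2
          · intro β' _ hne
            rw [(hI β' hne).1 x hx, mul_zero]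
          · intro h; exact absurd (Finset.mem_univ _) h
        have hεsq : (ε : ℂ) * (ε : ℂ) = 1 := by
          rcases hε with h | h <;> rw [h] <;> norm_num
        have h3 : ((z β x : ℂ)) * (z β x : ℂ) = 1 := by exact_mod_cast hsq
        rw [h1] at h3
        calc (μ : ↥S → ℂ) x * (μ : ↥S → ℂ) x
            = ((ε : ℂ) * (ε : ℂ)) * ((μ : ↥S → ℂ) x * (μ : ↥S → ℂ) x) := by rw [hεsq, one_mul]
          _ = 1 := by rw [← h3]; ring
    · intro c x hx
      rw [hdec x c, Finset.sum_eq_single β]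
      · rw [hμ x hx]; ring
      · intro β' _ hne
        rw [(hI β' hne).1 x hx]; simp
      · intro h; exact absurd (Finset.mem_univ _) h
    · exact isCharacter_sum _ _ fun β' _ =>
        isCharacter_natCast_smul (m β') (isCharacter_of_isIrrCharacter β'.2)
    · rw [hchiC]
      funext c
      have h := hdec 1 c
      rw [Subgroup.coe_one, mul_one] at h
      rw [h, Finset.sum_apply, Finset.mul_sum]
      have e : ∀ β' : IrrCharacter C, (z β' 1 : ℂ) * (β' : C → ℂ) c =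
          (Nat.card S : ℂ) * ((m β' : ℂ) • (β' : C → ℂ)) c +
            (if β' = β then (ε : ℂ) * (β' : C → ℂ) c else 0) := by
        intro β'
        rw [hm β', Pi.smul_apply, smul_eq_mul]
        by_cases h : β' = β
        · rw [if_pos h, if_pos h]; push_cast; ring
        · rw [if_neg h, if_neg h]; push_cast; ring
      have e' : ∑ β' : IrrCharacter C, (z β' 1 : ℂ) * (β' : C → ℂ) c =
          ∑ β' : IrrCharacter C, ((Nat.card S : ℂ) * ((m β' : ℂ) • (β' : C → ℂ)) c +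
            (if β' = β then (ε : ℂ) * (β' : C → ℂ) c else 0)) :=
        Finset.sum_congr rfl fun β' _ => e β'
      rw [e', Finset.sum_add_distrib, Finset.sum_ite_eq' Finset.univ β,
        if_pos (Finset.mem_univ _)]
    · have h := hdec 1 1
      rw [Subgroup.coe_one, Subgroup.coe_one, mul_one] at h
      choose dd hdd using fun β' : IrrCharacter C => irr_degree_dvd_card β'
      have hχ1 : (χh : Γ → ℂ) 1 = dχ := by
        have h5 := hext 1
        rw [Subgroup.coe_one] at h5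
        rw [h5]; exact hdχ
      have hsum : (dχ : ℤ) = ∑ β' : IrrCharacter C, z β' 1 * (dd β' : ℤ) := by
        have h2 : ((dχ : ℤ) : ℂ) = ((∑ β' : IrrCharacter C, z β' 1 * (dd β' : ℤ) : ℤ) : ℂ) := by
          push_cast
          rw [← hχ1, h]
          exact Finset.sum_congr rfl fun β' _ => by rw [(hdd β').1]
        exact_mod_cast h2
      have hdβ' : dd β = dβ := by
        have h1 := (hdd β).1
        rw [hdβ] at h1
        exact_mod_cast h1.symm
      refine ⟨∑ β' : IrrCharacter C, (m β' : ℤ) * (dd β' : ℤ), ?_⟩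
      rw [hsum, Finset.mul_sum]
      have e : ∀ β' : IrrCharacter C, z β' 1 * (dd β' : ℤ) =
          (Nat.card S : ℤ) * ((m β' : ℤ) * (dd β' : ℤ)) +
            (if β' = β then ε * (dd β' : ℤ) else 0) := by
        intro β'
        rw [hm β']
        by_cases h : β' = β
        · rw [if_pos h, if_pos h]; ring
        · rw [if_neg h, if_neg h]; ring
      have e' : ∑ β' : IrrCharacter C, z β' 1 * (dd β' : ℤ) =
          ∑ β' : IrrCharacter C, ((Nat.card S : ℤ) * ((m β' : ℤ) * (dd β' : ℤ)) +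
            (if β' = β then ε * (dd β' : ℤ) else 0)) :=
        Finset.sum_congr rfl fun β' _ => e β'
      rw [e', Finset.sum_add_distrib, Finset.sum_ite_eq' Finset.univ β,
        if_pos (Finset.mem_univ _), hdβ']
      ring

end Cfsg.Agent.Helper5
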