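import Mathlib
import Cfsg.Agent.Helper9.PPrimeCore

/-!
helper5: groups with Klein four Sylow `2`-subgroups: centralizers of involutions have normal
`2`-complements.
-/

set_option autoImplicit false

namespace Cfsg.Agent.Helper5

open Cfsg

universe u

section Klein

variable {G : Type u} [Group G] [Finite G]

omit [Finite G] in
theorem klein_comm (P : Subgroup G) (hP : IsKleinFour P) (a b : G) (ha : a ∈ P) (hb : b ∈ P) :
    a * b = b * a := by
  have h1 := IsKleinFour.mul_self (⟨a, ha⟩ * ⟨b, hb⟩ : P)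
  have h2 := IsKleinFour.mul_self (⟨a, ha⟩ : P)
  have h3 := IsKleinFour.mul_self (⟨b, hb⟩ : P)
  have h1' : a * b * (a * b) = 1 := congrArg Subtype.val h1
  have h2' : a * a = 1 := congrArg Subtype.val h2
  have h3' : b * b = 1 := congrArg Subtype.val h3
  have ha' : a⁻¹ = a := inv_eq_of_mul_eq_one_left h2'
  have hb' : b⁻¹ = b := inv_eq_of_mul_eq_one_left h3'
  have hab : (a * b)⁻¹ = a * b := inv_eq_of_mul_eq_one_left h1'
  calc a * b = (a * b)⁻¹ := hab.symm
    _ = b⁻¹ * a⁻¹ := mul_inv_rev a b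
    _ = b * a := by rw [ha', hb']

/-- in a group with Klein four Sylow `2`-subgroup `P`, an element of `N_G(P)` centralizing a
non-identity element of `P` centralizes `P`. -/
theorem klein_normalizer_cent (P : Sylow 2 G) (hP : IsKleinFour (P : Subgroup G)) (z₀ : G)
    (hz₀ : z₀ ∈ (P : Subgroup G)) (hz₀1 : z₀ ≠ 1) (n : G)
    (hn : n ∈ Subgroup.normalizer ((P : Subgroup G) : Set G)) (hnz : n * z₀ = z₀ * n) :
    ∀ t ∈ (P : Subgroup G), n * t * n⁻¹ = t := by
  classical
  haveI := hP
  by_contra hcon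
  push Not at hcon
  obtain ⟨a, haP, hne⟩ := hcon
  have hmem : ∀ t ∈ (P : Subgroup G), n * t * n⁻¹ ∈ (P : Subgroup G) := fun t ht =>
    (Subgroup.mem_normalizer_iff.mp hn t).mp ht
  have hnz' : n * z₀ * n⁻¹ = z₀ := by rw [hnz, mul_inv_cancel_right]
  obtain ⟨b, hb⟩ : ∃ b : G, b = n * a * n⁻¹ := ⟨_, rfl⟩
  have hbP : b ∈ (P : Subgroup G) := by rw [hb]; exact hmem a haP
  have ha1 : a ≠ 1 := by
    rintro rfl
    exact hne (by group)
  have haz : a ≠ z₀ := by
    rintro rfl
    exact hne hnz'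
  have hab : a = n⁻¹ * b * n := by rw [hb]; group
  have hb1 : b ≠ 1 := by
    intro h
    apply ha1
    rw [hab, h]
    group
  have hbz : b ≠ z₀ := by
    intro h
    apply haz
    rw [hab, h]
    calc n⁻¹ * z₀ * n = n⁻¹ * (z₀ * n) := by group
      _ = n⁻¹ * (n * z₀) := by rw [hnz]
      _ = z₀ := by group
  have hba : b ≠ a := by rw [hb]; exact hne
  have hb_eq : b = a * z₀ := by
    have h1 := IsKleinFour.eq_mul_of_ne_all (G := (P : Subgroup G)) (x := ⟨a, haP⟩)
      (y := ⟨z₀, hz₀⟩) (z := ⟨b, hbP⟩) (fun h => ha1 (congrArg Subtype.val h))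
      (fun h => hz₀1 (congrArg Subtype.val h)) (fun h => haz (congrArg Subtype.val h))
      (fun h => hb1 (congrArg Subtype.val h)) (fun h => hba (congrArg Subtype.val h))
      (fun h => hbz (congrArg Subtype.val h))
    exact congrArg Subtype.val h1
  have hz₀sq : z₀ * z₀ = 1 :=
    congrArg Subtype.val (IsKleinFour.mul_self (⟨z₀, hz₀⟩ : (P : Subgroup G)))
  have hpow : ∀ k : ℕ, n ^ k * a * (n ^ k)⁻¹ = if Even k then a else a * z₀ := by
    intro k
    induction k with
    | zero => simp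
    | succ k ih =>
      have e : n ^ (k + 1) * a * (n ^ (k + 1))⁻¹ = n * (n ^ k * a * (n ^ k)⁻¹) * n⁻¹ := by
        rw [pow_succ']
        group
      rw [e, ih]
      by_cases hk : Even k
      · rw [if_pos hk, if_neg (by rw [Nat.even_add_one]; exact not_not.mpr hk), ← hb, hb_eq]
      · rw [if_neg hk, if_pos (by rw [Nat.even_add_one]; exact hk)]
        have e2 : n * (a * z₀) * n⁻¹ = (n * a * n⁻¹) * (n * z₀ * n⁻¹) := by group
        rw [e2, hnz', ← hb, hb_eq, mul_assoc, hz₀sq, mul_one]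
  obtain ⟨e, m, hm, ho⟩ := Nat.exists_eq_two_pow_mul_odd (orderOf_pos n).ne'
  have hn'a : n ^ m * a * (n ^ m)⁻¹ = a * z₀ := by
    rw [hpow m, if_neg (Nat.not_even_iff_odd.mpr hm)]
  have hn'2 : (n ^ m) ^ (2 ^ e) = 1 := by
    rw [← pow_mul, mul_comm, ← ho, pow_orderOf_eq_one]
  have hn'N : n ^ m ∈ Subgroup.normalizer ((P : Subgroup G) : Set G) := Subgroup.pow_mem _ hn m
  have hQ : IsPGroup 2 (Subgroup.zpowers (n ^ m)) := by
    have h1 : orderOf (n ^ m) ∣ 2 ^ e := orderOf_dvd_of_pow_eq_one hn'2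
    obtain ⟨j, -, hj⟩ := (Nat.dvd_prime_pow Nat.prime_two).mp h1
    exact IsPGroup.of_card (n := j) (by rw [Nat.card_zpowers, hj])
  have hsup : IsPGroup 2 ((Subgroup.zpowers (n ^ m) ⊔ (P : Subgroup G) : Subgroup G)) :=
    IsPGroup.to_sup_of_normal_right' hQ P.2 (Subgroup.zpowers_le.mpr hn'N)
  have hEq := P.3 hsup le_sup_right
  have hn'P : n ^ m ∈ (P : Subgroup G) := by
    rw [← hEq]
    exact Subgroup.mem_sup_left (Subgroup.mem_zpowers _)
  have h2 : n ^ m * a * (n ^ m)⁻¹ = a := by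
    rw [klein_comm (P : Subgroup G) hP _ _ hn'P haP, mul_inv_cancel_right]
  rw [hn'a] at h2
  exact hz₀1 (mul_left_cancel (h2.trans (mul_one a).symm))

/-- the centralizer of a non-identity element of a Klein four Sylow `2`-subgroup has a normal
`2`-complement. -/
theorem klein_cent_compl (P : Sylow 2 G) (hP : IsKleinFour (P : Subgroup G)) (z₀ : G)
    (hz₀ : z₀ ∈ (P : Subgroup G)) (hz₀1 : z₀ ≠ 1) :
    (∃ k : ℕ, (pPrimeCore 2 (Subgroup.centralizer ({z₀} : Set G))).index = 2 ^ k) ∧
      (Nat.card (Subgroup.centralizer ({z₀} : Set G))).factorization 2 = 2 := by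
  classical
  haveI : Fact (Nat.Prime 2) := ⟨Nat.prime_two⟩
  have hPC : (P : Subgroup G) ≤ Subgroup.centralizer ({z₀} : Set G) := fun t ht =>
    Subgroup.mem_centralizer_singleton_iff.mpr (klein_comm (P : Subgroup G) hP t z₀ ht hz₀)
  obtain ⟨PC, hPCdef⟩ : ∃ PC : Sylow 2 (Subgroup.centralizer ({z₀} : Set G)),
      PC = P.subtype hPC := ⟨_, rfl⟩
  have hPCcoe : (PC : Subgroup (Subgroup.centralizer ({z₀} : Set G)))
      = (P : Subgroup G).subgroupOf (Subgroup.centralizer ({z₀} : Set G)) := by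
    rw [hPCdef]
    exact Sylow.coe_subtype P hPC
  have hmemPC : ∀ t : Subgroup.centralizer ({z₀} : Set G),
      t ∈ (PC : Subgroup (Subgroup.centralizer ({z₀} : Set G))) ↔ (t : G) ∈ (P : Subgroup G) := by
    intro t
    rw [hPCcoe, Subgroup.mem_subgroupOf]
  have hNC : Subgroup.normalizer
        ((PC : Subgroup (Subgroup.centralizer ({z₀} : Set G))) :
          Set (Subgroup.centralizer ({z₀} : Set G)))
      ≤ Subgroup.centralizer ((PC : Subgroup (Subgroup.centralizer ({z₀} : Set G))) :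
          Set (Subgroup.centralizer ({z₀} : Set G))) := by
    intro n hn
    rw [Subgroup.mem_centralizer_iff]
    intro t ht
    have hnG : (n : G) ∈ Subgroup.normalizer ((P : Subgroup G) : Set G) := by
      rw [Subgroup.mem_normalizer_iff] at hn ⊢
      intro g
      constructor
      · intro hg
        have h1 := (hn ⟨g, hPC hg⟩).mp ((hmemPC _).mpr hg)
        exact (hmemPC _).mp h1
      · intro hg
        have hgC : g ∈ Subgroup.centralizer ({z₀} : Set G) := by
          have h1 : (n : G)⁻¹ * ((n : G) * g * (n : G)⁻¹) * (n : G)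
              ∈ Subgroup.centralizer ({z₀} : Set G) :=
            Subgroup.mul_mem _ (Subgroup.mul_mem _ (Subgroup.inv_mem _ n.2) (hPC hg)) n.2
          have e : (n : G)⁻¹ * ((n : G) * g * (n : G)⁻¹) * (n : G) = g := by group
          rwa [e] at h1
        have h1 := (hn ⟨g, hgC⟩).mpr ((hmemPC _).mpr hg)
        exact (hmemPC _).mp h1
    have hnz : (n : G) * z₀ = z₀ * (n : G) := Subgroup.mem_centralizer_singleton_iff.mp n.2
    have htP : (t : G) ∈ (P : Subgroup G) := (hmemPC t).mp ht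
    have h1 := klein_normalizer_cent P hP z₀ hz₀ hz₀1 (n : G) hnG hnz (t : G) htP
    apply Subtype.ext
    push_cast
    calc (t : G) * (n : G) = ((n : G) * (t : G) * (n : G)⁻¹) * (n : G) := by rw [h1]
      _ = (n : G) * (t : G) := by group
  have hcompl := MonoidHom.ker_transferSylow_isComplement' PC hNC
  obtain ⟨K, hKdef⟩ : ∃ K : Subgroup (Subgroup.centralizer ({z₀} : Set G)),
      K = (MonoidHom.transferSylow PC hNC).ker := ⟨_, rfl⟩
  rw [← hKdef] at hcompl
  have hKn : K.Normal := by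
    rw [hKdef]
    exact MonoidHom.normal_ker _
  have hcardmul : Nat.card K * Nat.card (PC : Subgroup (Subgroup.centralizer ({z₀} : Set G)))
      = Nat.card (Subgroup.centralizer ({z₀} : Set G)) := hcompl.card_mul_card
  have hcardP : Nat.card (PC : Subgroup (Subgroup.centralizer ({z₀} : Set G))) = 4 := by
    rw [hPCcoe, Nat.card_congr (Subgroup.subgroupOfEquivOfLe hPC).toEquiv]
    exact hP.card_four
  have hKidx : K.index = 4 := by
    have h1 := Subgroup.card_mul_index K
    rw [← hcardmul, hcardP] at h1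
    exact Nat.eq_of_mul_eq_mul_left Nat.card_pos h1
  have hK2 : ¬ 2 ∣ Nat.card K := by
    have h1 : ¬ 2 ∣ (PC : Subgroup (Subgroup.centralizer ({z₀} : Set G))).index :=
      PC.not_dvd_index
    have h2 : (PC : Subgroup (Subgroup.centralizer ({z₀} : Set G))).index = Nat.card K := by
      have h3 := Subgroup.card_mul_index (PC : Subgroup (Subgroup.centralizer ({z₀} : Set G)))
      rw [← hcardmul, mul_comm (Nat.card K)] at h3
      exact Nat.eq_of_mul_eq_mul_left Nat.card_pos h3
    rwa [h2] at h1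
  have hKodd : (Nat.card K).Coprime 2 :=
    Nat.coprime_comm.mp ((Nat.Prime.coprime_iff_not_dvd Nat.prime_two).mpr hK2)
  have hKle : K ≤ pPrimeCore 2 (Subgroup.centralizer ({z₀} : Set G)) := le_sSup ⟨hKn, hKodd⟩
  have hdvd : (pPrimeCore 2 (Subgroup.centralizer ({z₀} : Set G))).index ∣ 4 := by
    rw [← hKidx]
    exact Subgroup.index_dvd_of_le hKle
  refine ⟨?_, ?_⟩
  · have h1 : (pPrimeCore 2 (Subgroup.centralizer ({z₀} : Set G))).index ∣ 2 ^ 2 := by
      norm_num
      exact hdvd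
    obtain ⟨k, -, hk⟩ := (Nat.dvd_prime_pow Nat.prime_two).mp h1
    exact ⟨k, hk⟩
  · rw [← hcardmul, hcardP, Nat.factorization_mul Nat.card_pos.ne' (by norm_num),
      Finsupp.add_apply, Nat.factorization_eq_zero_of_not_dvd hK2, zero_add]
    have h4 : (4 : ℕ) = 2 ^ 2 := by norm_num
    rw [h4, Nat.prime_two.factorization_pow, Finsupp.single_eq_same]

end Klein

end Cfsg.Agent.Helper5
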