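import Mathlib
import Cfsg.Agent.Helper5.Klein
import Cfsg.Agent.Helper5.BlkSec3
import Cfsg.Agent.Helper5.BlkVan
import Cfsg.Agent.Helper5.BlkOrth2
import Cfsg.Agent.S0944

/-!
helper5: the principal `2`-block of a group with Klein four Sylow `2`-subgroups and one class
of involutions (S0948).
-/

set_option autoImplicit false

namespace Cfsg.Agent.Helper5

open Cfsg Cfsg.Agent.Helper24 Cfsg.Agent.Helper22

universe u

section Blocks

variable {G : Type u} [Group G] [Fintype G]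

set_option maxHeartbeats 1000000 in
theorem klein_principal_block {M : Ideal AlgInt} (hM : IsPModular 2 M) [hMp : M.IsPrime]
    (P : Sylow 2 G) (hP : IsKleinFour (P : Subgroup G))
    (hone : ∀ s t : G, orderOf s = 2 → orderOf t = 2 → IsConj s t) :
    ∃ ζ₂ ζ₃ ζ₄ : IrrCharacter G, ∃ ε : ℤ, (ε = 1 ∨ ε = -1) ∧
      (ζ₂ : G → ℂ) ≠ (fun _ => 1) ∧ (ζ₃ : G → ℂ) ≠ (fun _ => 1) ∧ ζ₂ ≠ ζ₃ ∧ ζ₂ ≠ ζ₄ ∧
      ζ₃ ≠ ζ₄ ∧
      principalBlock M G = {χ : IrrCharacter G | (χ : G → ℂ) = (fun _ => 1) ∨ χ = ζ₂ ∨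
        χ = ζ₃ ∨ χ = ζ₄} ∧
      (∀ z : G, orderOf z = 2 → (ζ₂ : G → ℂ) z = 1 ∧ (ζ₃ : G → ℂ) z = (ε : ℂ) ∧
        (ζ₄ : G → ℂ) z = -1) ∧
      (4 : ℤ) ∣ (charDegree (ζ₂ : G → ℂ) : ℤ) - 1 ∧
      (4 : ℤ) ∣ (charDegree (ζ₃ : G → ℂ) : ℤ) - ε ∧
      (4 : ℤ) ∣ (charDegree (ζ₄ : G → ℂ) : ℤ) + 1 ∧
      ∀ y : G, Odd (orderOf y) →
        1 + (ζ₂ : G → ℂ) y + (ε : ℂ) * (ζ₃ : G → ℂ) y - (ζ₄ : G → ℂ) y = 0 := by
  classical
  haveI : Fact (Nat.Prime 2) := ⟨Nat.prime_two⟩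
  have hcard4 : Nat.card (P : Subgroup G) = 4 := hP.card_four
  obtain ⟨z₀', hz₀'⟩ : ∃ t : (P : Subgroup G), t ≠ 1 := by
    haveI : Nontrivial (P : Subgroup G) :=
      (Finite.one_lt_card_iff_nontrivial).mp (by rw [hcard4]; norm_num)
    exact exists_ne 1
  obtain ⟨z₀, hz₀⟩ : ∃ z₀ : G, z₀ = (z₀' : G) := ⟨_, rfl⟩
  have hz₀P : z₀ ∈ (P : Subgroup G) := by rw [hz₀]; exact z₀'.2
  have hz₀1 : z₀ ≠ 1 := by
    rw [hz₀]
    intro h
    exact hz₀' (Subtype.ext h)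
  have hz₀sq : z₀ * z₀ = 1 :=
    congrArg Subtype.val (IsKleinFour.mul_self (⟨z₀, hz₀P⟩ : (P : Subgroup G)))
  have ho : orderOf z₀ = 2 := orderOf_eq_prime (by rw [pow_two]; exact hz₀sq) hz₀1
  obtain ⟨triv, htriv⟩ : ∃ t : IrrCharacter G, (t : G → ℂ) = fun _ => 1 :=
    ⟨⟨_, Helper24.isIrrCharacter_one⟩, rfl⟩
  have hPB := principalBlock_eq_blockOf M triv htriv
  have htrivB : triv ∈ principalBlock M G := by
    rw [hPB]
    exact sameBlock_refl _
  have htriv_iff : ∀ χ : IrrCharacter G, (χ : G → ℂ) = (fun _ => 1) ↔ χ = triv := fun χ =>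
    ⟨fun h => Subtype.ext (h.trans htriv.symm), fun h => by rw [h, htriv]⟩
  choose nv hnv using fun ζ : IrrCharacter G => Cfsg.Agent.S0944.result ζ z₀ ho
  have hval : ∀ (ζ : IrrCharacter G) (z : G), orderOf z = 2 →
      (ζ : G → ℂ) z = (nv ζ : ℂ) := by
    intro ζ z hz
    obtain ⟨t, ht⟩ := isConj_iff.mp (hone z₀ z ho hz)
    rw [← ht, irr_conj, (hnv ζ).1]
  have hnvtriv : nv triv = 1 := by
    have h1 : ((nv triv : ℤ) : ℂ) = 1 := by
      have h2 := (hnv triv).1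
      rw [htriv] at h2
      exact h2.symm
    exact_mod_cast h1
  have hnz : ∀ ζ ∈ principalBlock M G, nv ζ ≠ 0 := by
    intro ζ hζ h0
    have hvan : ∀ g : G, orderOf g = 2 → (ζ : G → ℂ) g = 0 := by
      intro g hg
      rw [hval ζ g hg, h0, Int.cast_zero]
    have h1 := defect_zero_of_vanish hM ζ hvan
    obtain ⟨n, hn, hnG⟩ := irr_degree_dvd_card ζ
    have hdeg : charDegree (ζ : G → ℂ) = n := charDegree_of_eq hn
    have hn0 : n ≠ 0 := by
      intro h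
      rw [h, Nat.cast_zero] at hn
      exact Cfsg.Agent.Helper5.irr_one_ne_zero ζ hn
    obtain ⟨q, hq⟩ := hnG
    have hq0 : q ≠ 0 := by
      rintro rfl
      rw [mul_zero] at hq
      exact Nat.card_pos.ne' hq
    have h2 : ¬ 2 ∣ Nat.card G / charDegree (ζ : G → ℂ) := by
      rw [hdeg, hq, Nat.factorization_mul hn0 hq0, Finsupp.add_apply] at h1
      rw [hdeg, hq, Nat.mul_div_cancel_left q (Nat.pos_of_ne_zero hn0)]
      intro hdvd
      have h3 := Nat.Prime.factorization_pos_of_dvd Nat.prime_two hq0 hdvd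
      omega
    have h3 := (defect_zero_iff hM ζ).mp h2
    have h4 : triv ∈ blockOf M (ζ : G → ℂ) := by
      rw [hPB] at hζ
      rw [← blockOf_eq_of_sameBlock hζ]
      exact sameBlock_refl _
    rw [h3] at h4
    have h5 : triv = ζ := h4
    rw [← h5, hnvtriv] at h0
    exact one_ne_zero h0
  obtain ⟨hnc, hfac⟩ := klein_cent_compl P hP z₀ hz₀P hz₀1
  haveI : Fintype (Subgroup.centralizer ({z₀} : Set G)) := Fintype.ofFinite _
  have h1reg : ¬ 2 ∣ orderOf (1 : Subgroup.centralizer ({z₀} : Set G)) := by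
    rw [orderOf_one]
    norm_num
  have hsq := principal_section_norm_compl hM z₀ ⟨1, by rw [ho, pow_one]⟩ 1 h1reg hnc
  rw [hfac, Subgroup.coe_one, mul_one] at hsq
  obtain ⟨S, hS⟩ : ∃ S : Finset (IrrCharacter G),
      S = Finset.univ.filter (fun χ : IrrCharacter G => χ ∈ principalBlock M G) := ⟨_, rfl⟩
  have hSmem : ∀ χ : IrrCharacter G, χ ∈ S ↔ χ ∈ principalBlock M G := fun χ => by
    rw [hS]
    simp
  have hsumsq : ∑ χ ∈ S, (nv χ) ^ 2 = 4 := by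
    have h1 : ((∑ χ ∈ S, (nv χ) ^ 2 : ℤ) : ℝ) = 4 := by
      have h2 : ∑ᶠ ζ ∈ principalBlock M G, ‖(ζ : G → ℂ) z₀‖ ^ 2
          = ∑ χ ∈ S, ‖(χ : G → ℂ) z₀‖ ^ 2 := by
        rw [finsum_mem_def, finsum_eq_sum_of_fintype, hS, Finset.sum_filter]
        refine Finset.sum_congr rfl fun χ _ => ?_
        rw [Set.indicator_apply]
      rw [h2] at hsq
      rw [Int.cast_sum]
      have h3 : ∑ χ ∈ S, ((nv χ ^ 2 : ℤ) : ℝ) = ∑ χ ∈ S, ‖(χ : G → ℂ) z₀‖ ^ 2 := by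
        refine Finset.sum_congr rfl fun χ _ => ?_
        rw [(hnv χ).1, Complex.norm_intCast, sq_abs]
        push_cast
        rfl
      rw [h3, hsq]
      norm_num
    exact_mod_cast h1
  have htS : triv ∈ S := (hSmem triv).mpr htrivB
  have hge1 : ∀ χ ∈ S, 1 ≤ (nv χ) ^ 2 := by
    intro χ hχ
    have h1 := hnz χ ((hSmem χ).mp hχ)
    have h2 := sq_pos_iff.mpr h1
    omega
  have hsq1 : ∀ χ ∈ S, (nv χ) ^ 2 = 1 := by
    intro χ hχ
    by_cases hχt : χ = triv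
    · rw [hχt, hnvtriv]
      norm_num
    · have h1 : (nv χ) ^ 2 + (nv triv) ^ 2 ≤ ∑ ψ ∈ S, (nv ψ) ^ 2 := by
        have hsub : ({χ, triv} : Finset (IrrCharacter G)) ⊆ S := by
          intro ψ hψ
          rw [Finset.mem_insert, Finset.mem_singleton] at hψ
          rcases hψ with rfl | rfl
          · exact hχ
          · exact htS
        have h2 := Finset.sum_le_sum_of_subset_of_nonneg hsub
          (f := fun ψ : IrrCharacter G => (nv ψ) ^ 2) (fun ψ _ _ => sq_nonneg _)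
        rwa [Finset.sum_pair hχt] at h2
      rw [hsumsq, hnvtriv] at h1
      have h2 := hge1 χ hχ
      have h3 : nv χ ≤ 1 := by nlinarith
      have h4 : -1 ≤ nv χ := by nlinarith
      have h5 : nv χ ≠ 0 := hnz χ ((hSmem χ).mp hχ)
      have h6 : nv χ = 1 ∨ nv χ = -1 := by omega
      rcases h6 with h6 | h6 <;> rw [h6] <;> norm_num
  have hcardS : S.card = 4 := by
    have h1 : ∑ χ ∈ S, (nv χ) ^ 2 = ∑ χ ∈ S, (1 : ℤ) := Finset.sum_congr rfl hsq1
    rw [hsumsq, Finset.sum_const, nsmul_eq_mul, mul_one] at h1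
    exact_mod_cast h1.symm
  have hcard3 : (S.erase triv).card = 3 := by
    rw [Finset.card_erase_of_mem htS, hcardS]
  obtain ⟨a, b, c, hab, hac, hbc, habc⟩ := Finset.card_eq_three.mp hcard3
  have hmemabc : ∀ χ : IrrCharacter G, χ ∈ S.erase triv ↔ χ = a ∨ χ = b ∨ χ = c := by
    intro χ
    rw [habc]
    simp
  have haS : a ∈ S.erase triv := (hmemabc a).mpr (Or.inl rfl)
  have hbS : b ∈ S.erase triv := (hmemabc b).mpr (Or.inr (Or.inl rfl))
  have hcS : c ∈ S.erase triv := (hmemabc c).mpr (Or.inr (Or.inr rfl))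
  have hat : a ≠ triv := (Finset.mem_erase.mp haS).1
  have hbt : b ≠ triv := (Finset.mem_erase.mp hbS).1
  have hct : c ≠ triv := (Finset.mem_erase.mp hcS).1
  have hB : ∀ χ : IrrCharacter G,
      χ ∈ principalBlock M G ↔ χ = triv ∨ χ = a ∨ χ = b ∨ χ = c := by
    intro χ
    rw [← hSmem χ, ← hmemabc χ, Finset.mem_erase]
    by_cases h : χ = triv
    · simp [h, htS]
    · simp [h]
  have hsgn : ∀ χ ∈ S, nv χ = 1 ∨ nv χ = -1 := by
    intro χ hχ
    have h1 := hsq1 χ hχ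
    have h2 : (nv χ - 1) * (nv χ + 1) = 0 := by
      have e : (nv χ - 1) * (nv χ + 1) = (nv χ) ^ 2 - 1 := by ring
      rw [e, h1, sub_self]
    rcases mul_eq_zero.mp h2 with h | h
    · left; omega
    · right; omega
  have hfsum : ∀ f : IrrCharacter G → ℂ,
      ∑ᶠ χ ∈ principalBlock M G, f χ = f triv + (f a + (f b + f c)) := by
    intro f
    have hset : principalBlock M G = insert triv (insert a (insert b {c})) := by
      ext χ
      rw [hB χ]
      simp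
    rw [hset, finsum_mem_insert _ (by simp [hat.symm, hbt.symm, hct.symm]) (Set.toFinite _),
      finsum_mem_insert _ (by simp [hab, hac]) (Set.toFinite _), finsum_mem_pair hbc]
  have hz₀pp : IsPPart 2 z₀ z₀ :=
    ⟨1, mul_one z₀, Commute.one_right z₀, ⟨1, by rw [ho, pow_one]⟩, by
      rw [orderOf_one]; norm_num⟩
  have hnc1 : ¬ IsConj z₀ 1 := by
    intro h
    exact hz₀1 (isConj_one_right.mp h.symm)
  have hF4 : ∀ y : G, Odd (orderOf y) →
      1 + (nv a : ℂ) * (a : G → ℂ) y + (nv b : ℂ) * (b : G → ℂ) y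
        + (nv c : ℂ) * (c : G → ℂ) y = 0 := by
    intro y hy
    have hypp : IsPPart 2 y⁻¹ 1 :=
      ⟨y⁻¹, one_mul _, Commute.one_left _, ⟨0, by rw [orderOf_one, pow_zero]⟩, by
        rw [orderOf_inv]
        exact hy.not_two_dvd_nat⟩
    have h1 := block_orth hM z₀ y⁻¹ z₀ 1 hz₀pp hypp hnc1 triv
    rw [← hPB, hfsum, inv_inv] at h1
    rw [(hnv triv).1, (hnv a).1, (hnv b).1, (hnv c).1, hnvtriv, htriv] at h1
    push_cast at h1
    linear_combination h1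
  obtain ⟨da, hda0, hda⟩ := irr_one_eq_natCast_pos a
  obtain ⟨db, hdb0, hdb⟩ := irr_one_eq_natCast_pos b
  obtain ⟨dc, hdc0, hdc⟩ := irr_one_eq_natCast_pos c
  have hF4one : (1 : ℤ) + nv a * da + nv b * db + nv c * dc = 0 := by
    have h1 := hF4 1 (by rw [orderOf_one]; exact odd_one)
    rw [hda, hdb, hdc] at h1
    exact_mod_cast h1
  have hmod4 : ∀ ζ : IrrCharacter G, (4 : ℤ) ∣ (charDegree (ζ : G → ℂ) : ℤ) - nv ζ := by
    intro ζ
    haveI : Fintype (P : Subgroup G) := Fintype.ofFinite _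
    have hint := irr_avg_isIntegral ζ (P : Subgroup G) 1 (fun u _ => by rw [mul_one, one_mul])
    obtain ⟨d, hd0, hd⟩ := irr_one_eq_natCast_pos ζ
    have hdeg : charDegree (ζ : G → ℂ) = d := charDegree_of_eq hd
    have hsumP : ∑ u : (P : Subgroup G), (ζ : G → ℂ) ((u : G) * 1)
        = (d : ℂ) + 3 * (nv ζ : ℂ) := by
      rw [← Finset.add_sum_erase Finset.univ _ (Finset.mem_univ (1 : (P : Subgroup G)))]
      rw [Subgroup.coe_one, mul_one, hd]
      congr 1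
      have h1 : ∀ u ∈ Finset.univ.erase (1 : (P : Subgroup G)),
          (ζ : G → ℂ) ((u : G) * 1) = (nv ζ : ℂ) := by
        intro u hu
        have hu1 : u ≠ 1 := (Finset.mem_erase.mp hu).1
        have huo : orderOf (u : G) = 2 :=
          orderOf_eq_prime (by
            rw [pow_two]
            exact congrArg Subtype.val (IsKleinFour.mul_self u)) (fun h => hu1 (Subtype.ext h))
        rw [mul_one, hval ζ _ huo]
      rw [Finset.sum_congr rfl h1, Finset.sum_const,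
        Finset.card_erase_of_mem (Finset.mem_univ _), Finset.card_univ,
        ← Nat.card_eq_fintype_card, hcard4]
      norm_num
    rw [hsumP, hcard4] at hint
    have hq : (((4 : ℕ) : ℂ)⁻¹ * ((d : ℂ) + 3 * (nv ζ : ℂ)))
        = ((((d : ℚ) + 3 * (nv ζ : ℚ)) / 4 : ℚ) : ℂ) := by
      push_cast
      ring
    rw [hq] at hint
    obtain ⟨k, hk⟩ := exists_int_of_isIntegral_ratCast hint
    have hk' : (d : ℤ) + 3 * nv ζ = 4 * k := by
      have h1 : (((d : ℤ) + 3 * nv ζ : ℤ) : ℚ) = ((4 * k : ℤ) : ℚ) := by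
        push_cast
        rw [hk]
        ring
      exact_mod_cast h1
    rw [hdeg]
    exact ⟨k - nv ζ, by push_cast; linarith⟩
  have key : ∀ ζ₂ ζ₃ ζ₄ : IrrCharacter G, ζ₂ ≠ triv → ζ₃ ≠ triv → ζ₂ ≠ ζ₃ → ζ₂ ≠ ζ₄ →
      ζ₃ ≠ ζ₄ →
      (∀ χ : IrrCharacter G,
        χ ∈ principalBlock M G ↔ χ = triv ∨ χ = ζ₂ ∨ χ = ζ₃ ∨ χ = ζ₄) →
      nv ζ₂ = 1 → nv ζ₄ = -1 → (nv ζ₃ = 1 ∨ nv ζ₃ = -1) →
      (∀ y : G, Odd (orderOf y) →
        1 + (ζ₂ : G → ℂ) y + (nv ζ₃ : ℂ) * (ζ₃ : G → ℂ) y - (ζ₄ : G → ℂ) y = 0) →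
      ∃ ζ₂ ζ₃ ζ₄ : IrrCharacter G, ∃ ε : ℤ, (ε = 1 ∨ ε = -1) ∧
      (ζ₂ : G → ℂ) ≠ (fun _ => 1) ∧ (ζ₃ : G → ℂ) ≠ (fun _ => 1) ∧ ζ₂ ≠ ζ₃ ∧ ζ₂ ≠ ζ₄ ∧
      ζ₃ ≠ ζ₄ ∧
      principalBlock M G = {χ : IrrCharacter G | (χ : G → ℂ) = (fun _ => 1) ∨ χ = ζ₂ ∨
        χ = ζ₃ ∨ χ = ζ₄} ∧
      (∀ z : G, orderOf z = 2 → (ζ₂ : G → ℂ) z = 1 ∧ (ζ₃ : G → ℂ) z = (ε : ℂ) ∧
        (ζ₄ : G → ℂ) z = -1) ∧
      (4 : ℤ) ∣ (charDegree (ζ₂ : G → ℂ) : ℤ) - 1 ∧
      (4 : ℤ) ∣ (charDegree (ζ₃ : G → ℂ) : ℤ) - ε ∧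
      (4 : ℤ) ∣ (charDegree (ζ₄ : G → ℂ) : ℤ) + 1 ∧
      ∀ y : G, Odd (orderOf y) →
        1 + (ζ₂ : G → ℂ) y + (ε : ℂ) * (ζ₃ : G → ℂ) y - (ζ₄ : G → ℂ) y = 0 := by
    intro ζ₂ ζ₃ ζ₄ h2t h3t h23 h24 h34 hBB hn2 hn4 hn3 hrel
    refine ⟨ζ₂, ζ₃, ζ₄, nv ζ₃, hn3, fun h => h2t ((htriv_iff ζ₂).mp h),
      fun h => h3t ((htriv_iff ζ₃).mp h), h23, h24, h34, ?_, ?_, ?_, ?_, ?_, hrel⟩
    · ext χ
      rw [hBB χ]
      show _ ↔ ((χ : G → ℂ) = (fun _ => 1) ∨ _)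
      rw [htriv_iff χ]
    · intro z hz
      refine ⟨?_, hval ζ₃ z hz, ?_⟩
      · rw [hval ζ₂ z hz, hn2, Int.cast_one]
      · rw [hval ζ₄ z hz, hn4, Int.cast_neg, Int.cast_one]
    · have h1 := hmod4 ζ₂
      rwa [hn2] at h1
    · exact hmod4 ζ₃
    · have h1 := hmod4 ζ₄
      rw [hn4, sub_neg_eq_add] at h1
      exact h1
  have hsa := hsgn a ((Finset.mem_erase.mp haS).2)
  have hsb := hsgn b ((Finset.mem_erase.mp hbS).2)
  have hsc := hsgn c ((Finset.mem_erase.mp hcS).2)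
  have hda0' : (0 : ℤ) < da := by exact_mod_cast hda0
  have hdb0' : (0 : ℤ) < db := by exact_mod_cast hdb0
  have hdc0' : (0 : ℤ) < dc := by exact_mod_cast hdc0
  rcases hsa with ha | ha <;> rcases hsb with hb | hb <;> rcases hsc with hc | hc
  · exfalso
    rw [ha, hb, hc] at hF4one
    omega
  · exact key a b c hat hbt hab hac hbc hB ha hc (Or.inl hb) (fun y hy => by
      have h := hF4 y hy
      rw [ha, hb, hc] at h
      rw [hb]
      push_cast at h ⊢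
      linear_combination h)
  · exact key a c b hat hct hac hab hbc.symm (fun χ => by rw [hB χ]; tauto) ha hb (Or.inl hc)
      (fun y hy => by
        have h := hF4 y hy
        rw [ha, hb, hc] at h
        rw [hc]
        push_cast at h ⊢
        linear_combination h)
  · exact key a b c hat hbt hab hac hbc hB ha hc (Or.inr hb) (fun y hy => by
      have h := hF4 y hy
      rw [ha, hb, hc] at h
      rw [hb]
      push_cast at h ⊢
      linear_combination h)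
  · exact key b c a hbt hct hbc hab.symm hac.symm (fun χ => by rw [hB χ]; tauto) hb ha
      (Or.inl hc) (fun y hy => by
        have h := hF4 y hy
        rw [ha, hb, hc] at h
        rw [hc]
        push_cast at h ⊢
        linear_combination h)
  · exact key b a c hbt hat hab.symm hbc hac (fun χ => by rw [hB χ]; tauto) hb hc
      (Or.inr ha) (fun y hy => by
        have h := hF4 y hy
        rw [ha, hb, hc] at h
        rw [ha]
        push_cast at h ⊢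
        linear_combination h)
  · exact key c a b hct hat hac.symm hbc.symm hab (fun χ => by rw [hB χ]; tauto) hc hb
      (Or.inr ha) (fun y hy => by
        have h := hF4 y hy
        rw [ha, hb, hc] at h
        rw [ha]
        push_cast at h ⊢
        linear_combination h)
  · exfalso
    rw [ha, hb, hc] at hF4one
    omega

end Blocks

end Cfsg.Agent.Helper5
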