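import Mathlib
import Cfsg.Agent.Helper5.Klein2
import Cfsg.Agent.Helper5.BlkRank

/-!
helper5: the `2`-regular rank of the principal block of a group with Klein four Sylow
`2`-subgroups and one class of involutions.
-/

set_option autoImplicit false

namespace Cfsg.Agent.Helper5

open Cfsg Cfsg.Agent.Helper24 Cfsg.Agent.Helper22

open scoped Pointwise

universe u

variable {G : Type u} [Group G] [Fintype G]

/-- pairing on a `p`-section for the principal block, when the centralizer has a normal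
`p`-complement. -/
theorem principal_section_pair_compl {p : ℕ} [Fact p.Prime] {M : Ideal AlgInt}
    (hM : IsPModular p M) [hMp : M.IsPrime] (z : G) (hz : ∃ k : ℕ, orderOf z = p ^ k)
    [Fintype (Subgroup.centralizer ({z} : Set G))]
    (y y' : Subgroup.centralizer ({z} : Set G)) (hy : ¬ p ∣ orderOf y) (hy' : ¬ p ∣ orderOf y')
    (hnc : ∃ k : ℕ, (pPrimeCore p (Subgroup.centralizer ({z} : Set G))).index = p ^ k)
    (cG : IrrCharacter G → ℂ) (hcG1 : ∀ χ ∈ principalBlock M G, cG χ = 1)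
    (hcG0 : ∀ χ, χ ∉ principalBlock M G → cG χ = 0) :
    ∑ χ : IrrCharacter G, cG χ * ((χ : G → ℂ) (z * (y : G))
        * starRingEnd ℂ ((χ : G → ℂ) (z * (y' : G))))
      = ((p ^ (Nat.card (Subgroup.centralizer ({z} : Set G))).factorization p : ℕ) : ℂ) := by
  classical
  have hp := hM.1
  obtain ⟨triv, htriv⟩ : ∃ t : IrrCharacter G, (t : G → ℂ) = fun _ => 1 :=
    ⟨⟨_, Helper24.isIrrCharacter_one⟩, rfl⟩
  have hPB := principalBlock_eq_blockOf M triv htriv
  obtain ⟨trivC, htrivC⟩ : ∃ t : IrrCharacter (Subgroup.centralizer ({z} : Set G)),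
      (t : Subgroup.centralizer ({z} : Set G) → ℂ) = fun _ => 1 :=
    ⟨⟨_, Helper24.isIrrCharacter_one⟩, rfl⟩
  have hPBC := principalBlock_eq_blockOf M trivC htrivC
  obtain ⟨c, hc⟩ : ∃ c : IrrCharacter (Subgroup.centralizer ({z} : Set G)) → ℂ,
      c = fun ψ : IrrCharacter (Subgroup.centralizer ({z} : Set G)) =>
        if ψ ∈ principalBlock M (Subgroup.centralizer ({z} : Set G)) then (1 : ℂ) else 0 :=
    ⟨_, rfl⟩
  have hc1' : ∀ ψ ∈ principalBlock M (Subgroup.centralizer ({z} : Set G)), c ψ = 1 :=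
    fun ψ h => by rw [hc]; exact if_pos h
  have hc0' : ∀ ψ, ψ ∉ principalBlock M (Subgroup.centralizer ({z} : Set G)) → c ψ = 0 :=
    fun ψ h => by rw [hc]; exact if_neg h
  have hiff := principal_induced_iff hM z hz
  rw [hPB] at hiff hcG1 hcG0
  have hpair := section_pairing hM z hz triv y y' hy hy' c
    (fun ψ hi => hc1' ψ ((hiff ψ).mp hi))
    (fun ψ hi => hc0' ψ (fun h => hi ((hiff ψ).mpr h))) cG hcG1 hcG0
  rw [hpair]
  have hNn : (pPrimeCore p (Subgroup.centralizer ({z} : Set G))).Normal := inferInstance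
  have hpN : ¬ p ∣ Nat.card (pPrimeCore p (Subgroup.centralizer ({z} : Set G))) := fun hd =>
    hp.one_lt.ne' (Nat.Coprime.eq_one_of_dvd
      (Cfsg.Agent.Helper9.pPrimeCore_coprime p (Subgroup.centralizer ({z} : Set G))).symm hd)
  have hker : ∀ ψ ∈ principalBlock M (Subgroup.centralizer ({z} : Set G)),
      ∀ w : Subgroup.centralizer ({z} : Set G), ¬ p ∣ orderOf w →
        (ψ : Subgroup.centralizer ({z} : Set G) → ℂ) w
          = (ψ : Subgroup.centralizer ({z} : Set G) → ℂ) 1 := by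
    intro ψ hψ w hw
    have hψ' := hψ
    rw [hPBC] at hψ'
    exact ker_of_sameBlock hM (pPrimeCore p (Subgroup.centralizer ({z} : Set G))) hpN trivC ψ hψ'
      (fun g _ => by rw [htrivC]) w (mem_of_not_dvd_orderOf_of_index _ hnc hp hw)
  have h1 : ¬ p ∣ orderOf (1 : Subgroup.centralizer ({z} : Set G)) := by
    rw [orderOf_one]
    exact hp.not_dvd_one
  have hnorm := principal_section_norm_compl hM z hz (1 : Subgroup.centralizer ({z} : Set G))
    h1 hnc
  rw [principal_section_norm hM z hz (1 : Subgroup.centralizer ({z} : Set G)) h1] at hnorm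
  have hR : ((∑ᶠ χ ∈ principalBlock M (Subgroup.centralizer ({z} : Set G)),
        ‖(χ : Subgroup.centralizer ({z} : Set G) → ℂ) 1‖ ^ 2 : ℝ) : ℂ)
      = ∑ ψ : IrrCharacter (Subgroup.centralizer ({z} : Set G)), c ψ *
        ((ψ : Subgroup.centralizer ({z} : Set G) → ℂ) y
          * starRingEnd ℂ ((ψ : Subgroup.centralizer ({z} : Set G) → ℂ) y')) := by
    rw [finsum_mem_def, finsum_eq_sum_of_fintype, Complex.ofReal_sum]
    refine Finset.sum_congr rfl fun ψ _ => ?_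
    by_cases h : ψ ∈ principalBlock M (Subgroup.centralizer ({z} : Set G))
    · rw [Set.indicator_of_mem h, hc1' ψ h, one_mul, hker ψ h y hy, hker ψ h y' hy',
        Complex.mul_conj', Complex.ofReal_pow]
    · rw [Set.indicator_of_notMem h, hc0' ψ h, zero_mul, Complex.ofReal_zero]
  rw [← hR, hnorm, Complex.ofReal_natCast]

/-- every Sylow `2`-subgroup is a Klein four-group if one is. -/
theorem klein_sylow_all (P : Sylow 2 G) (hP : IsKleinFour (P : Subgroup G)) (Q : Sylow 2 G) :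
    IsKleinFour (Q : Subgroup G) := by
  have : Fact (Nat.Prime 2) := ⟨Nat.prime_two⟩
  have := hP
  obtain ⟨g, rfl⟩ := MulAction.exists_smul_eq G P Q
  have hcard : Nat.card ((g • P : Sylow 2 G) : Subgroup G) = 4 := by
    rw [Sylow.card_eq_multiplicity, ← Sylow.card_eq_multiplicity P]
    exact hP.card_four
  refine ⟨hcard, ?_⟩
  have hsq : ∀ x : ((g • P : Sylow 2 G) : Subgroup G), x ^ 2 = 1 := by
    rintro ⟨x, hx⟩
    have hx' : x ∈ MulAut.conj g • (P : Subgroup G) := by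
      rw [← Sylow.coe_subgroup_smul]
      exact hx
    rw [Subgroup.mem_smul_pointwise_iff_exists] at hx'
    obtain ⟨s, hs, hsx⟩ := hx'
    have h2 : s * s = 1 :=
      congrArg Subtype.val (IsKleinFour.mul_self (⟨s, hs⟩ : (P : Subgroup G)))
    apply Subtype.ext
    show x ^ 2 = 1
    rw [← hsx, MulAut.smul_def, MulAut.conj_apply, pow_two]
    calc g * s * g⁻¹ * (g * s * g⁻¹) = g * (s * s) * g⁻¹ := by group
      _ = 1 := by rw [h2, mul_one, mul_inv_cancel]
  have hdvd : Monoid.exponent ((g • P : Sylow 2 G) : Subgroup G) ∣ 2 :=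
    Monoid.exponent_dvd_of_forall_pow_eq_one hsq
  rcases (Nat.dvd_prime Nat.prime_two).mp hdvd with h | h
  · exfalso
    have hsub := Monoid.exp_eq_one_iff.mp h
    have := Finite.card_le_one_iff_subsingleton.mpr hsub
    omega
  · exact h

/-- the principal `2`-block of a group with Klein four Sylow `2`-subgroups and one class of
involutions has `2`-regular rank three. -/
theorem klein_blockRank {M : Ideal AlgInt} (hM : IsPModular 2 M) [hMp : M.IsPrime]
    (P : Sylow 2 G) (hP : IsKleinFour (P : Subgroup G))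
    (hone : ∀ s t : G, orderOf s = 2 → orderOf t = 2 → IsConj s t) :
    blockRank 2 (principalBlock M G) = 3 := by
  classical
  have : Fact (Nat.Prime 2) := ⟨Nat.prime_two⟩
  have := hP
  obtain ⟨ζ₂, ζ₃, ζ₄, ε, hε, h21, h31, h23, h24, h34, hB, hinv, -, -, -, hrel⟩ :=
    klein_principal_block hM P hP hone
  obtain ⟨t, ht⟩ : ∃ t : IrrCharacter G, (t : G → ℂ) = fun _ => 1 :=
    ⟨⟨_, Helper24.isIrrCharacter_one⟩, rfl⟩
  have hPB := principalBlock_eq_blockOf M t ht
  have hG0 : (Nat.card G : ℂ) ≠ 0 := Nat.cast_ne_zero.mpr Nat.card_pos.ne'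
  have ht2 : t ≠ ζ₂ := fun h => h21 (by rw [← h, ht])
  have ht3 : t ≠ ζ₃ := fun h => h31 (by rw [← h, ht])
  obtain ⟨z₀, hz₀P, hz₀1⟩ : ∃ z₀ : G, z₀ ∈ (P : Subgroup G) ∧ z₀ ≠ 1 := by
    have hc : Nat.card (P : Subgroup G) = 4 := hP.card_four
    by_contra hcon
    push Not at hcon
    have hbot : (P : Subgroup G) = ⊥ := (Subgroup.eq_bot_iff_forall _).mpr hcon
    rw [hbot, Subgroup.card_bot] at hc
    omega
  have hz₀o : orderOf z₀ = 2 := by
    have h2 : z₀ * z₀ = 1 :=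
      congrArg Subtype.val (IsKleinFour.mul_self (⟨z₀, hz₀P⟩ : (P : Subgroup G)))
    exact orderOf_eq_prime (by rw [pow_two]; exact h2) hz₀1
  have h41 : (ζ₄ : G → ℂ) ≠ fun _ => 1 := by
    intro h
    have h1 := (hinv z₀ hz₀o).2.2
    rw [h] at h1
    norm_num at h1
  have ht4 : t ≠ ζ₄ := fun h => h41 (by rw [← h, ht])
  have hsum4 : ∀ F : IrrCharacter G → ℂ,
      ∑ᶠ χ ∈ principalBlock M G, F χ = F t + F ζ₂ + F ζ₃ + F ζ₄ := by
    intro F
    rw [hB]
    have hfin : {χ : IrrCharacter G | (χ : G → ℂ) = (fun _ => 1) ∨ χ = ζ₂ ∨ χ = ζ₃ ∨ χ = ζ₄}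
        = (({t, ζ₂, ζ₃, ζ₄} : Finset (IrrCharacter G)) : Set (IrrCharacter G)) := by
      ext χ
      simp only [Set.mem_ofPred_eq, Finset.coe_insert, Finset.coe_singleton, Set.mem_insert_iff,
        Set.mem_singleton_iff]
      constructor
      · rintro (h | h | h | h)
        · exact Or.inl (Subtype.ext (h.trans ht.symm))
        · exact Or.inr (Or.inl h)
        · exact Or.inr (Or.inr (Or.inl h))
        · exact Or.inr (Or.inr (Or.inr h))
      · rintro (h | h | h | h)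
        · exact Or.inl (by rw [h, ht])
        · exact Or.inr (Or.inl h)
        · exact Or.inr (Or.inr (Or.inl h))
        · exact Or.inr (Or.inr (Or.inr h))
    rw [hfin, finsum_mem_coe_finset, Finset.sum_insert, Finset.sum_insert, Finset.sum_insert,
      Finset.sum_singleton]
    · ring
    · simp [h34]
    · simp [h23, h24]
    · simp [ht2, ht3, ht4]
  obtain ⟨N, hN⟩ : ∃ N : G → ℂ, N = fun x : G =>
      1 + (ζ₂ : G → ℂ) x * starRingEnd ℂ ((ζ₂ : G → ℂ) x)
        + (ζ₃ : G → ℂ) x * starRingEnd ℂ ((ζ₃ : G → ℂ) x)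
        + (ζ₄ : G → ℂ) x * starRingEnd ℂ ((ζ₄ : G → ℂ) x) := ⟨_, rfl⟩
  have hNapp : ∀ x : G, N x = 1 + (ζ₂ : G → ℂ) x * starRingEnd ℂ ((ζ₂ : G → ℂ) x)
        + (ζ₃ : G → ℂ) x * starRingEnd ℂ ((ζ₃ : G → ℂ) x)
        + (ζ₄ : G → ℂ) x * starRingEnd ℂ ((ζ₄ : G → ℂ) x) := fun x => by rw [hN]
  have h4 : ((2 ^ 2 : ℕ) : ℂ) = 4 := by norm_num
  -- the values on `2`-singular elements
  have hsing : ∀ g : G, 2 ∣ orderOf g →
      (1 + (ζ₂ : G → ℂ) g + (ε : ℂ) * (ζ₃ : G → ℂ) g - (ζ₄ : G → ℂ) g = 4) ∧ N g = 4 := by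
    intro g hg
    obtain ⟨z, y, hzy, hcomm, ⟨k, hk⟩, hyo⟩ := exists_isPPart Nat.prime_two g
    obtain ⟨Q, hQ⟩ := (IsPGroup.of_card (show Nat.card (Subgroup.zpowers z) = 2 ^ k by
      rw [Nat.card_zpowers, hk])).exists_le_sylow
    have hzQ : z ∈ (Q : Subgroup G) := hQ (Subgroup.mem_zpowers z)
    have hQK : IsKleinFour (Q : Subgroup G) := klein_sylow_all P hP Q
    have hz1 : z ≠ 1 := by
      rintro rfl
      rw [one_mul] at hzy
      rw [← hzy] at hg
      exact hyo hg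
    have hzz : z * z = 1 :=
      congrArg Subtype.val (IsKleinFour.mul_self (⟨z, hzQ⟩ : (Q : Subgroup G)))
    have hz2 : orderOf z = 2 := orderOf_eq_prime (by rw [pow_two]; exact hzz) hz1
    obtain ⟨hnc, hfac⟩ := klein_cent_compl Q hQK z hzQ hz1
    have hyC : y ∈ Subgroup.centralizer ({z} : Set G) :=
      Subgroup.mem_centralizer_singleton_iff.mpr hcomm.eq.symm
    have : Fintype (Subgroup.centralizer ({z} : Set G)) := Fintype.ofFinite _
    obtain ⟨cG, hcG⟩ : ∃ cG : IrrCharacter G → ℂ,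
        cG = fun χ : IrrCharacter G => if χ ∈ principalBlock M G then (1 : ℂ) else 0 :=
      ⟨_, rfl⟩
    have hcG1 : ∀ χ ∈ principalBlock M G, cG χ = 1 := fun χ h => by rw [hcG]; exact if_pos h
    have hcG0 : ∀ χ, χ ∉ principalBlock M G → cG χ = 0 := fun χ h => by
      rw [hcG]; exact if_neg h
    have hyo' : ¬ 2 ∣ orderOf (⟨y, hyC⟩ : Subgroup.centralizer ({z} : Set G)) := by
      rw [Subgroup.orderOf_mk]
      exact hyo
    have h1o : ¬ 2 ∣ orderOf (1 : Subgroup.centralizer ({z} : Set G)) := by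
      rw [orderOf_one]
      decide
    have hconv : ∀ F : IrrCharacter G → ℂ,
        ∑ χ : IrrCharacter G, cG χ * F χ = F t + F ζ₂ + F ζ₃ + F ζ₄ := by
      intro F
      rw [← hsum4 F, finsum_mem_eq_sum_ite']
      refine Finset.sum_congr rfl fun χ _ => ?_
      by_cases h : χ ∈ principalBlock M G
      · rw [if_pos h, hcG1 χ h, one_mul]
      · rw [if_neg h, hcG0 χ h, zero_mul]
    have hA := principal_section_pair_compl hM z ⟨1, by rw [hz2, pow_one]⟩ ⟨y, hyC⟩ 1 hyo' h1o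
      hnc cG hcG1 hcG0
    have hB' := principal_section_pair_compl hM z ⟨1, by rw [hz2, pow_one]⟩ ⟨y, hyC⟩ ⟨y, hyC⟩
      hyo' hyo' hnc cG hcG1 hcG0
    rw [hfac, h4] at hA hB'
    have hA2 : (t : G → ℂ) (z * y) * starRingEnd ℂ ((t : G → ℂ) (z * 1))
        + (ζ₂ : G → ℂ) (z * y) * starRingEnd ℂ ((ζ₂ : G → ℂ) (z * 1))
        + (ζ₃ : G → ℂ) (z * y) * starRingEnd ℂ ((ζ₃ : G → ℂ) (z * 1))
        + (ζ₄ : G → ℂ) (z * y) * starRingEnd ℂ ((ζ₄ : G → ℂ) (z * 1)) = 4 :=
      (hconv (fun χ : IrrCharacter G => (χ : G → ℂ) (z * y)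
        * starRingEnd ℂ ((χ : G → ℂ) (z * 1)))).symm.trans hA
    have hB2 : (t : G → ℂ) (z * y) * starRingEnd ℂ ((t : G → ℂ) (z * y))
        + (ζ₂ : G → ℂ) (z * y) * starRingEnd ℂ ((ζ₂ : G → ℂ) (z * y))
        + (ζ₃ : G → ℂ) (z * y) * starRingEnd ℂ ((ζ₃ : G → ℂ) (z * y))
        + (ζ₄ : G → ℂ) (z * y) * starRingEnd ℂ ((ζ₄ : G → ℂ) (z * y)) = 4 :=
      (hconv (fun χ : IrrCharacter G => (χ : G → ℂ) (z * y)
        * starRingEnd ℂ ((χ : G → ℂ) (z * y)))).symm.trans hB'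
    obtain ⟨hv2, hv3, hv4⟩ := hinv z hz2
    rw [mul_one, hzy, hv2, hv3, hv4, ht] at hA2
    rw [hzy, ht] at hB2
    refine ⟨?_, ?_⟩
    · rw [← hA2]
      simp
      ring
    · rw [hNapp, ← hB2]
      simp
  have hreg : ∀ g : G, ¬ 2 ∣ orderOf g →
      1 + (ζ₂ : G → ℂ) g + (ε : ℂ) * (ζ₃ : G → ℂ) g - (ζ₄ : G → ℂ) g = 0 := fun g hg =>
    hrel g (Nat.odd_iff.mpr (by omega))
  -- counting the singular elements
  obtain ⟨S, hS⟩ : ∃ S : Finset G, S = Finset.univ.filter (fun g : G => 2 ∣ orderOf g) :=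
    ⟨_, rfl⟩
  have hcount : (4 : ℂ) * (S.card : ℂ) = (Nat.card G : ℂ) := by
    have h1 : ∑ g : G, (1 + (ζ₂ : G → ℂ) g + (ε : ℂ) * (ζ₃ : G → ℂ) g - (ζ₄ : G → ℂ) g)
        = (Nat.card G : ℂ) := by
      rw [Finset.sum_sub_distrib, Finset.sum_add_distrib, Finset.sum_add_distrib,
        ← Finset.mul_sum, sum_irr_eq_zero ζ₂ h21, sum_irr_eq_zero ζ₃ h31, sum_irr_eq_zero ζ₄ h41]
      simp [Nat.card_eq_fintype_card]
    have h2 : ∑ g : G, (1 + (ζ₂ : G → ℂ) g + (ε : ℂ) * (ζ₃ : G → ℂ) g - (ζ₄ : G → ℂ) g)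
        = ∑ g : G, if 2 ∣ orderOf g then (4 : ℂ) else 0 :=
      Finset.sum_congr rfl fun g _ => by
        by_cases hg : 2 ∣ orderOf g
        · rw [if_pos hg, (hsing g hg).1]
        · rw [if_neg hg, hreg g hg]
    rw [← h1, h2, ← Finset.sum_filter, ← hS, Finset.sum_const, nsmul_eq_mul, mul_comm]
  have hirr : ∀ χ : IrrCharacter G, ∑ g : G, (χ : G → ℂ) g * starRingEnd ℂ ((χ : G → ℂ) g)
      = (Nat.card G : ℂ) := by
    intro χ
    have h := irr_orthonormal χ χ
    rw [if_pos rfl] at h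
    have h' : (Nat.card G : ℂ)⁻¹ * ∑ g : G, (χ : G → ℂ) g * starRingEnd ℂ ((χ : G → ℂ) g) = 1 :=
      h
    calc ∑ g : G, (χ : G → ℂ) g * starRingEnd ℂ ((χ : G → ℂ) g)
        = (Nat.card G : ℂ) * ((Nat.card G : ℂ)⁻¹ *
          ∑ g : G, (χ : G → ℂ) g * starRingEnd ℂ ((χ : G → ℂ) g)) := by
          rw [← mul_assoc, mul_inv_cancel₀ hG0, one_mul]
      _ = (Nat.card G : ℂ) := by rw [h', mul_one]
  have htr := blockRank_trace (p := 2) hM t
  rw [← hPB] at htr
  have hT : ∀ x : G, ∑ᶠ χ ∈ principalBlock M G,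
      pRegularPart 2 (χ : G → ℂ) x * (χ : G → ℂ) x⁻¹
        = N x - (if 2 ∣ orderOf x then (4 : ℂ) else 0) := by
    intro x
    rw [hsum4 (fun χ : IrrCharacter G => pRegularPart 2 (χ : G → ℂ) x * (χ : G → ℂ) x⁻¹)]
    by_cases hx : 2 ∣ orderOf x
    · rw [if_pos hx, pRegularPart_sing _ hx, pRegularPart_sing _ hx, pRegularPart_sing _ hx,
        pRegularPart_sing _ hx, (hsing x hx).2]
      ring
    · rw [if_neg hx, pRegularPart_reg _ hx, pRegularPart_reg _ hx, pRegularPart_reg _ hx,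
        pRegularPart_reg _ hx, irr_inv ζ₂ x, irr_inv ζ₃ x, irr_inv ζ₄ x, ht, hNapp]
      ring
  have hNsum : ∑ x : G, N x = 4 * (Nat.card G : ℂ) := by
    rw [Finset.sum_congr rfl (fun x _ => hNapp x), Finset.sum_add_distrib,
      Finset.sum_add_distrib, Finset.sum_add_distrib, hirr ζ₂, hirr ζ₃, hirr ζ₄]
    simp only [Finset.sum_const, Finset.card_univ, nsmul_eq_mul, mul_one]
    rw [← Nat.card_eq_fintype_card]
    ring
  have hfinal : (Nat.card G : ℂ) * (blockRank 2 (principalBlock M G) : ℂ)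
      = (Nat.card G : ℂ) * 3 := by
    rw [htr, Finset.sum_congr rfl (fun x _ => hT x), Finset.sum_sub_distrib, hNsum,
      ← Finset.sum_filter, ← hS, Finset.sum_const, nsmul_eq_mul]
    linear_combination (-1 : ℂ) * hcount
  have h3 : (blockRank 2 (principalBlock M G) : ℂ) = 3 := mul_left_cancel₀ hG0 hfinal
  exact_mod_cast h3

end Cfsg.Agent.Helper5
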