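import Mathlib
import Cfsg.Agent.Helper5.KnStb
import Cfsg.Agent.Helper5.BlkStab

/-!
# The stabilizer of a covered block and `p`-power overgroups (S4673)

If `N ≤ L` are normal in `G` with `L / N` a `p`-group, the block `B` of `G` covers the block `c`
of `N`, and `N` contains a defect group of `B`, then the stabilizer of `c` meets `L` in `N`.
-/

set_option autoImplicit false

namespace Cfsg.Agent.Helper5

open Cfsg Cfsg.Agent.Helper24 Cfsg.Agent.Helper22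

universe u

section Mid

variable {G : Type u} [Group G] [Fintype G]

/-- a constituent of `χ` on `N ≤ L` lies under a constituent of `χ` on `L`. -/
theorem exists_mid_constituent (N L : Subgroup G) [Fintype N] [Fintype L] (hNL : N ≤ L)
    (χ : IrrCharacter G) (θ : IrrCharacter N)
    (h : classInner (fun n : N => (χ : G → ℂ) n) (θ : N → ℂ) ≠ 0) :
    ∃ ξ : IrrCharacter L, classInner (fun l : L => (χ : G → ℂ) l) (ξ : L → ℂ) ≠ 0 ∧
      classInner (fun n : N => (ξ : L → ℂ) ⟨n, hNL n.2⟩) (θ : N → ℂ) ≠ 0 := by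
  classical
  have hΦ : IsClassFunction L (fun l : L => (χ : G → ℂ) l) := by
    intro l h'
    show (χ : G → ℂ) ((h' : G) * l * (h' : G)⁻¹) = (χ : G → ℂ) l
    exact irr_conj χ _ _
  have hdec := classFunction_eq_sum_irr _ hΦ
  have e1 : (fun n : N => (χ : G → ℂ) n) = ∑ ξ : IrrCharacter L,
      classInner (fun l : L => (χ : G → ℂ) l) (ξ : L → ℂ) •
        (fun n : N => (ξ : L → ℂ) ⟨n, hNL n.2⟩) := by
    funext n
    have h1 := congrFun hdec ⟨n, hNL n.2⟩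
    simp only [Finset.sum_apply, Pi.smul_apply] at h1 ⊢
    exact h1
  by_contra hcon
  push Not at hcon
  apply h
  rw [e1, classInner_sum_left]
  refine Finset.sum_eq_zero fun ξ _ => ?_
  rw [classInner_smul_left]
  by_cases h0 : classInner (fun l : L => (χ : G → ℂ) l) (ξ : L → ℂ) = 0
  · rw [h0, zero_mul]
  · rw [hcon ξ h0, mul_zero]

end Mid

section Idx

variable {G : Type u} [Group G] [Fintype G] (N : Subgroup G) [hN : N.Normal] [Fintype N]

/-- the stabilizer in `G` of a block of `N`, restricted to an overgroup `L ≥ N`, stabilizes the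
corresponding block of `N.subgroupOf L`. -/
theorem mem_knStab_subgroupOf {M : Ideal AlgInt} (L : Subgroup G) [Fintype L]
    [Fintype (N.subgroupOf L)]
    (hNL : N ≤ L) (θ₀ : IrrCharacter N) (l : L)
    (hl : (l : G) ∈ knStab N (blockOf M (θ₀ : N → ℂ))) :
    l ∈ knStab (N.subgroupOf L) (blockOf M (resIrr hNL θ₀ : N.subgroupOf L → ℂ)) := by
  have hsurj : ∀ θ' : IrrCharacter (N.subgroupOf L),
      ∃ θ : IrrCharacter N, resIrr hNL θ = θ' := by
    intro θ'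
    refine ⟨⟨fun n => (θ' : N.subgroupOf L → ℂ) ((Subgroup.subgroupOfEquivOfLe hNL).symm n),
      isIrr_comp_mulEquiv_h5 _ θ'.2⟩, ?_⟩
    apply Subtype.ext
    funext a
    show (θ' : N.subgroupOf L → ℂ) ((Subgroup.subgroupOfEquivOfLe hNL).symm
      (Subgroup.subgroupOfEquivOfLe hNL a)) = _
    rw [MulEquiv.symm_apply_apply]
  have hmem : ∀ θ : IrrCharacter N,
      resIrr hNL θ ∈ blockOf M (resIrr hNL θ₀ : N.subgroupOf L → ℂ)
        ↔ θ ∈ blockOf M (θ₀ : N → ℂ) :=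
    fun θ => resIrr_sameBlock hNL θ₀ θ
  have htw : ∀ (t : L) (θ : IrrCharacter N),
      twIrr (N.subgroupOf L) t (resIrr hNL θ) = resIrr hNL (twIrr N (t : G) θ) := by
    intro t θ
    apply Subtype.ext
    funext a
    rfl
  intro θ'
  obtain ⟨θ, rfl⟩ := hsurj θ'
  rw [htw, hmem, hmem]
  exact hl θ

/-- if `N` has `p`-power index, `B` covers the block `b` of `N` and `N` contains a defect
group of `B`, then the stabilizer of `b` is `N`. -/
theorem knStab_le_of_defect_le {p : ℕ} [Fact p.Prime] {M : Ideal AlgInt} (hM : IsPModular p M)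
    [hMp : M.IsPrime] (hidx : ∃ k : ℕ, N.index = p ^ k) (θ₀ : IrrCharacter N)
    (χ₀ : IrrCharacter G)
    (hcov : ∃ χ ∈ blockOf M (χ₀ : G → ℂ), ∃ θ ∈ blockOf M (θ₀ : N → ℂ),
      classInner (fun n : N => (χ : G → ℂ) n) (θ : N → ℂ) ≠ 0)
    (D : Subgroup G) (hD : IsDefectGroup p M (blockOf M (χ₀ : G → ℂ)) D) (hDN : D ≤ N) :
    knStab N (blockOf M (θ₀ : N → ℂ)) ≤ N := by
  classical
  have hp : p.Prime := Fact.out
  obtain ⟨T, hTdef⟩ : ∃ T : Subgroup G, T = knStab N (blockOf M (θ₀ : N → ℂ)) := ⟨_, rfl⟩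
  rw [← hTdef]
  haveI : Fintype T := Fintype.ofFinite _
  have hT : ∀ g : G, g ∈ T ↔ ∀ θ ∈ blockOf M (θ₀ : N → ℂ),
      twIrr N g θ ∈ blockOf M (θ₀ : N → ℂ) := by
    intro g
    rw [hTdef]
    exact knStab_iff N θ₀ g
  have hNT : N ≤ T := by
    rw [hTdef]
    exact le_knStab N _
  obtain ⟨ψ₀, hcovT, hind⟩ := (fong_reynolds N θ₀ T hT hNT).2.2 χ₀ hcov
  obtain ⟨g₀, hg₀⟩ := exists_defect_class (M := M) ψ₀
  obtain ⟨Q₀⟩ : Nonempty (Sylow p (Subgroup.centralizer ({g₀} : Set T))) := inferInstance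
  obtain ⟨D', hD'def⟩ : ∃ D' : Subgroup T, D' = (Q₀ : Subgroup (Subgroup.centralizer
      ({g₀} : Set T))).map (Subgroup.centralizer ({g₀} : Set T)).subtype := ⟨_, rfl⟩
  have hD' : IsDefectGroup p M (blockOf M (ψ₀ : T → ℂ)) D' := ⟨g₀, hg₀, Q₀, hD'def⟩
  have hDB := (fong_reynolds_defect hM N θ₀ T hT hNT ψ₀ hcovT _ hind).1 D' hD'
  obtain ⟨x, hx⟩ := defect_groups_conj hM χ₀ D _ hD hDB
  have hD'N : D' ≤ N.subgroupOf T := by
    intro t ht
    rw [Subgroup.mem_subgroupOf]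
    have h1 : (t : G) ∈ D'.map T.subtype := ⟨t, ht, rfl⟩
    rw [hx] at h1
    obtain ⟨d, hd, hdt⟩ := h1
    rw [← hdt]
    exact hN.conj_mem d (hDN hd) x
  haveI : Fintype (N.subgroupOf T) := Fintype.ofFinite _
  haveI hN' : (N.subgroupOf T).Normal := inferInstance
  have hmem : ∀ θ : IrrCharacter N,
      resIrr hNT θ ∈ blockOf M (resIrr hNT θ₀ : N.subgroupOf T → ℂ)
        ↔ θ ∈ blockOf M (θ₀ : N → ℂ) :=
    fun θ => resIrr_sameBlock hNT θ₀ θ
  have hres : ∀ (ψ : IrrCharacter T) (θ : IrrCharacter N),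
      classInner (fun n : N.subgroupOf T => (ψ : T → ℂ) n)
          (resIrr hNT θ : N.subgroupOf T → ℂ)
        = classInner (fun n : N => (ψ : T → ℂ) ⟨n, hNT n.2⟩) (θ : N → ℂ) := by
    intro ψ θ
    exact classInner_resSub hNT (fun n : N => (ψ : T → ℂ) ⟨n, hNT n.2⟩) (θ : N → ℂ)
  have hidx' : ∃ j : ℕ, (N.subgroupOf T).index = p ^ j := by
    obtain ⟨k, hk⟩ := hidx
    have h1 : N.relIndex T ∣ N.index := Subgroup.relIndex_dvd_index_of_normal N T
    rw [hk] at h1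
    obtain ⟨j, -, hj⟩ := (Nat.dvd_prime_pow hp).mp h1
    exact ⟨j, hj⟩
  have hst'' : ∀ t : T, StabilizesBlock (N.subgroupOf T)
      (blockOf M (resIrr hNT θ₀ : N.subgroupOf T → ℂ)) t :=
    fun t => stabilizesBlock_of_mem_knStab (N.subgroupOf T) _ t
      (mem_knStab_subgroupOf N T hNT θ₀ t (by rw [← hTdef]; exact t.2))
  obtain ⟨χ₁, hco, hmemiff⟩ := stable_block_spec (N.subgroupOf T) hM hidx' (resIrr hNT θ₀) hst''
  obtain ⟨ψ, hψ, θ, hθ, hne⟩ := hcovT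
  have hψ₁ : ψ ∈ blockOf M (χ₁ : T → ℂ) :=
    (hmemiff ψ (resIrr hNT θ) (by rw [hres]; exact hne)).mpr ((hmem θ).mpr hθ)
  have hbeq : blockOf M (ψ₀ : T → ℂ) = blockOf M (χ₁ : T → ℂ) :=
    blockOf_eq_of_sameBlock (sameBlock_trans hψ (sameBlock_symm hψ₁))
  rw [hbeq] at hD'
  obtain ⟨hsup, -⟩ := (stable_block_main (N.subgroupOf T) hM hidx' (resIrr hNT θ₀) hst'').2
    χ₁ hco D' hD'
  have htop : N.subgroupOf T = ⊤ := by
    rw [← hsup]
    exact (sup_eq_left.mpr hD'N).symm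
  intro g hg
  have h2 : (⟨g, hg⟩ : T) ∈ N.subgroupOf T := by
    rw [htop]
    exact Subgroup.mem_top _
  exact Subgroup.mem_subgroupOf.mp h2

end Idx

section Main

variable {G : Type u} [Group G] [Fintype G] (N : Subgroup G) [hN : N.Normal] [Fintype N]

/-- S4673, for `B = blockOf M χ₀`, `c = blockOf M θ₀`. -/
theorem knStab_inf_le {p : ℕ} [Fact p.Prime] {M : Ideal AlgInt} (hM : IsPModular p M)
    [hMp : M.IsPrime] (L : Subgroup G) [hL : L.Normal] (hNL : N ≤ L)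
    (hLN : ∃ k : ℕ, (N.subgroupOf L).index = p ^ k)
    (θ₀ : IrrCharacter N) (χ₀ : IrrCharacter G)
    (hcov : ∃ χ ∈ blockOf M (χ₀ : G → ℂ), ∃ θ ∈ blockOf M (θ₀ : N → ℂ),
      classInner (fun n : N => (χ : G → ℂ) n) (θ : N → ℂ) ≠ 0)
    (D : Subgroup G) (hD : IsDefectGroup p M (blockOf M (χ₀ : G → ℂ)) D) (hDN : D ≤ N) :
    knStab N (blockOf M (θ₀ : N → ℂ)) ⊓ L ≤ N := by
  classical
  haveI : Fintype L := Fintype.ofFinite _
  haveI : Fintype (N.subgroupOf L) := Fintype.ofFinite _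
  haveI hN' : (N.subgroupOf L).Normal := inferInstance
  obtain ⟨χ, hχ, θ, hθ, hne⟩ := hcov
  obtain ⟨ξ, hξ1, hξ2⟩ := exists_mid_constituent N L hNL χ θ hne
  obtain ⟨D₁, hD₁, -, hD₁L⟩ := knorr_general L hM ξ χ₀
    ⟨χ, hχ, ξ, sameBlock_refl _, hξ1⟩
  obtain ⟨x, hx⟩ := defect_groups_conj hM χ₀ D D₁ hD hD₁
  have hD₁N : D₁ ≤ N := by
    rw [hx]
    rintro _ ⟨d, hd, rfl⟩
    exact hN.conj_mem d (hDN hd) x
  have hres : classInner (fun n : N.subgroupOf L => (ξ : L → ℂ) n)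
        (resIrr hNL θ : N.subgroupOf L → ℂ)
      = classInner (fun n : N => (ξ : L → ℂ) ⟨n, hNL n.2⟩) (θ : N → ℂ) :=
    classInner_resSub hNL (fun n : N => (ξ : L → ℂ) ⟨n, hNL n.2⟩) (θ : N → ℂ)
  have hle := knStab_le_of_defect_le (N.subgroupOf L) hM hLN (resIrr hNL θ₀) ξ
    ⟨ξ, sameBlock_refl _, resIrr hNL θ, (resIrr_sameBlock hNL θ₀ θ).mpr hθ,
      by rw [hres]; exact hξ2⟩
    ((D₁ ⊓ L).subgroupOf L) hD₁L (by
      intro a ha
      rw [Subgroup.mem_subgroupOf] at ha ⊢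
      exact hD₁N ha.1)
  rintro g ⟨hgT, hgL⟩
  have h1 := hle (mem_knStab_subgroupOf N L hNL θ₀ ⟨g, hgL⟩ hgT)
  exact Subgroup.mem_subgroupOf.mp h1

end Main

end Cfsg.Agent.Helper5
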