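import Mathlib
import Cfsg.Agent.Helper22.BlkHtLin
import Cfsg.Agent.Helper22.Ito
import Cfsg.Agent.Helper22.GalIrr
import Cfsg.Agent.Helper22.BlkContrib
import Cfsg.Agent.Helper5.BlkKer
import Cfsg.Agent.Helper5.BlkDefect

/-!
helper5: Reynolds' theorem for a normal defect group `P` of a block `B`:
`P` is abelian iff every member of `B` has height zero.

* `reyn_forward` : abelian normal defect group gives height zero (Ito).
* `reyn_backward` : all heights zero gives an abelian normal defect group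
  (linear constituents on `P` + the kernel of a block is a `p'`-group).
-/

set_option autoImplicit false

namespace Cfsg.Agent.Helper5

open Cfsg Cfsg.Agent.Helper22 Cfsg.Agent.Helper24

universe u

variable {G : Type u} [Group G] [Fintype G]

theorem reyn_forward {p : ℕ} [Fact p.Prime] {M : Ideal AlgInt} (hM : IsPModular p M)
    (χ₀ : IrrCharacter G) (P : Subgroup G) [P.Normal]
    (hP : IsDefectGroup p M (blockOf M (χ₀ : G → ℂ)) P)
    (hab : ∀ a ∈ P, ∀ c ∈ P, a * c = c * a) (χ : IrrCharacter G) :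
    blockHeight p (blockOf M (χ₀ : G → ℂ)) (χ : G → ℂ) = 0 := by
  haveI hMp : M.IsPrime := hM.2.1.isPrime
  have hp : p.Prime := Fact.out
  obtain ⟨d, hd, hdvd⟩ := ito χ.2 P hab
  obtain ⟨h1, hc0, hcdvd⟩ := irr_charDegree_spec χ
  have hdeg : charDegree (χ : G → ℂ) = d := by
    have h2 : (charDegree (χ : G → ℂ) : ℂ) = (d : ℂ) := by rw [← h1, hd]
    exact_mod_cast h2
  have hcard := card_defect_group hM χ₀ P hP
  have hbd := block_defect_eq (M := M) p χ₀
  have hmul := Subgroup.card_mul_index P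
  have hi0 : P.index ≠ 0 := Subgroup.index_ne_zero_of_finite
  have hP0 : Nat.card P ≠ 0 := Nat.card_pos.ne'
  have hfac : (Nat.card G).factorization p
      = blockDefect p (blockOf M (χ₀ : G → ℂ)) + (P.index).factorization p := by
    rw [← hmul, Nat.factorization_mul hP0 hi0, Finsupp.add_apply, hcard,
      Nat.factorization_pow, Finsupp.smul_apply, hp.factorization_self, smul_eq_mul, mul_one]
  have hle : (charDegree (χ : G → ℂ)).factorization p ≤ (P.index).factorization p := by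
    exact (Nat.factorization_le_iff_dvd hc0 hi0).mpr (by rw [hdeg]; exact hdvd) p
  unfold blockHeight
  omega

theorem reyn_backward {p : ℕ} [Fact p.Prime] {M : Ideal AlgInt} (hM : IsPModular p M)
    (χ₀ : IrrCharacter G) (P : Subgroup G) [hPn : P.Normal] [Fintype P]
    (hP : IsDefectGroup p M (blockOf M (χ₀ : G → ℂ)) P)
    (h0 : ∀ χ ∈ blockOf M (χ₀ : G → ℂ),
      blockHeight p (blockOf M (χ₀ : G → ℂ)) (χ : G → ℂ) = 0) :
    ∀ a ∈ P, ∀ c ∈ P, a * c = c * a := by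
  classical
  haveI hMp : M.IsPrime := hM.2.1.isPrime
  have hp : p.Prime := Fact.out
  intro a ha c hc
  have hxP : a * c * a⁻¹ * c⁻¹ ∈ P :=
    P.mul_mem (P.mul_mem (P.mul_mem ha hc) (P.inv_mem ha)) (P.inv_mem hc)
  have hx : a * c * a⁻¹ * c⁻¹ ∈ blockKer (blockOf M (χ₀ : G → ℂ)) := by
    intro χ hχ
    obtain ⟨μ, hμ1, hμχ⟩ := ht0_linear_constituent hM _ ⟨χ₀, rfl⟩ P hP χ hχ (h0 χ hχ)
    have hcf : IsClassFunction P (fun n : P => (χ : G → ℂ) n) := by
      intro g h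
      exact irr_isClassFunction χ (g : G) (h : G)
    have hsum := classFunction_eq_sum_irr (fun n : P => (χ : G → ℂ) n) hcf
    have key : ∀ ν : IrrCharacter P,
        classInner (fun n : P => (χ : G → ℂ) n) (ν : P → ℂ) ≠ 0 →
        (ν : P → ℂ) ⟨a * c * a⁻¹ * c⁻¹, hxP⟩ = (ν : P → ℂ) 1 := by
      intro ν hν
      obtain ⟨g, hg⟩ := exists_twist_of_constituent P (χ : G → ℂ) χ.2 μ ν hμχ hν
      have hν1 : (ν : P → ℂ) 1 = 1 := by
        rw [hg, ← hμ1]
        unfold twist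
        have e0 : (⟨g * ((1 : P) : G) * g⁻¹, hPn.conj_mem (1 : P) (1 : P).2 g⟩ : P) = 1 :=
          Subtype.ext (by
            show g * ((1 : P) : G) * g⁻¹ = ((1 : P) : G)
            simp only [Subgroup.coe_one, mul_one, mul_inv_cancel])
        rw [e0]
      obtain ⟨φ, hφ⟩ := linChar_exists_hom (isCharacter_of_isIrrCharacter ν.2) hν1
      rw [← hφ, ← hφ]
      have e : (⟨a * c * a⁻¹ * c⁻¹, hxP⟩ : P)
          = (⟨a, ha⟩ : P) * ⟨c, hc⟩ * (⟨a, ha⟩ : P)⁻¹ * (⟨c, hc⟩ : P)⁻¹ := rfl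
      rw [e, map_mul, map_mul, map_mul, map_inv, map_inv, map_one]
      have e2 : φ ⟨a, ha⟩ * φ ⟨c, hc⟩ * (φ ⟨a, ha⟩)⁻¹ * (φ ⟨c, hc⟩)⁻¹ = 1 := by
        rw [mul_comm (φ ⟨a, ha⟩) (φ ⟨c, hc⟩), mul_assoc (φ ⟨c, hc⟩), mul_inv_cancel, mul_one,
          mul_inv_cancel]
      rw [e2]
    have e1 := congrFun hsum ⟨a * c * a⁻¹ * c⁻¹, hxP⟩
    have e2 := congrFun hsum 1
    simp only [Finset.sum_apply, Pi.smul_apply, smul_eq_mul] at e1 e2
    show (χ : G → ℂ) (a * c * a⁻¹ * c⁻¹) = (χ : G → ℂ) 1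
    have e3 : (χ : G → ℂ) (a * c * a⁻¹ * c⁻¹)
        = ∑ ν : IrrCharacter P, classInner (fun n : P => (χ : G → ℂ) n) (ν : P → ℂ) *
            (ν : P → ℂ) ⟨a * c * a⁻¹ * c⁻¹, hxP⟩ := e1
    have e4 : (χ : G → ℂ) 1
        = ∑ ν : IrrCharacter P, classInner (fun n : P => (χ : G → ℂ) n) (ν : P → ℂ) *
            (ν : P → ℂ) 1 := e2
    rw [e3, e4]
    refine Finset.sum_congr rfl (fun ν _ => ?_)
    by_cases hν : classInner (fun n : P => (χ : G → ℂ) n) (ν : P → ℂ) = 0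
    · rw [hν, zero_mul, zero_mul]
    · rw [key ν hν]
  obtain ⟨K, hKn, hKeq, hpK, -, -⟩ := block_kernel hM χ₀ χ₀ (sameBlock_refl _)
  have hxK : a * c * a⁻¹ * c⁻¹ ∈ K := by
    rw [← SetLike.mem_coe, hKeq]
    exact hx
  have hPp : IsPGroup p P := IsPGroup.of_card (card_defect_group hM χ₀ P hP)
  obtain ⟨k, hk⟩ := hPp ⟨_, hxP⟩
  have hk' : (a * c * a⁻¹ * c⁻¹) ^ p ^ k = 1 := by
    have := congrArg Subtype.val hk
    simpa using this
  have h1 : orderOf (a * c * a⁻¹ * c⁻¹) ∣ p ^ k := orderOf_dvd_of_pow_eq_one hk'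
  have h2 : orderOf (a * c * a⁻¹ * c⁻¹) ∣ Nat.card K := by
    have h := orderOf_dvd_natCard (⟨_, hxK⟩ : K)
    rwa [Subgroup.orderOf_mk] at h
  have hcop : Nat.Coprime (p ^ k) (Nat.card K) :=
    Nat.Coprime.pow_left k ((Nat.Prime.coprime_iff_not_dvd hp).mpr hpK)
  have h3 : orderOf (a * c * a⁻¹ * c⁻¹) = 1 := Nat.eq_one_of_dvd_coprimes hcop h1 h2
  have h4 : a * c * a⁻¹ * c⁻¹ = 1 := orderOf_eq_one_iff.mp h3
  calc a * c = (a * c * a⁻¹ * c⁻¹) * (c * a) := by group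
    _ = c * a := by rw [h4, one_mul]

end Cfsg.Agent.Helper5
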